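import Cfsg.Agent.WA.ISkFa

/-! The frame API, part a. -/

set_option autoImplicit false
set_option linter.unusedSectionVars false

namespace Cfsg.Agent.WA.Sk

open Subgroup Cfsg.Agent.H8

variable {F : Type*} [Field F] [Finite F] {θ : RingAut F} {G : Type*} [Group G] [Finite G]

theorem Fr.t_j (f : Fr θ G) (x y : F) : f.t * f.j x y = f.j x y * f.t := f.tA _ (f.jA x y)
theorem Fr.t_κ (f : Fr θ G) (k : Fˣ) : f.t * f.κ k = f.κ k * f.t := f.tA _ (f.κA k)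

theorem Fr.t_inv (f : Fr θ G) : f.t⁻¹ = f.t := inv_eq_of_mul_eq_one_right f.tt

theorem Fr.mem_sup_t (f : Fr θ G) {X : Subgroup G} (hX : ∀ x ∈ X, f.t * x = x * f.t) {g : G} :
    g ∈ zpowers f.t ⊔ X ↔ g ∈ X ∨ ∃ x ∈ X, g = f.t * x := by
  refine ⟨fun h => ?_, ?_⟩
  · rw [sup_comm] at h
    rcases H4.R4.two (H9.mem_normalizer_of_conj_mem fun x hx => by rwa [hX x hx, mul_inv_cancel_right])
      (f.tt ▸ X.one_mem) h with h | ⟨x, hx, rfl⟩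
    · exact Or.inl h
    · exact Or.inr ⟨x, hx, (hX x hx).symm⟩
  · rintro (h | ⟨x, hx, rfl⟩)
    · exact mem_sup_right h
    · exact mul_mem (mem_sup_left (mem_zpowers _)) (mem_sup_right hx)

theorem Fr.mem_E (f : Fr θ G) {g : G} : g ∈ f.E ↔ ∃ y, g = f.j 0 y ∨ g = f.t * f.j 0 y := by
  rw [Fr.E, f.mem_sup_t (by rintro _ ⟨y, rfl⟩; exact f.t_j _ _)]
  constructor
  · rintro (⟨y, rfl⟩ | ⟨_, ⟨y, rfl⟩, rfl⟩)
    exacts [⟨y, Or.inl rfl⟩, ⟨y, Or.inr rfl⟩]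
  · rintro ⟨y, rfl | rfl⟩
    exacts [Or.inl ⟨y, rfl⟩, Or.inr ⟨_, ⟨y, rfl⟩, rfl⟩]

theorem Fr.mem_T (f : Fr θ G) {g : G} : g ∈ f.T ↔ ∃ x y, g = f.j x y ∨ g = f.t * f.j x y := by
  rw [Fr.T, f.mem_sup_t (by rintro _ ⟨x, y, rfl⟩; exact f.t_j _ _)]
  constructor
  · rintro (⟨x, y, rfl⟩ | ⟨_, ⟨x, y, rfl⟩, rfl⟩)
    exacts [⟨x, y, Or.inl rfl⟩, ⟨x, y, Or.inr rfl⟩]
  · rintro ⟨x, y, rfl | rfl⟩
    exacts [Or.inl ⟨x, y, rfl⟩, Or.inr ⟨_, ⟨x, y, rfl⟩, rfl⟩]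

theorem Fr.j_sq (f : Fr θ G) (x y : F) : f.j x y * f.j x y = f.j 0 (ss θ x) := by
  rw [f.j_mul, f.toFd.add_self, f.toFd.add_self, zero_add, ss, mul_comm]

theorem Fr.j_cm (f : Fr θ G) (x y x' y' : F) :
    f.j x y * f.j x' y' * (f.j x y)⁻¹ * (f.j x' y')⁻¹ = f.j 0 (bb θ x x') := by
  rw [mul_assoc, ← mul_inv_rev, mul_inv_eq_iff_eq_mul, f.j_mul, f.j_mul, f.j_mul]
  congr 1
  · ring
  · simp only [bb, map_zero]; linear_combination -(x * θ x') * f.two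

theorem Fr.z_add (f : Fr θ G) (y y' : F) : f.j 0 (y + y') = f.j 0 y * f.j 0 y' := by simp [f.j_mul]
theorem Fr.z_sq (f : Fr θ G) (y : F) : f.j 0 y * f.j 0 y = 1 := by rw [← f.z_add, f.toFd.add_self, f.j0]
theorem Fr.z_inv (f : Fr θ G) (y : F) : (f.j 0 y)⁻¹ = f.j 0 y := inv_eq_of_mul_eq_one_right (f.z_sq y)
theorem Fr.z_comm (f : Fr θ G) (y x' y' : F) : f.j 0 y * f.j x' y' = f.j x' y' * f.j 0 y := by
  simp [f.j_mul, add_comm]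
theorem Fr.z_inj (f : Fr θ G) {y y' : F} (h : f.j 0 y = f.j 0 y') : y = y' := (f.j_inj _ _ _ _ h).2
theorem Fr.z_eq_one (f : Fr θ G) {y : F} : f.j 0 y = 1 ↔ y = 0 :=
  ⟨fun h => f.z_inj (h.trans f.j0.symm), fun h => h ▸ f.j0⟩
theorem Fr.j_mem_Z (f : Fr θ G) {x y : F} : f.j x y ∈ f.Z ↔ x = 0 :=
  ⟨fun ⟨_, e⟩ => (f.j_inj _ _ _ _ e).1, fun e => ⟨y, e ▸ rfl⟩⟩
theorem Fr.tj_ne (f : Fr θ G) (x y x' y' : F) : f.t * f.j x y ≠ f.j x' y' := fun e =>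
  f.t_ne _ _ (by rw [eq_mul_inv_of_mul_eq e, f.j_inv, f.j_mul])
theorem Fr.Z_le_U (f : Fr θ G) : f.Z ≤ f.U := fun _ ⟨y, e⟩ => ⟨0, y, e⟩
theorem Fr.Z_le_E (f : Fr θ G) : f.Z ≤ f.E := le_sup_right
theorem Fr.U_le_T (f : Fr θ G) : f.U ≤ f.T := le_sup_right
theorem Fr.E_le_T (f : Fr θ G) : f.E ≤ f.T := sup_le_sup_left f.Z_le_U _
theorem Fr.t_mem_E (f : Fr θ G) : f.t ∈ f.E := mem_sup_left (mem_zpowers _)

theorem Fr.T_comm (f : Fr θ G) {g e : G} (hg : g ∈ f.T) (he : e ∈ f.E) : g * e = e * g := by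
  have h1 : ∀ x y, Commute f.t (f.j x y) := f.t_j
  have h2 : ∀ y x' y', Commute (f.j 0 y) (f.j x' y') := f.z_comm
  obtain ⟨x, y, rfl | rfl⟩ := f.mem_T.1 hg <;> obtain ⟨z, rfl | rfl⟩ := f.mem_E.1 he
  · exact (h2 _ _ _).symm
  · exact ((h1 _ _).mul_left (h2 _ _ _)).symm
  · exact (h1 _ _).mul_left (h2 _ _ _).symm
  · exact ((Commute.refl _).mul_right (h1 _ _)).mul_left ((h1 _ _).mul_left (h2 _ _ _)).symm

theorem Fr.κ_one (f : Fr θ G) : f.κ 1 ∈ f.O := by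
  obtain ⟨o, ho, e⟩ := f.κ_mul 1 1
  rw [mul_one, mul_assoc, left_eq_mul] at e
  rw [eq_inv_of_mul_eq_one_left e]
  exact inv_mem ho

theorem Fr.κ_norm (f : Fr θ G) (k : Fˣ) : f.κ k ∈ normalizer (f.U : Set G) ∧ f.κ k ∈ normalizer (f.Z : Set G) ∧
    f.κ k ∈ normalizer (f.E : Set G) ∧ f.κ k ∈ normalizer (f.T : Set G) := by
  have e : ∀ x y, f.κ k * (f.t * f.j x y) * (f.κ k)⁻¹ = f.t * f.j (k * x) (ss θ k * y) := fun x y => by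
    rw [← mul_assoc, ← f.t_κ, ← f.κ_j]; group
  refine ⟨H9.mem_normalizer_of_conj_mem ?_, H9.mem_normalizer_of_conj_mem ?_,
    H9.mem_normalizer_of_conj_mem fun g hg => ?_, H9.mem_normalizer_of_conj_mem fun g hg => ?_⟩
  · rintro _ ⟨x, y, rfl⟩; exact ⟨_, _, f.κ_j _ _ _⟩
  · rintro _ ⟨y, rfl⟩; exact ⟨_, by rw [f.κ_j, mul_zero]⟩
  · obtain ⟨y, rfl | rfl⟩ := f.mem_E.1 hg
    · exact f.mem_E.2 ⟨_, Or.inl (by rw [f.κ_j, mul_zero])⟩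
    · exact f.mem_E.2 ⟨_, Or.inr (by rw [e, mul_zero])⟩
  · obtain ⟨x, y, rfl | rfl⟩ := f.mem_T.1 hg
    · exact f.mem_T.2 ⟨_, _, Or.inl (f.κ_j _ _ _)⟩
    · exact f.mem_T.2 ⟨_, _, Or.inr (e _ _)⟩

theorem Fr.O_comm (f : Fr θ G) {o g : G} (ho : o ∈ f.O) (hg : g ∈ f.T) : o * g = g * o := by
  obtain ⟨x, y, rfl | rfl⟩ := f.mem_T.1 hg
  · exact f.OA o ho _ (f.jA _ _)
  · exact (show Commute o f.t from (f.tO o ho).symm).mul_right (f.OA o ho _ (f.jA _ _))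

theorem Fr.card_Z (f : Fr θ G) : Nat.card f.Z = f.q :=
  (Nat.card_congr (Equiv.ofBijective (fun y : F => (⟨f.j 0 y, y, rfl⟩ : f.Z))
    ⟨fun _ _ e => f.z_inj (congrArg Subtype.val e), fun ⟨_, y, e⟩ => ⟨y, Subtype.ext e.symm⟩⟩)).symm

theorem Fr.card_U (f : Fr θ G) : Nat.card f.U = f.q ^ 2 := by
  rw [pow_two, Fr.q, ← Nat.card_prod]
  exact (Nat.card_congr (Equiv.ofBijective (fun p : F × F => (⟨f.j p.1 p.2, p.1, p.2, rfl⟩ : f.U))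
    ⟨fun _ _ e => Prod.ext_iff.2 (f.j_inj _ _ _ _ (congrArg Subtype.val e)),
      fun ⟨_, x, y, e⟩ => ⟨(x, y), Subtype.ext e.symm⟩⟩)).symm

theorem Fr.card_sup_t (f : Fr θ G) {X : Subgroup G} (hX : ∀ x ∈ X, f.t * x = x * f.t) (ht : f.t ∉ X) :
    Nat.card (zpowers f.t ⊔ X : Subgroup G) = 2 * Nat.card X := by
  rw [← H9.card_mul_relIndex (le_sup_right : X ≤ zpowers f.t ⊔ X), mul_comm,
    H9.relIndex_eq_two_of (mem_sup_left (mem_zpowers f.t)) ht fun g hg h => ?_]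
  rcases (f.mem_sup_t hX).1 hg with e | ⟨x, hx, rfl⟩
  · exact absurd e h
  · rwa [hX x hx, mul_assoc, f.tt, mul_one]

theorem Fr.card_E (f : Fr θ G) : Nat.card f.E = 2 * f.q := by
  rw [← f.card_Z]
  exact f.card_sup_t (by rintro _ ⟨y, rfl⟩; exact f.t_j _ _) fun ⟨y, e⟩ => f.t_ne _ _ e

theorem Fr.card_T (f : Fr θ G) : Nat.card f.T = 2 * f.q ^ 2 := by
  rw [← f.card_U]
  exact f.card_sup_t (by rintro _ ⟨x, y, rfl⟩; exact f.t_j _ _) fun ⟨x, y, e⟩ => f.t_ne _ _ e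

theorem Fr.q_pow (f : Fr θ G) : ∃ n, 3 ≤ n ∧ f.q = 2 ^ n := f.toFd.card_pow

theorem Fr.pg_T (f : Fr θ G) : IsPGroup 2 f.T := by
  obtain ⟨n, -, e⟩ := f.q_pow
  exact IsPGroup.of_card (n := n * 2 + 1) (by rw [f.card_T, e, ← pow_mul, pow_succ'])

/-- `g ∈ T` has the coordinate `x` in `T / E` -/
def Fr.Co (f : Fr θ G) (g : G) (x : F) : Prop := ∃ y, g = f.j x y ∨ g = f.t * f.j x y

theorem Fr.Co.sq {f : Fr θ G} {g : G} {x : F} (h : f.Co g x) : g * g = f.j 0 (ss θ x) := by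
  obtain ⟨y, rfl | rfl⟩ := h
  · exact f.j_sq _ _
  · rw [← f.j_sq x y, mul_assoc, ← mul_assoc (f.j x y), ← f.t_j, ← mul_assoc, ← mul_assoc, f.tt, one_mul]

theorem Fr.Co.mul {f : Fr θ G} {g g' : G} {x x' : F} (h : f.Co g x) (h' : f.Co g' x') : f.Co (g * g') (x + x') := by
  obtain ⟨y, rfl | rfl⟩ := h <;> obtain ⟨y', rfl | rfl⟩ := h'
  · exact ⟨_, Or.inl (f.j_mul _ _ _ _)⟩
  · exact ⟨_, Or.inr (by rw [← mul_assoc, ← f.t_j, mul_assoc, f.j_mul])⟩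
  · exact ⟨_, Or.inr (by rw [mul_assoc, f.j_mul])⟩
  · exact ⟨_, Or.inl (by rw [mul_assoc, ← mul_assoc (f.j x y), ← f.t_j, ← mul_assoc, ← mul_assoc, f.tt, one_mul, f.j_mul])⟩

theorem Fr.T_four (f : Fr θ G) {g : G} (hg : g ∈ f.T) : g * g ∈ f.Z := by
  obtain ⟨x, h⟩ := f.mem_T.1 hg
  exact ⟨_, Fr.Co.sq h⟩

theorem Fr.inv_T (f : Fr θ G) {g : G} (hg : g ∈ f.T) (h : g * g = 1) : g ∈ f.E := by
  obtain ⟨x, h1⟩ := f.mem_T.1 hg
  have := Fr.Co.sq h1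
  rw [h, eq_comm, f.z_eq_one, ss_eq_zero] at this
  exact f.mem_E.2 (this ▸ h1)

theorem Fr.E_sq (f : Fr θ G) {g : G} (hg : g ∈ f.E) : g * g = 1 := by
  rw [Fr.Co.sq (f.mem_E.1 hg), f.z_eq_one, ss_eq_zero]

theorem Fr.NT (f : Fr θ G) : normalizer (f.T : Set G) ≤ normalizer (f.Z : Set G) ⊓ normalizer (f.E : Set G) :=
  fun g hg => ⟨H9.mem_normalizer_of_conj_mem fun _ ⟨y, e⟩ => by
      obtain ⟨x, rfl⟩ := f.toFd.ss_surj y
      rw [e, ← f.j_sq x 0, ← conj_mul]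
      exact f.T_four (H9.conj_mem_of_mem_normalizer hg (f.U_le_T ⟨_, _, rfl⟩)),
    H9.mem_normalizer_of_conj_mem fun x hx => f.inv_T (H9.conj_mem_of_mem_normalizer hg (f.E_le_T hx))
      (by rw [conj_mul, f.E_sq hx, mul_one, mul_inv_cancel])⟩

theorem Fr.NU (f : Fr θ G) : normalizer (f.U : Set G) ≤ normalizer (f.Z : Set G) :=
  fun g hg => H9.mem_normalizer_of_conj_mem fun _ ⟨y, e⟩ => by
    obtain ⟨x, rfl⟩ := f.toFd.ss_surj y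
    rw [e, ← f.j_sq x 0, ← conj_mul]
    exact f.T_four (f.U_le_T (H9.conj_mem_of_mem_normalizer hg ⟨_, _, rfl⟩))

theorem Fr.ti' (f : Fr θ G) {g z : G} (hg : g * f.t = f.t * g) (hz : z ∈ f.Z) (h1 : z ≠ 1) (h : g * z * g⁻¹ ∈ f.U) :
    g ∈ normalizer (f.U : Set G) := by
  obtain ⟨y, rfl⟩ := hz
  obtain ⟨x', y', e⟩ := h
  exact H9.mem_normalizer_of_conj_mem fun _ ⟨a, b, e'⟩ => e' ▸ f.ti g hg y x' y' (mt f.z_eq_one.2 h1) e a b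

theorem Fr.ker' (f : Fr θ G) {g : G} (hg : g * f.t = f.t * g) (hz : ∀ y, g * f.j 0 y = f.j 0 y * g) :
    ∃ u ∈ f.T, ∃ o ∈ f.O, g = u * o := by
  obtain ⟨x, y, o, ho, e | e⟩ := f.ker g hg hz
  exacts [⟨_, f.mem_T.2 ⟨x, y, Or.inl rfl⟩, o, ho, e⟩, ⟨_, f.mem_T.2 ⟨x, y, Or.inr rfl⟩, o, ho, e⟩]

theorem Fr.O_pow (f : Fr θ G) {o : G} (ho : o ∈ f.O) {k : ℕ} (h : o ^ 2 ^ k = 1) : o = 1 := by
  have e3 : o ^ Nat.card f.O = 1 := congrArg Subtype.val (pow_card_eq_one' (x := (⟨o, ho⟩ : f.O)))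
  rw [← pow_gcd_eq_one.2 ⟨h, e3⟩, Nat.Coprime.pow_left _ (Nat.coprime_two_left.2 f.O_odd), pow_one]

theorem pow4 (g : G) : g ^ 4 = g * g * (g * g) := by simp only [pow_succ, pow_zero, one_mul, mul_assoc]

theorem Fr.T_pow (f : Fr θ G) {g : G} (hg : g ∈ f.T) : g ^ 4 = 1 := by
  obtain ⟨y, e⟩ := f.T_four hg
  rw [pow4, e, f.z_sq]

theorem Fr.mem_T_of_two (f : Fr θ G) {g : G} (hg : g * f.t = f.t * g) (hz : ∀ y, g * f.j 0 y = f.j 0 y * g)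
    (h2 : ∃ k, g ^ 2 ^ k = 1) : g ∈ f.T := by
  obtain ⟨u, hu, o, ho, rfl⟩ := f.ker' hg hz
  obtain ⟨k, hk⟩ := h2
  have e := (show Commute u o from (f.O_comm ho hu).symm).mul_pow (2 ^ (k + 2))
  rw [pow_add, pow_mul, hk, one_pow, mul_comm (2 ^ k), pow_mul u, show u ^ 2 ^ 2 = 1 from f.T_pow hu, one_pow, one_mul,
    mul_comm, ← pow_add] at e
  rwa [f.O_pow ho e.symm, mul_one]

theorem Fr.mem_O_of_odd (f : Fr θ G) {g : G} (hg : g * f.t = f.t * g) (hz : ∀ y, g * f.j 0 y = f.j 0 y * g)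
    (h2 : Odd (orderOf g)) : g ∈ f.O := by
  obtain ⟨u, hu, o, ho, e⟩ := f.ker' hg hz
  have h4 : g ^ 4 ∈ f.O := by
    rw [e, (show Commute u o from (f.O_comm ho hu).symm).mul_pow, f.T_pow hu, one_mul]; exact pow_mem ho _
  obtain ⟨m, hm⟩ := exists_pow_eq_self_of_coprime (x := g) (n := 4)
    (Nat.Coprime.pow_left 2 (Nat.coprime_two_left.2 h2))
  exact hm ▸ pow_mem h4 m

theorem Fr.act_core (f : Fr θ G) {N : Subgroup G} (hP : ∀ g ∈ N, ∀ x y, g * f.j x y * g⁻¹ ∈ f.T)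
    (hZ : N ≤ normalizer (f.Z : Set G)) (k : ℕ) : ∀ g ∈ N, g ^ 2 ^ k = 1 →
      (∀ y, g * f.j 0 y = f.j 0 y * g) ∧ ∀ x y, f.Co (g * f.j x y * g⁻¹) x := by
  induction k with
  | zero => intro g _ e; rw [pow_zero, pow_one] at e; exact ⟨fun y => by simp [e], fun x y => ⟨y, Or.inl (by simp [e])⟩⟩
  | succ k ih =>
  intro g hg e
  obtain ⟨h2, -⟩ := ih (g * g) (mul_mem hg hg) (by rw [← pow_two, ← pow_mul, ← pow_succ', e])
  choose β hβ using fun y => (H9.conj_mem_of_mem_normalizer (hZ hg) (⟨y, rfl⟩ : f.j 0 y ∈ f.Z) : ∃ y', _ = f.j 0 y')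
  choose α hα using fun x => f.toFd.ss_surj (β (ss θ x))
  have h3 : ∀ x y, f.Co (g * f.j x y * g⁻¹) (α x) := fun x y => by
    obtain ⟨x', h⟩ := f.mem_T.1 (hP g hg x y)
    have := Fr.Co.sq h
    rw [conj_mul, f.j_sq, hβ, ← hα] at this
    exact f.toFd.ss_inj (f.z_inj this) ▸ h
  have h4 := f.toFd.lemT (α := α) (β := β) (fun x y => by
      have := ((h3 x 0).mul (h3 y 0)).sq
      rw [conj_mul, f.j_mul, (h3 _ _).sq] at this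
      exact f.toFd.ss_inj (f.z_inj this))
    (fun x y => f.z_inj (by rw [← hβ, f.z_add, f.z_add, ← hβ, ← hβ, conj_mul])) hα fun x => f.toFd.ss_inj (by
      rw [hα, hα]
      refine f.z_inj ?_
      rw [← hβ, ← hβ, show g * (g * f.j 0 (ss θ x) * g⁻¹) * g⁻¹ = g * g * f.j 0 (ss θ x) * (g * g)⁻¹ by group, h2,
        mul_inv_cancel_right])
  exact ⟨fun y => by rw [← mul_inv_eq_iff_eq_mul, hβ, h4.2], fun x y => by simpa only [h4.1] using h3 x y⟩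

/-- `2`-elements of `N(T)` act trivially on `Z` and `T / E` -/
theorem Fr.two_actT (f : Fr θ G) {g : G} (hg : g ∈ normalizer (f.T : Set G)) (h2 : ∃ k, g ^ 2 ^ k = 1) :
    (∀ y, g * f.j 0 y = f.j 0 y * g) ∧
      ∀ x y, ∃ y', g * f.j x y * g⁻¹ = f.j x y' ∨ g * f.j x y * g⁻¹ = f.t * f.j x y' :=
  h2.elim fun k => f.act_core (fun _ hg _ _ => H9.conj_mem_of_mem_normalizer hg (f.U_le_T ⟨_, _, rfl⟩))
    (f.NT.trans inf_le_left) k g hg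

/-- `2`-elements of `N(U)` act trivially on `Z` and `U / Z` -/
theorem Fr.two_actU (f : Fr θ G) {g : G} (hg : g ∈ normalizer (f.U : Set G)) (h2 : ∃ k, g ^ 2 ^ k = 1) :
    (∀ y, g * f.j 0 y = f.j 0 y * g) ∧ ∀ x y, ∃ y', g * f.j x y * g⁻¹ = f.j x y' := by
  obtain ⟨k, hk⟩ := h2
  obtain ⟨h1, h3⟩ := f.act_core (fun _ hg _ _ => f.U_le_T (H9.conj_mem_of_mem_normalizer hg ⟨_, _, rfl⟩)) f.NU k g hg hk
  refine ⟨h1, fun x y => ?_⟩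
  obtain ⟨y', e | e⟩ := h3 x y
  · exact ⟨y', e⟩
  · obtain ⟨a, b, e'⟩ := H9.conj_mem_of_mem_normalizer hg (⟨x, y, rfl⟩ : f.j x y ∈ f.U)
    exact absurd (e.symm.trans e') (f.tj_ne _ _ _ _)

theorem Fr.sylT (f : Fr θ G) : IsSylowIn 2 f.T (centralizer {f.t}) := by
  have hle : f.T ≤ centralizer {f.t} := fun g hg => mem_centralizer_singleton_iff.2 (f.T_comm hg f.t_mem_E)
  refine IsSylowIn.of_not_dvd_relIndex hle f.pg_T fun hd => ?_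
  obtain ⟨x, hx, h1, h2, h3⟩ := H9.exists_mem_normalizer_of_dvd_relIndex f.pg_T hle hd
  have h4 : ∃ k, x ^ 2 ^ k = 1 := ⟨3, by rw [← f.T_pow h3, ← pow_mul]; rfl⟩
  exact h1 (f.mem_T_of_two (mem_centralizer_singleton_iff.1 hx) (f.two_actT h2 h4).1 h4)

theorem Fr.cen_t (f : Fr θ G) {X : Subgroup G} (hX : IsPGroup 2 X) (hT : f.T ≤ X) {g : G} (hg : g ∈ X)
    (h : g * f.t = f.t * g) : g ∈ f.T :=
  (f.sylT.max (X ⊓ centralizer {f.t}) inf_le_right hX.to_inf_left (le_inf hT f.sylT.le)).le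
    ⟨hg, mem_centralizer_singleton_iff.2 h⟩

theorem Fr.w_not (f : Fr θ G) : f.w ∉ normalizer (f.U : Set G) := fun h => by
  obtain ⟨x, y, e⟩ := f.wU
  obtain ⟨a, b, e'⟩ := H9.conj_mem_of_mem_normalizer h (⟨x, y, rfl⟩ : f.j x y ∈ f.U)
  exact e a b (by rwa [inv_eq_of_mul_eq_one_right f.ww] at e')

theorem Fr.O_norm_U (f : Fr θ G) {o : G} (ho : o ∈ f.O) : o ∈ normalizer (f.U : Set G) :=
  H9.mem_normalizer_of_conj_mem fun x hx => by rwa [f.O_comm ho (f.U_le_T hx), mul_inv_cancel_right]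

theorem Fr.A_inf_T (f : Fr θ G) {g : G} (hA : g ∈ f.A) (hT : g ∈ f.T) : g ∈ f.U := by
  obtain ⟨x, y, rfl | rfl⟩ := f.mem_T.1 hT
  · exact ⟨x, y, rfl⟩
  exfalso
  have hj : ∀ x y, f.j x y ∈ normalizer (f.U : Set G) := fun x y => le_normalizer (⟨x, y, rfl⟩ : f.j x y ∈ f.U)
  have ht : f.t ∈ normalizer (f.U : Set G) := H9.mem_normalizer_of_conj_mem fun _ ⟨a, b, e⟩ => by
    rw [e, f.t_j, mul_inv_cancel_right]; exact ⟨a, b, rfl⟩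
  obtain ⟨a, b, k, o, ho, e | ⟨a', b', e⟩⟩ := f.bru _ ((mul_mem_cancel_right (f.jA x y)).1 hA)
  · have h1 : f.κ k * f.j 0 1 * (f.κ k)⁻¹ = f.j 0 1 := by
      have e1 : f.κ k = (f.j a b)⁻¹ * f.t * o⁻¹ := by rw [e]; group
      have c1 : Commute (f.j 0 1) (f.κ k) := e1 ▸ ((show Commute (f.j 0 1) (f.j a b) from f.z_comm _ _ _).inv_right.mul_right
        (f.t_j 0 1).symm).mul_right (show Commute (f.j 0 1) o from (f.OA o ho _ (f.jA _ _)).symm).inv_right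
      rw [← c1.eq, mul_inv_cancel_right]
    rw [f.κ_j, mul_zero, mul_one] at h1
    obtain rfl : k = 1 := Units.ext (f.toFd.ss_inj ((f.z_inj h1).trans ss_one.symm))
    have h2 : f.κ 1 * o ∈ f.T := by
      rw [show f.κ 1 * o = (f.j a b)⁻¹ * f.t by rw [e]; group]
      exact mul_mem (inv_mem (f.U_le_T ⟨_, _, rfl⟩)) (f.E_le_T f.t_mem_E)
    rw [mul_assoc, f.O_pow (mul_mem f.κ_one ho) (k := 2) (f.T_pow h2), mul_one] at e
    exact f.t_ne _ _ e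
  · refine f.w_not ?_
    rw [show f.w = (f.j a b * f.κ k * o)⁻¹ * f.t * (f.j a' b')⁻¹ by rw [e]; group]
    exact mul_mem (mul_mem (inv_mem (mul_mem (mul_mem (hj _ _) (f.κ_norm k).1) (f.O_norm_U ho))) ht) (inv_mem (hj _ _))

theorem Fr.TC_iff (f : Fr θ G) {s : G} : f.TC s ↔ ∃ g, g * f.t * g⁻¹ = s := isConj_iff

theorem Fr.TC_conj (f : Fr θ G) {s : G} (hs : f.TC s) (g : G) : f.TC (g * s * g⁻¹) :=
  IsConj.trans hs (isConj_iff.2 ⟨g, rfl⟩)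

theorem Fr.conj_T (f : Fr θ G) {d : G} (hd : f.TC d) {X : Subgroup G} (hX : IsPGroup 2 X)
    (hc : X ≤ centralizer {d}) : ∃ g, g * d * g⁻¹ = f.t ∧ cj g X ≤ f.T := by
  obtain ⟨a, rfl⟩ := f.TC_iff.1 hd
  obtain ⟨c, hc1, hc2⟩ := H9.exists_conj_mem_of_not_dvd_relIndex (pgroup_cj hX a⁻¹) (H := centralizer {f.t})
    (by rw [cj_le_iff, inv_inv, cj_centralizer_singleton]; exact hc) f.sylT.not_dvd_relIndex
  refine ⟨c⁻¹ * a⁻¹, ?_, fun x hx => ?_⟩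
  · calc _ = c⁻¹ * (f.t * c) := by group
      _ = _ := by rw [← mem_centralizer_singleton_iff.1 hc1, inv_mul_cancel_left]
  · rw [cj_mul, mem_cj, inv_inv] at hx
    simpa [mul_assoc] using hc2 _ hx

theorem Fr.nonsq (f : Fr θ G) {s : G} (hs : f.TC s) (x : G) : x * x ≠ s := fun e => by
  obtain ⟨a, ha⟩ := f.TC_iff.1 hs
  obtain ⟨g, h1, h2⟩ := f.conj_T hs (X := zpowers x) (H9.isPGroup_zpowers ⟨2, by
    rw [show x ^ 2 ^ 2 = x * x * (x * x) from pow4 x, e, ← ha, conj_mul, f.tt, mul_one, mul_inv_cancel]⟩)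
    (zpowers_le.2 (mem_centralizer_singleton_iff.2 (by rw [← e, mul_assoc])))
  obtain ⟨y, e2⟩ := f.T_four (h2 (conj_mem_cj g (mem_zpowers x)))
  exact f.t_ne _ _ (by rw [← e2, conj_mul, e, h1])

theorem Fr.not_TC (f : Fr θ G) {z : G} (hz : z ∈ f.Z) : ¬ f.TC z := fun h => by
  obtain ⟨y, rfl⟩ := hz
  obtain ⟨x, rfl⟩ := f.toFd.ss_surj y
  exact f.nonsq h _ (f.j_sq x 0)

theorem Fr.card_le (f : Fr θ G) {d : G} (hd : f.TC d) {X : Subgroup G} (hX : IsPGroup 2 X)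
    (hc : X ≤ centralizer {d}) : Nat.card X ≤ 2 * f.q ^ 2 := by
  obtain ⟨g, -, h⟩ := f.conj_T hd hX hc
  rw [← f.card_T, ← card_cj g]
  exact card_le_of_le h

theorem Fr.rank_le (f : Fr θ G) {d : G} (hd : f.TC d) {X : Subgroup G} (hX : ∀ x ∈ X, x * x = 1)
    (hc : X ≤ centralizer {d}) : Nat.card X ≤ 2 * f.q := by
  obtain ⟨g, -, h⟩ := f.conj_T hd (H9.isPGroup_of_pow_eq_one fun a ha => (pow_two a).trans (hX a ha)) hc
  rw [← f.card_E, ← card_cj g]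
  refine card_le_of_le fun x hx => f.inv_T (h hx) ?_
  obtain ⟨y, hy, rfl⟩ := hx
  exact (map_mul _ y y).symm.trans (by rw [hX y hy, map_one])

theorem Fr.four_of_comm (f : Fr θ G) {d : G} (hd : f.TC d) {x : G} (h2 : ∃ k, x ^ 2 ^ k = 1) (hc : x * d = d * x) :
    x ^ 4 = 1 := by
  obtain ⟨g, -, h⟩ := f.conj_T hd (H9.isPGroup_zpowers h2) (zpowers_le.2 (mem_centralizer_singleton_iff.2 hc))
  have := f.T_pow (h (conj_mem_cj g (mem_zpowers x)))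
  rwa [conj_pow, mul_inv_eq_one, mul_eq_left] at this

theorem Fr.syl_of (f : Fr θ G) {X : Subgroup G} (hX : IsPGroup 2 X) (hT : f.T ≤ X)
    (h : ∀ g ∈ normalizer (X : Set G), ∃ x ∈ X, g * f.t * g⁻¹ = x * f.t * x⁻¹) : IsSylowIn 2 X ⊤ := by
  refine ⟨le_top, hX, fun P _ hP hXP => le_antisymm ?_ hXP⟩
  by_contra hn
  obtain ⟨g, hg, h1, h2⟩ := H9.exists_mem_normalizer_not_mem hP.isNilpotent hXP hn
  obtain ⟨x, hx, e⟩ := h g h2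
  refine h1 ((mul_mem_cancel_left (inv_mem hx)).1 (hT (f.cen_t hP (hT.trans hXP) (mul_mem (inv_mem (hXP hx)) hg) ?_)))
  calc _ = x⁻¹ * (g * f.t * g⁻¹) * g := by group
    _ = _ := by rw [e]; group

end Cfsg.Agent.WA.Sk
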