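import Cfsg.Agent.WA.SkAd

/-! Failure of weak closure of a central elementary abelian subgroup (see PLAN_SK.md). -/

set_option autoImplicit false
set_option linter.unusedSectionVars false

namespace Cfsg.Agent.WA.Sk

open Subgroup Cfsg.Agent.H8

variable {F : Type*} [Field F] [Finite F] {θ : RingAut F} {G : Type*} [Group G] [Finite G]

namespace C0

variable {S Z : Subgroup G} {n : ℕ} {a b : G}

/-- no bad pair has an intersection of order above `n` -/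
def Mx (S Z : Subgroup G) (n : ℕ) : Prop :=
  ∀ a b, cj a Z ≤ cj b S → n < Nat.card (cj a S ⊓ cj b S : Subgroup G) → cj a Z = cj b Z

theorem card_lt {A B : Subgroup G} (h : A < B) : Nat.card A < Nat.card B :=
  (card_le_of_le h.le).lt_of_ne fun e => h.ne (eq_of_le_of_card_ge h.le e.ge)

theorem exists_le {P Q K : Subgroup G} (h : IsSylowIn 2 P K) (hQ : IsPGroup 2 Q) (hK : Q ≤ K) : ∃ k ∈ K, Q ≤ cj k P := by
  obtain ⟨P', h1, h2⟩ := exists_isSylowIn_ge hQ hK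
  obtain ⟨k, hk, rfl⟩ := h.exists_cj_eq h1
  exact ⟨k, hk, h2⟩

theorem syl (hS : IsSylowIn 2 S ⊤) (a : G) : IsSylowIn 2 (cj a S) ⊤ := cj_top a ▸ hS.cj a

theorem sym (hS : IsSylowIn 2 S ⊤) (hZ : Z ≤ S) (hN : normalizer (S : Set G) ≤ normalizer (Z : Set G)) (hM : Mx S Z n)
    (h1 : cj a Z ≤ cj b S) (hne : cj a Z ≠ cj b Z) (hn : Nat.card (cj a S ⊓ cj b S : Subgroup G) = n) :
    cj b Z ≤ cj a S := by
  have hab : cj a S ≠ cj b S := fun e => hne (by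
    have : cj (b⁻¹ * a) S = S := by rw [cj_mul, e, cj_inv_cj]
    rw [← cj_cj_inv b (cj a Z), ← cj_mul b⁻¹, cj_eq_self (hN (cj_eq_self_iff.1 this))])
  have l1 : cj a S ⊓ cj b S < cj a S := inf_le_left.lt_of_ne fun e =>
    hab (eq_of_le_of_card_ge (inf_eq_left.1 e) (by rw [card_cj, card_cj]))
  have l2 : cj a S ⊓ cj b S < cj b S := inf_le_right.lt_of_ne fun e =>
    hab (eq_of_le_of_card_ge (inf_eq_right.1 e) (by rw [card_cj, card_cj])).symm
  have hR : cj a Z ≤ cj a S ⊓ cj b S := le_inf (cj_mono a hZ) h1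
  generalize cj a S ⊓ cj b S = R at *
  have m1 := lt_inf_normalizer_of_pgroup (syl hS a).pgroup l1
  have m2 := lt_inf_normalizer_of_pgroup (syl hS b).pgroup l2
  obtain ⟨Q, q1, q2⟩ := exists_isSylowIn_ge ((syl hS a).pgroup.to_inf_left (K := normalizer (R : Set G))) inf_le_right
  obtain ⟨c, -, q3⟩ := exists_le hS q1.pgroup le_top
  obtain ⟨k, k1, k2⟩ := exists_le q1 ((syl hS b).pgroup.to_inf_left (K := normalizer (R : Set G))) inf_le_right
  have e1 := hM a c (hR.trans (m1.le.trans (q2.trans q3)))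
    (hn ▸ (card_lt m1).trans_le (card_le_of_le (le_inf inf_le_left (q2.trans q3))))
  have e2 : cj (k * c) Z ≤ R := by rw [cj_mul, ← e1]; exact cj_le_of_mem_normalizer k1 hR
  have e3 := hM (k * c) b (e2.trans l2.le) (hn ▸ (card_lt m2).trans_le (card_le_of_le
    (le_inf (by rw [cj_mul]; exact k2.trans (cj_mono k q3)) inf_le_left)))
  exact e3 ▸ e2.trans l1.le

theorem cen (hc : ∀ s ∈ S, ∀ z ∈ Z, s * z = z * s) (a : G) {s z : G} (hs : s ∈ cj a S) (hz : z ∈ cj a Z) :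
    s * z = z * s := by
  have := hc _ (mem_cj.1 hs) _ (mem_cj.1 hz)
  calc s * z = a * (a⁻¹ * s * a * (a⁻¹ * z * a)) * a⁻¹ := by group
    _ = _ := by rw [this]; group

theorem clB (hS : IsSylowIn 2 S ⊤) (hZ : Z ≤ S) (hc : ∀ s ∈ S, ∀ z ∈ Z, s * z = z * s) (hM : Mx S Z n)
    (h1 : cj a Z ≤ cj b S) (hn : Nat.card (cj a S ⊓ cj b S : Subgroup G) = n) {v s : G} (hv : v ∈ cj b Z)
    (hs : s ∈ cj a S) (hs' : s ∉ cj b S) (h : s * v * s⁻¹ * v⁻¹ ∈ cj a Z ⊓ cj b Z) : v ∈ cj a Z := by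
  obtain ⟨W, hW⟩ : ∃ W, W = (cj a Z ⊓ cj b Z) ⊔ zpowers v := ⟨_, rfl⟩
  have w1 : W ≤ cj b Z := hW ▸ sup_le inf_le_right (zpowers_le_of_mem hv)
  have w2 : v ∈ W := hW ▸ mem_sup_right (mem_zpowers v)
  have w3 : cj a Z ⊓ cj b Z ≤ W := hW ▸ le_sup_left
  have n1 : cj b S ≤ normalizer (W : Set G) := fun x hx =>
    centralizer_le_normalizer _ fun z hz => (cen hc b hx (w1 hz)).symm
  have n2 : s ∈ normalizer (W : Set G) := mem_normalizer_of_cj_le (by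
    nth_rw 1 [hW]
    rw [cj_sup, cj_eq_self_of_mem_centralizer (H := cj a Z ⊓ cj b Z) fun z hz => (cen hc a hs hz.1).symm]
    refine sup_le w3 ?_
    rw [cj, MonoidHom.map_zpowers]
    exact zpowers_le_of_mem (by simpa using mul_mem (w3 h) w2))
  obtain ⟨k, k1, k2⟩ := exists_le ((syl hS b).of_le n1 le_top)
    ((syl hS a).pgroup.to_inf_left (K := normalizer (W : Set G))) inf_le_right
  have l1 : cj a S ⊓ cj b S < cj a S ⊓ normalizer (W : Set G) :=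
    (inf_le_inf_left _ n1).lt_of_not_ge fun e => hs' (e ⟨hs, n2⟩).2
  have e1 := hM a (k * b) (by rw [cj_mul]; exact ((le_inf (cj_mono a hZ) h1).trans l1.le).trans k2)
    (hn ▸ (card_lt l1).trans_le (card_le_of_le (le_inf inf_le_left (by rw [cj_mul]; exact k2))))
  rw [e1, cj_mul]
  exact cj_mono k w1 ((cj_eq_self k1).symm ▸ w2)

end C0

open C0 in
/-- failure of weak closure of a central elementary abelian subgroup -/
theorem wc {S P Z : Subgroup G} (hS : IsSylowIn 2 S ⊤) (hZ : Z ≤ P) (hP : P ≤ S) (h2 : ∀ z ∈ Z, z * z = 1)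
    (hc : ∀ s ∈ S, ∀ z ∈ Z, s * z = z * s) (hN : normalizer (S : Set G) ≤ normalizer (Z : Set G))
    (hcm : ∀ s ∈ S, ∀ p ∈ P, s * p * s⁻¹ * p⁻¹ ∈ Z) {g : G} (hg : cj g Z ≤ S) (hne : cj g Z ≠ Z) :
    ∃ g, cj g Z ≤ S ∧ cj g Z ≠ Z ∧ (P ≤ centralizer (cj g Z : Set G) ∨
      (Nat.card P * Nat.card (Z ⊓ cj g Z : Subgroup G) ≤
          Nat.card (P ⊓ centralizer (cj g Z : Set G) : Subgroup G) * Nat.card Z ∧
        ∀ r ∈ S, r ∈ centralizer (cj g Z : Set G) → r * r ∈ Z → r * r ∈ cj g Z)) := by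
  have hZS := hZ.trans hP
  obtain ⟨b, ⟨h1, b1⟩, hb⟩ := Set.exists_max_image {b : G | cj b Z ≤ S ∧ cj b Z ≠ Z}
    (fun b => Nat.card (cj b S ⊓ S : Subgroup G)) (Set.toFinite _) ⟨g, hg, hne⟩
  have hM : Mx S Z (Nat.card (cj b S ⊓ S : Subgroup G)) := fun x y e1 e2 => by
    by_contra e3
    refine e2.not_ge (le_of_eq_of_le ?_ (hb (y⁻¹ * x) ⟨by rw [cj_mul]; exact cj_le_iff.2 (by rwa [inv_inv]), fun e => e3 ?_⟩))
    · rw [← card_cj y⁻¹, cj_inf, cj_inv_cj, cj_mul]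
    · rw [← cj_cj_inv y (cj x Z), ← cj_mul y⁻¹, e]
  have h3 : Z ≤ cj b S := by
    simpa only [cj_one] using sym hS hZS hN hM (a := b) (b := 1) (by rwa [cj_one]) (by rwa [cj_one]) (by rw [cj_one])
  have c1 : ∀ v ∈ cj b Z, ∀ s ∈ S, s ∉ cj b S → s * v * s⁻¹ * v⁻¹ ∈ Z ⊓ cj b Z → v ∈ Z := fun v hv s hs hs' h => by
    simpa only [cj_one] using clB hS hZS hc hM (a := 1) (b := b) (by rwa [cj_one]) (by rw [cj_one, inf_comm]) hv
      (by rwa [cj_one]) hs' (by rwa [cj_one])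
  have c2 : ∀ v ∈ Z, ∀ s ∈ cj b S, s ∉ S → s * v * s⁻¹ * v⁻¹ = 1 → v ∈ cj b Z := fun v hv s hs hs' h =>
    clB hS hZS hc hM (a := b) (b := 1) (by rwa [cj_one]) (by rw [cj_one]) (by rwa [cj_one]) hs (by rwa [cj_one])
      (by rw [h]; exact one_mem _)
  by_cases hP' : cj b P ≤ S
  · refine ⟨b⁻¹, cj_le_iff.2 (by rwa [inv_inv]), fun e => b1 (by nth_rw 1 [← e]; rw [cj_cj_inv]), Or.inl ?_⟩
    rw [← cj_centralizer, ← cj_le_iff]
    exact fun x hx z hz => (hc x (hP' hx) z hz).symm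
  obtain ⟨v, v1, v2⟩ : ∃ v ∈ cj b Z, v ∉ Z := by
    by_contra! h
    exact b1 (eq_of_le_of_card_ge h (by rw [card_cj]))
  refine ⟨b, h1, b1, Or.inr ⟨?_, fun r hr hr' hr2 => ?_⟩⟩
  · have hφ : ∀ p ∈ P, p * v * p⁻¹ * v⁻¹ ∈ Z := fun p hp => by simpa [mul_assoc] using inv_mem (hcm v (h1 v1) p hp)
    let φ : P →* G := MonoidHom.mk' (fun p => p * v * (p : G)⁻¹ * v⁻¹) fun p q => by
      have := hc p (hP p.2) _ (hφ q q.2)
      calc (p * q : G) * v * ((p : G) * q)⁻¹ * v⁻¹ = p * (q * v * (q : G)⁻¹ * v⁻¹) * v * (p : G)⁻¹ * v⁻¹ := by group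
        _ = q * v * (q : G)⁻¹ * v⁻¹ * (p * v * (p : G)⁻¹ * v⁻¹) := by rw [this]; group
        _ = _ := hc _ (hZS (hφ q q.2)) _ (hφ p p.2)
    have i1 : ((Z ⊓ cj b Z).comap φ).index ≤ (Z ⊓ cj b Z).relIndex Z := by
      rw [index_comap]
      exact relIndex_le_of_le_right (by rintro _ ⟨p, rfl⟩; exact hφ p p.2) (index_ne_zero_of_finite)
    have i2 : Nat.card ((Z ⊓ cj b Z).comap φ) ≤ Nat.card (P ⊓ centralizer (cj b Z : Set G) : Subgroup G) := by
      rw [← card_map_of_injective P.subtype_injective]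
      refine card_le_of_le ?_
      rintro _ ⟨p, hp, rfl⟩
      refine ⟨p.2, fun z hz => (cen hc b ?_ hz).symm⟩
      by_contra h
      exact v2 (c1 v v1 p (hP p.2) h hp)
    have i3 : (Z ⊓ cj b Z).relIndex Z * Nat.card (Z ⊓ cj b Z : Subgroup G) = Nat.card Z := by
      rw [← Nat.card_congr (subgroupOfEquivOfLe (inf_le_left : Z ⊓ cj b Z ≤ Z)).toEquiv]
      exact index_mul_card _
    rw [← card_mul_index ((Z ⊓ cj b Z).comap φ), ← i3, mul_assoc]
    exact Nat.mul_le_mul i2 (Nat.mul_le_mul_right _ i1)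
  · obtain ⟨s, s1, s2⟩ : ∃ s ∈ cj b P, s ∉ S := by simpa [SetLike.le_def] using hP'
    have r1 : r ∈ cj b S := by
      by_contra h
      exact v2 (c1 v v1 r hr h (by rw [← hr' v v1, mul_inv_cancel_right, mul_inv_cancel]; exact one_mem _))
    have r2 : r * s * r⁻¹ * s⁻¹ ∈ cj b Z := mem_cj.2 (by
      have := hcm _ (mem_cj.1 r1) _ (mem_cj.1 s1)
      convert this using 1; group)
    have r3 : r * s * r⁻¹ * s⁻¹ * (r * s * r⁻¹ * s⁻¹) = 1 := by
      have := h2 _ (mem_cj.1 r2)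
      generalize r * s * r⁻¹ * s⁻¹ = y at this
      calc y * y = b * (b⁻¹ * y * b * (b⁻¹ * y * b)) * b⁻¹ := by group
        _ = 1 := by rw [this]; group
    refine c2 _ hr2 s (cj_mono b hP s1) s2 (inv_eq_one.1 ?_)
    calc _ = r * (r * s * r⁻¹ * s⁻¹) * r⁻¹ * (r * s * r⁻¹ * s⁻¹) := by simp [mul_assoc]
      _ = 1 := by rw [cen hc b r1 r2, mul_inv_cancel_right, r3]

end Cfsg.Agent.WA.Sk
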