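import Cfsg.Agent.WA.SkDef
import Cfsg.Agent.H4.R4a

/-! Additive functions on subgroups: descent, extension, averaging. -/

set_option autoImplicit false
set_option linter.unusedSectionVars false

namespace Cfsg.Agent.WA.Sk

open Subgroup Cfsg.Agent.H8

variable {F : Type*} [Field F] [Finite F] {θ : RingAut F} {G : Type*} [Group G] [Finite G]

/-- additive on a subgroup -/
def Ad (Y : Subgroup G) (φ : G → F) : Prop := ∀ x ∈ Y, ∀ y ∈ Y, φ (x * y) = φ x + φ y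

variable {A B Y W : Subgroup G} {a b φ : G → F} {x y : G}

theorem Ad.one (h : Ad Y φ) : φ 1 = 0 := by simpa using h 1 (one_mem _) 1 (one_mem _)

theorem Ad.inv (h : Ad Y φ) (hx : x ∈ Y) : φ x⁻¹ = -φ x :=
  eq_neg_of_add_eq_zero_left (by rw [← h _ (inv_mem hx) _ hx, inv_mul_cancel, h.one])

theorem Ad.mono (h : Ad Y φ) (k : A ≤ Y) : Ad A φ := fun x hx y hy => h x (k hx) y (k hy)

/-- the kernel -/
def Ad.ker (h : Ad Y φ) : Subgroup G where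
  carrier := {y | y ∈ Y ∧ φ y = 0}
  one_mem' := ⟨one_mem _, h.one⟩
  mul_mem' := fun hx hy => ⟨mul_mem hx.1 hy.1, by rw [h _ hx.1 _ hy.1, hx.2, hy.2, add_zero]⟩
  inv_mem' := fun hx => ⟨inv_mem hx.1, by rw [h.inv hx.1, hx.2, neg_zero]⟩

theorem desc1 (ha : Ad A a) (sa : ∀ x, ∃ y ∈ A, a y = x) (h1 : ∀ y ∈ A, ∀ u ∈ A, a u = 0 → φ (y * u) = φ y) :
    ∃ q : F → F, ∀ y ∈ A, q (a y) = φ y := by
  choose s hs e using sa
  refine ⟨fun x => φ (s x), fun y hy => ?_⟩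
  beta_reduce
  rw [← h1 _ (hs _) _ (mul_mem (inv_mem (hs (a y))) hy) (by rw [ha _ (inv_mem (hs _)) _ hy, ha.inv (hs _), e, neg_add_cancel]),
    mul_inv_cancel_left]

theorem desc {ψ : G → G → F} (ha : Ad A a) (hb : Ad B b) (sa : ∀ x, ∃ y ∈ A, a y = x) (sb : ∀ x, ∃ y ∈ B, b y = x)
    (h1 : ∀ u ∈ B, Ad A (ψ · u)) (h2 : ∀ y ∈ A, Ad B (ψ y)) (k1 : ∀ y ∈ A, ∀ u ∈ B, a y = 0 → ψ y u = 0)
    (k2 : ∀ y ∈ A, ∀ u ∈ B, b u = 0 → ψ y u = 0) : ∃ g : F → F → F, (∀ x x' y, g (x + x') y = g x y + g x' y) ∧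
      (∀ x y y', g x (y + y') = g x y + g x y') ∧ ∀ y ∈ A, ∀ u ∈ B, g (a y) (b u) = ψ y u := by
  choose s hs e using sa
  obtain k := fun x => desc1 (φ := ψ (s x)) hb sb fun y hy u hu e => by rw [h2 _ (hs x) _ hy _ hu, k2 _ (hs x) _ hu e, add_zero]
  choose g hg using k
  have k : ∀ y ∈ A, ∀ u ∈ B, g (a y) (b u) = ψ y u := fun y hy u hu => by
    have m := mul_mem (inv_mem (hs (a y))) hy
    have := h1 u hu _ (hs (a y)) _ m
    beta_reduce at this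
    rw [mul_inv_cancel_left, k1 _ m u hu (by rw [ha _ (inv_mem (hs _)) _ hy, ha.inv (hs _), e, neg_add_cancel]), add_zero] at this
    rw [hg _ u hu, this]
  refine ⟨g, fun x x' y => ?_, fun x y y' => ?_, k⟩
  · obtain ⟨u, hu, rfl⟩ := sb y
    rw [← e x, ← e x', ← ha _ (hs _) _ (hs _), k _ (mul_mem (hs _) (hs _)) u hu, k _ (hs _) u hu, k _ (hs _) u hu]
    exact h1 u hu _ (hs _) _ (hs _)
  · obtain ⟨u, hu, rfl⟩ := sb y
    obtain ⟨u', hu', rfl⟩ := sb y'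
    rw [← hb _ hu _ hu', hg _ _ (mul_mem hu hu'), hg _ _ hu, hg _ _ hu', h2 _ (hs _) _ hu _ hu']

theorem extend (hW : W ≤ A) (hA : A ≤ Y) (hs : ∀ y ∈ Y, y * y ∈ W) (ha : Ad A a) (h0 : ∀ y ∈ W, a y = 0) :
    ∃ φ, Ad Y φ ∧ (∀ y ∈ Y, ∃ x ∈ A, φ y = a x) ∧ ∀ y ∈ A, φ y = a y := by
  obtain ⟨X, ⟨h1, h2, h3⟩, hm⟩ := Set.Finite.exists_maximal (s := {X | W ≤ X ∧ X ≤ Y ∧ X ⊓ A ≤ W}) (Set.toFinite _)
    ⟨W, le_rfl, hW.trans hA, inf_le_left⟩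
  have n := H4.R4.nrm hA fun y hy => hW (hs y hy)
  have k : ∀ y, y ∈ Y → ∃ u ∈ A, ∃ x ∈ X, u * x = y := fun y hy => (H9.mem_sup_of_le_normalizer' (h2.trans n)).1 (by_contra fun e =>
    e (mem_sup_right (hm ⟨le_sup_of_le_left h1, sup_le h2 (zpowers_le.2 hy), fun v hv => by
      rcases H4.R4.two (H4.R4.nrm h2 (fun y hy => h1 (hs y hy)) hy) (h1 (hs y hy)) hv.1 with k | ⟨x, hx, rfl⟩
      · exact h3 ⟨k, hv.2⟩
      · exact (e ((mul_mem_cancel_left (mem_sup_right hx)).1 (mem_sup_left hv.2))).elim⟩ le_sup_left (mem_sup_right (mem_zpowers y)))))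
  choose! u hu x hx e using k
  have k : ∀ v ∈ A, ∀ z ∈ X, a (u (v * z)) = a v := fun v hv z hz => by
    have m := mul_mem (hA hv) (h2 hz)
    have := ha _ hv _ (mul_mem (inv_mem hv) (hu _ m))
    rwa [mul_inv_cancel_left, h0 _ (h3 (mem_inf.2 ⟨by
      rw [eq_mul_inv_of_mul_eq (e _ m), mul_assoc, inv_mul_cancel_left]; exact mul_mem hz (inv_mem (hx _ m)),
      mul_mem (inv_mem hv) (hu _ m)⟩)), add_zero] at this
  refine ⟨fun y => a (u y), fun y hy z hz => ?_, fun y hy => ⟨_, hu y hy, rfl⟩, fun y hy => by simpa using k y hy 1 (one_mem _)⟩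
  have c := H9.comm_mem_of_sq_mem hs (h2 (hx y hy)) (hA (hu z hz))
  have := k _ (mul_mem (hu y hy) (mul_mem (hW c) (hu z hz))) _ (mul_mem (hx y hy) (hx z hz))
  rw [ha _ (hu y hy) _ (mul_mem (hW c) (hu z hz)), ha _ (hW c) _ (hu z hz), h0 _ c, zero_add] at this
  rwa [show u y * (x y * u z * (x y)⁻¹ * (u z)⁻¹ * u z) * (x y * x z) = u y * x y * (u z * x z) by group, e y hy, e z hz] at this

/-- `X = P × Z` if `Z` is central of odd order and `X / Z` is a `2`-group -/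
theorem twoPart {X Z : Subgroup G} (hZ : Z ≤ X) (hc : X ≤ centralizer (Z : Set G)) (h3 : Odd (Nat.card Z))
    (h8 : ∀ x ∈ X, ∃ k, x ^ 2 ^ k ∈ Z) :
    ∃ P ≤ X, IsPGroup 2 P ∧ (∀ x ∈ X, ∃ p ∈ P, ∃ z ∈ Z, x = p * z) ∧ ∀ x ∈ X, (∃ k, x ^ 2 ^ k = 1) → x ∈ P := by
  have := Fact.mk Nat.prime_two
  obtain ⟨P, hP⟩ := exists_isSylowIn 2 X
  have : (Z.subgroupOf X).Normal := normal_subgroupOf_of_le_normalizer (hc.trans (centralizer_le_normalizer _))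
  have k : ∀ x ∈ X, ∃ p ∈ P, ∃ z ∈ Z, x = p * z := fun x hx => by
    obtain ⟨p, hp, e⟩ := ((hP.toSylow.mapSurjective (QuotientGroup.mk'_surjective (Z.subgroupOf X))).is_maximal' (Q := ⊤) (fun a => by
      obtain ⟨y, e⟩ := QuotientGroup.mk_surjective a.1
      obtain ⟨k, hk⟩ := h8 y y.2
      exact ⟨k, Subtype.ext (show a.1 ^ 2 ^ k = 1 by rw [← e, ← QuotientGroup.mk_pow, QuotientGroup.eq_one_iff]; exact hk)⟩) le_top).le
        (mem_top (QuotientGroup.mk ⟨x, hx⟩))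
    exact ⟨p, hp, p⁻¹ * x, QuotientGroup.eq (s := Z.subgroupOf X).1 e, (mul_inv_cancel_left _ _).symm⟩
  refine ⟨P, hP.le, hP.pgroup, k, fun x hx ⟨n, hn⟩ => ?_⟩
  obtain ⟨p, hp, z, hz, rfl⟩ := k x hx
  obtain ⟨m, hm⟩ := hP.pgroup ⟨p, hp⟩
  have e : z ^ 2 ^ (n + m) = 1 := by
    have := (show Commute p z from (hc (hP.le hp) z hz).symm).mul_pow (2 ^ (n + m))
    rwa [pow_add, pow_mul, hn, one_pow, mul_comm (2 ^ n), pow_mul p, show p ^ 2 ^ m = 1 from congrArg Subtype.val hm, one_pow, one_mul,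
      eq_comm, mul_comm, ← pow_add] at this
  have e3 : z ^ Nat.card Z = 1 := congrArg Subtype.val (pow_card_eq_one' (x := (⟨z, hz⟩ : Z)))
  rwa [show z = 1 by rw [← pow_gcd_eq_one.2 ⟨e, e3⟩, Nat.Coprime.pow_left _ (Nat.coprime_two_left.2 h3), pow_one], mul_one]

/-- averaging over the torus -/
theorem Fr.avg (f : Fr θ G) {χ : Fˣ → F} (hχ : ∀ μ ν, χ (μ * ν) = χ μ * χ ν) (h0 : ∀ μ, χ μ ≠ 0)
    (hd : ∀ μ, ∀ y ∈ Y, f.κ μ * y * (f.κ μ)⁻¹ ∈ Y) (hO : ∀ o ∈ f.O, ∀ y ∈ Y, o * y = y * o) (ha : Ad Y a) :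
    ∃ φ, Ad Y φ ∧ (∀ μ, ∀ y ∈ Y, φ (f.κ μ * y * (f.κ μ)⁻¹) = χ μ * φ y) ∧
      (∀ y, (∀ μ, a (f.κ μ * y * (f.κ μ)⁻¹) = χ μ * a y) → φ y = a y) ∧
      ((∀ μ, χ μ = 1) → (∀ y ∈ Y, a y = 0 ∨ a y = 1) → ∀ y ∈ Y, φ y = 0 ∨ φ y = 1) := by
  classical
  have := Fintype.ofFinite F
  refine ⟨fun y => ∑ μ, (χ μ)⁻¹ * a (f.κ μ * y * (f.κ μ)⁻¹), fun x hx y hy => ?_, fun ν y hy => ?_, fun y h => ?_, fun h k y hy => ?_⟩
  · rw [← Finset.sum_add_distrib]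
    exact Finset.sum_congr rfl fun μ _ => by rw [← mul_add, ← ha _ (hd μ x hx) _ (hd μ y hy), conj_mul]
  · rw [Finset.mul_sum, ← Equiv.sum_comp (Equiv.mulRight ν) fun μ => χ ν * ((χ μ)⁻¹ * a (f.κ μ * y * (f.κ μ)⁻¹))]
    refine Finset.sum_congr rfl fun μ _ => ?_
    have := h0 ν
    obtain ⟨o, ho, e⟩ := f.κ_mul μ ν
    have e2 : f.κ (μ * ν) * y * (f.κ (μ * ν))⁻¹ = f.κ μ * (f.κ ν * y * (f.κ ν)⁻¹) * (f.κ μ)⁻¹ := by
      rw [e, mul_assoc _ o y, hO o ho y hy]; group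
    simp only [Equiv.coe_mulRight, hχ, e2]
    field_simp
  · simp only [h, inv_mul_cancel_left₀ (h0 _), Finset.sum_const, Finset.card_univ, Fintype.card_units, nsmul_eq_mul]
    rw [Nat.cast_pred Fintype.card_pos, FiniteField.cast_card_eq_zero]
    linear_combination -a y * f.two
  · refine Finset.sum_induction _ (fun x : F => x = 0 ∨ x = 1) ?_ (Or.inl rfl) fun μ _ => ?_
    · rintro _ _ (rfl | rfl) (rfl | rfl)
      · simp
      · simp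
      · simp
      · left; linear_combination f.two
    · rw [h, inv_one, one_mul]; exact k _ (hd μ y hy)

end Cfsg.Agent.WA.Sk
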