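import Cfsg.Agent.BS.R2b
import Cfsg.Agent.BS.HigF
import Cfsg.Agent.H8.SylowIn
import Cfsg.Agent.H9.Fusion
import Cfsg.Agent.WA.GDef
import Cfsg.Prelude.Def_LieTypeChar

/-! Definitions for the Suzuki component theorem (see PLAN_SK.md). -/

set_option autoImplicit false

namespace Cfsg.Agent.WA.Sk

open Subgroup Cfsg.Agent.H8

variable {F : Type*} [Field F] (θ : RingAut F)

/-- the squaring map of the Suzuki 2-group -/
def ss (x : F) : F := x * θ x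

/-- its polar form -/
def bb (x y : F) : F := x * θ y + y * θ x

/-- hypotheses on the field -/
structure Fd : Prop where
  two : (2 : F) = 0
  th : ∀ x, θ (θ x) = x * x
  eight : 8 ≤ Nat.card F

/-- the Suzuki group: Sylow 2-subgroup, torus, Weyl element, Bruhat decomposition -/
structure SzD (K : Type*) [Group K] extends Fd θ where
  j : F → F → K
  j_mul : ∀ x y x' y', j x y * j x' y' = j (x + x') (y + y' + θ x * x')
  j_inj : ∀ x y x' y', j x y = j x' y' → x = x' ∧ y = y'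
  κ : Fˣ →* K
  κ_j : ∀ (k : Fˣ) x y, κ k * j x y * (κ k)⁻¹ = j (k * x) (ss θ k * y)
  w : K
  ww : w * w = 1
  wκ : ∀ k, w * κ k * w = (κ k)⁻¹
  wU : ∀ x y x' y' k, w * j x y * w = j x' y' * κ k → x = 0 ∧ y = 0
  tst : w * j 0 1 * w = j 1 0 * w * (j 1 0)⁻¹
  bru : ∀ a, ∃ x y k, a = j x y * κ k ∨ ∃ x' y', a = j x y * κ k * w * j x' y'

/-- the hypotheses of the theorem after the reduction -/
structure Hy (G : Type*) [Group G] (K : Type*) [Group K] extends SzD θ K where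
  t : G
  tt : t * t = 1
  t1 : t ≠ 1
  A : Subgroup G
  π : A →* K
  π_surj : Function.Surjective π
  π_ker : ∀ a, π a = 1 ↔ a ∈ center A
  perf : commutator A = ⊤
  tA : ∀ a ∈ A, t * a = a * t
  A_norm : ∀ g, g * t = t * g → g ∈ normalizer (A : Set G)
  cyc : ∀ R : Subgroup G, R ≤ centralizer (A : Set G) → IsPGroup 2 R → IsCyclic R
  L : Subgroup G
  Ln : L.Normal
  Ls : IsSimpleGroup L
  Lnc : ¬ IsMulCommutative L
  AL : A ≤ L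
  gen : ∀ g, g ∈ L ∨ t * g ∈ L
  LC : centralizer (L : Set G) = ⊥

/-- The frame: `C(t)` has the Suzuki component `A` with Sylow 2-subgroup `U = {j x y}`, torus `κ`, Weyl element
`w`; `C(t) ⊓ C(A) = ⟨t⟩ × O`; `G = L⟨t⟩` with `L` simple. -/
structure Fr (G : Type*) [Group G] extends Fd θ where
  t : G
  tt : t * t = 1
  t1 : t ≠ 1
  j : F → F → G
  j_mul : ∀ x y x' y', j x y * j x' y' = j (x + x') (y + y' + θ x * x')
  j_inj : ∀ x y x' y', j x y = j x' y' → x = x' ∧ y = y'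
  κ : Fˣ → G
  κ_j : ∀ (k : Fˣ) x y, κ k * j x y * (κ k)⁻¹ = j (k * x) (ss θ k * y)
  κ_odd : ∀ k, Odd (orderOf (κ k))
  O : Subgroup G
  O_odd : Odd (Nat.card O)
  κ_mul : ∀ k l, ∃ o ∈ O, κ (k * l) = κ k * κ l * o
  t_ne : ∀ x y, t ≠ j x y
  tO : ∀ o ∈ O, t * o = o * t
  O_norm : ∀ g, g * t = t * g → g ∈ normalizer (O : Set G)
  ti : ∀ g, g * t = t * g → ∀ y x' y', y ≠ 0 → g * j 0 y * g⁻¹ = j x' y' →
    ∀ a b, ∃ a' b', g * j a b * g⁻¹ = j a' b'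
  ker : ∀ g, g * t = t * g → (∀ y, g * j 0 y = j 0 y * g) →
    ∃ x y, ∃ o ∈ O, g = j x y * o ∨ g = t * j x y * o
  A : Subgroup G
  A_norm : ∀ g, g * t = t * g → g ∈ normalizer (A : Set G)
  jA : ∀ x y, j x y ∈ A
  κA : ∀ k, κ k ∈ A
  tA : ∀ a ∈ A, t * a = a * t
  OA : ∀ o ∈ O, ∀ a ∈ A, o * a = a * o
  w : G
  wA : w ∈ A
  ww : w * w = 1
  wκ : ∀ k, ∃ o ∈ O, w * κ k * w = (κ k)⁻¹ * o
  wU : ∃ x y, ∀ x' y', w * j x y * w ≠ j x' y'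
  bru : ∀ a ∈ A, ∃ x y k, ∃ o ∈ O, a = j x y * κ k * o ∨ ∃ x' y', a = j x y * κ k * o * w * j x' y'
  L : Subgroup G
  Ln : L.Normal
  Ls : IsSimpleGroup L
  Lnc : ¬ IsMulCommutative L
  AL : A ≤ L
  gen : ∀ g, g ∈ L ∨ t * g ∈ L
  LC : centralizer (L : Set G) = ⊥

variable {θ} {G : Type*} [Group G]

namespace Fr

variable (f : Fr θ G)

theorem j0 : f.j 0 0 = 1 := by
  have h := f.j_mul 0 0 0 0
  simp only [add_zero, mul_zero] at h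
  exact mul_eq_left.1 h

theorem j_inv (x y : F) : (f.j x y)⁻¹ = f.j x (y + ss θ x) := by
  refine inv_eq_of_mul_eq_one_right ?_
  rw [f.j_mul, ← f.j0]
  congr 1
  · linear_combination x * f.two
  · rw [ss]; linear_combination (y + x * θ x) * f.two

/-- the order of the field -/
noncomputable def q (_ : Fr θ G) : ℕ := Nat.card F

/-- the Sylow 2-subgroup of the component -/
def U : Subgroup G where
  carrier := {g | ∃ x y, g = f.j x y}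
  one_mem' := ⟨0, 0, f.j0.symm⟩
  mul_mem' := by rintro _ _ ⟨x, y, rfl⟩ ⟨x', y', rfl⟩; exact ⟨_, _, f.j_mul _ _ _ _⟩
  inv_mem' := by rintro _ ⟨x, y, rfl⟩; exact ⟨_, _, f.j_inv _ _⟩

/-- the centre of `U` -/
def Z : Subgroup G where
  carrier := {g | ∃ y, g = f.j 0 y}
  one_mem' := ⟨0, f.j0.symm⟩
  mul_mem' := by rintro _ _ ⟨y, rfl⟩ ⟨y', rfl⟩; exact ⟨_, by rw [f.j_mul, add_zero]⟩
  inv_mem' := by rintro _ ⟨y, rfl⟩; exact ⟨_, f.j_inv _ _⟩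

/-- `E = ⟨t⟩ × Z` -/
def E : Subgroup G := zpowers f.t ⊔ f.Z

/-- `T = ⟨t⟩ × U` -/
def T : Subgroup G := zpowers f.t ⊔ f.U

/-- conjugates of `t` -/
def TC (s : G) : Prop := IsConj f.t s

/-- the conclusion -/
def Con : Prop := f.t ∉ f.L ∧ IsLieTypeChar 2 f.L

end Fr

variable (θ) in
/-- the commutator form of the first storey -/
def bf (a e u w e' u' w' : F) : F :=
  e * w' + e' * w + bb θ u u' + a * θ.symm (u * w') + a * θ.symm (u' * w)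

variable (θ) in
/-- The first storey `S = O₂(N(E))`, `S / Z = {(e, u, w)}`, `e ∈ {0, 1}`. -/
structure One (G : Type*) [Group G] extends Fr θ G where
  S : Subgroup G
  a : F
  c : F
  ee : G → F
  uu : G → F
  xx : G → F
  pg : IsPGroup 2 S
  tS : t ∈ S
  jS : ∀ x y, j x y ∈ S
  ee01 : ∀ s ∈ S, ee s = 0 ∨ ee s = 1
  ee_mul : ∀ s ∈ S, ∀ r ∈ S, ee (s * r) = ee s + ee r
  uu_mul : ∀ s ∈ S, ∀ r ∈ S, uu (s * r) = uu s + uu r
  xx_mul : ∀ s ∈ S, ∀ r ∈ S, xx (s * r) = xx s + xx r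
  kerZ : ∀ s ∈ S, s ∈ toFr.Z ↔ ee s = 0 ∧ uu s = 0 ∧ xx s = 0
  surj : ∀ e u x : F, e = 0 ∨ e = 1 → ∃ s ∈ S, ee s = e ∧ uu s = u ∧ xx s = x
  on_t : ee t = 1 ∧ uu t = 0 ∧ xx t = 0
  on_j : ∀ x y, ee (j x y) = 0 ∧ uu (j x y) = x ∧ xx (j x y) = 0
  sq : ∀ s ∈ S, s * s = j 0 (ss θ (uu s) + (c + ee s) * xx s + a * θ.symm (uu s * xx s))
  cm : ∀ s ∈ S, ∀ r ∈ S, s * r * s⁻¹ * r⁻¹ = j 0 (bf θ a (ee s) (uu s) (xx s) (ee r) (uu r) (xx r))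
  OS : ∀ o ∈ O, ∀ s ∈ S, o * s = s * o
  NE : normalizer (toFr.E : Set G) ≤ normalizer (S : Set G)
  κ_act : ∀ (k : Fˣ), ∀ s ∈ S, ee (κ k * s * (κ k)⁻¹) = ee s ∧ uu (κ k * s * (κ k)⁻¹) = k * uu s ∧
    xx (κ k * s * (κ k)⁻¹) = ss θ k * xx s

namespace One

variable (w : One θ G)

theorem co_one : w.ee 1 = 0 ∧ w.uu 1 = 0 ∧ w.xx 1 = 0 := (w.kerZ 1 w.S.one_mem).1 w.Z.one_mem

theorem co_inv {s : G} (hs : s ∈ w.S) : w.ee s⁻¹ = w.ee s ∧ w.uu s⁻¹ = w.uu s ∧ w.xx s⁻¹ = w.xx s := by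
  have h1 := w.ee_mul s hs _ (w.S.inv_mem hs)
  have h2 := w.uu_mul s hs _ (w.S.inv_mem hs)
  have h3 := w.xx_mul s hs _ (w.S.inv_mem hs)
  rw [mul_inv_cancel] at h1 h2 h3
  rw [w.co_one.1] at h1
  rw [w.co_one.2.1] at h2
  rw [w.co_one.2.2] at h3
  exact ⟨by linear_combination -h1 - w.ee s * w.two, by linear_combination -h2 - w.uu s * w.two,
    by linear_combination -h3 - w.xx s * w.two⟩

/-- `P₁ = {e = 0}` -/
def P1 : Subgroup G where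
  carrier := {s | s ∈ w.S ∧ w.ee s = 0}
  one_mem' := ⟨w.S.one_mem, w.co_one.1⟩
  mul_mem' := fun {a b} ha hb => ⟨w.S.mul_mem ha.1 hb.1, by rw [w.ee_mul a ha.1 b hb.1, ha.2, hb.2, add_zero]⟩
  inv_mem' := fun {a} ha => ⟨w.S.inv_mem ha.1, by rw [(w.co_inv ha.1).1, ha.2]⟩

/-- `W₁ = {e = 0, u = 0}` -/
def W1 : Subgroup G where
  carrier := {s | s ∈ w.S ∧ w.ee s = 0 ∧ w.uu s = 0}
  one_mem' := ⟨w.S.one_mem, w.co_one.1, w.co_one.2.1⟩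
  mul_mem' := fun {a b} ha hb => ⟨w.S.mul_mem ha.1 hb.1, by rw [w.ee_mul a ha.1 b hb.1, ha.2.1, hb.2.1, add_zero],
    by rw [w.uu_mul a ha.1 b hb.1, ha.2.2, hb.2.2, add_zero]⟩
  inv_mem' := fun {a} ha => ⟨w.S.inv_mem ha.1, by rw [(w.co_inv ha.1).1, ha.2.1], by rw [(w.co_inv ha.1).2.1, ha.2.2]⟩

/-- the elements that centralize `Z` and `P₁ / Z` -/
def F1 : Subgroup G where
  carrier := {g | (∀ z ∈ w.Z, g * z = z * g) ∧ ∀ p ∈ w.P1, g * p * g⁻¹ * p⁻¹ ∈ w.Z}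
  one_mem' := ⟨fun z _ => by simp, fun p _ => by simpa using w.Z.one_mem⟩
  mul_mem' := fun {a b} ha hb => ⟨fun z hz => by rw [mul_assoc, hb.1 z hz, ← mul_assoc, ha.1 z hz, mul_assoc],
    fun p hp => by
      have h1 := ha.1 _ (hb.2 p hp)
      have e : a * b * p * (a * b)⁻¹ * p⁻¹ = a * (b * p * b⁻¹ * p⁻¹) * a⁻¹ * (a * p * a⁻¹ * p⁻¹) := by group
      rw [e, h1, mul_inv_cancel_right]
      exact w.Z.mul_mem (hb.2 p hp) (ha.2 p hp)⟩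
  inv_mem' := fun {a} ha => ⟨fun z hz => by
      rw [inv_mul_eq_iff_eq_mul, ← mul_assoc, ha.1 z hz, mul_inv_cancel_right], fun p hp => by
      have h0 := w.Z.inv_mem (ha.2 p hp)
      have h1 := ha.1 _ h0
      have e : a⁻¹ * p * a⁻¹⁻¹ * p⁻¹ = a⁻¹ * ((a * p * a⁻¹ * p⁻¹)⁻¹ * a) := by group
      rw [e, ← h1, inv_mul_cancel_left]
      exact h0⟩

/-- `t` moves modulo `Z`: then `a = 0` and `N(S)` normalizes `W₁` and `P₁` -/
structure Mv (g : G) : Prop where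
  a0 : w.a = 0
  gN : g ∈ normalizer (w.S : Set G)
  gE : g ∉ normalizer (w.E : Set G)
  NW : normalizer (w.S : Set G) ≤ normalizer (w.W1 : Set G)
  NP : normalizer (w.S : Set G) ≤ normalizer (w.P1 : Set G)

/-- configuration (B): `t` inverts `W₁`; `R` is a Sylow 2-subgroup of `F₁` -/
structure Bq (R : Subgroup G) : Prop where
  a0 : w.a = 0
  c1 : w.c = 1
  syl : IsSylowIn 2 R w.F1
  SR : w.S ≤ R
  lt : ∃ x ∈ R, x ∈ normalizer (w.S : Set G) ∧ x ∉ w.S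

/-- `C = C_R(P₁)` -/
def CC (R : Subgroup G) : Subgroup G := R ⊓ centralizer (w.P1 : Set G)

/-- the exotic configuration (`q = 8`): `R = T C`, a `3`-element `ρ` and a `ρ`-invariant involution `d` -/
structure Ex (R : Subgroup G) (ρ d : G) : Prop extends w.Bq R where
  eight : Nat.card F = 8
  ρN : ρ ∈ normalizer (R : Set G)
  ρt : ρ * w.t = w.t * ρ
  ρU : ρ ∈ normalizer (w.U : Set G)
  ρ3 : ∃ k, ρ ^ 3 ^ k = 1
  fix : ∀ x y, (∃ y', ρ * w.j x y * ρ⁻¹ = w.j x y') ↔ x = 0 ∨ x = 1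
  dec : ∀ r ∈ R, ∃ x y, ∃ c ∈ w.CC R, r = w.j x y * c ∨ r = w.t * w.j x y * c
  cls0 : ∀ c ∈ w.CC R, w.t * c * (w.t * c) = 1 → ∃ b ∈ w.CC R, b * w.t * b⁻¹ = w.t * c
  cls1 : ∀ x y, ∀ c ∈ w.CC R, w.t * w.j x y * c * (w.t * w.j x y * c) = 1 →
    ∃ n ∈ normalizer (R : Set G), n * w.t * n⁻¹ = w.t * w.j x y * c
  dd : d * d = 1
  ρd : ρ * d = d * ρ
  dC : ∃ y, ∃ c ∈ w.CC R, d = w.t * w.j 1 y * c

end One

end Cfsg.Agent.WA.Sk
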