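import Cfsg.Agent.WA.SkE1a

/-! Module SkE1: the involution does not lie in the component. -/

set_option autoImplicit false
set_option linter.unusedSectionVars false

namespace Cfsg.Agent.WA.Sk

open Subgroup Cfsg.Agent.H8

variable {F : Type*} [Field F] [Finite F] {θ : RingAut F} {G : Type*} [Group G] [Finite G] {K : Type*} [Group K]

namespace XE

theorem transfer_mem {A U : Subgroup G} (hp : commutator A = ⊤) (hU : U ≤ A) {z : G} (hz : z ∈ A)
    (hc : ∀ a ∈ A, z * a = a * z) : z ^ U.relIndex A ∈ ⁅U, U⁆ := by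
  have key : ∀ (k : ℕ) (g₀ : A), g₀⁻¹ * (⟨z, hz⟩ : A) ^ k * g₀ ∈ U.subgroupOf A →
      g₀⁻¹ * (⟨z, hz⟩ : A) ^ k * g₀ = (⟨z, hz⟩ : A) ^ k := fun k g _ => by
    rw [mul_assoc, ((show Commute (⟨z, hz⟩ : A) g from Subtype.ext (hc g g.2)).pow_left k).eq, inv_mul_cancel_left]
  have e := MonoidHom.transfer_eq_pow (Abelianization.of (G := U.subgroupOf A)) _ key
  have h1 : MonoidHom.transfer (Abelianization.of (G := U.subgroupOf A)) ⟨z, hz⟩ = 1 :=
    Abelianization.commutator_subset_ker _ (hp ▸ mem_top _)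
  rw [h1, eq_comm, ← MonoidHom.mem_ker, Abelianization.ker_of] at e
  have h2 := mem_map_of_mem A.subtype (mem_map_of_mem (U.subgroupOf A).subtype e)
  rw [map_subtype_commutator, map_commutator, subgroupOf_map_subtype, inf_eq_left.2 hU] at h2
  exact h2

theorem cm_sq {a b : G} (h : Commute (a * b * a⁻¹ * b⁻¹) a) :
    a * a * b * (a * a)⁻¹ * b⁻¹ = a * b * a⁻¹ * b⁻¹ * (a * b * a⁻¹ * b⁻¹) := by
  calc _ = a * (a * b * a⁻¹ * b⁻¹) * b * a⁻¹ * b⁻¹ := by group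
    _ = _ := by rw [← h.eq]; group

variable {h : Hy θ G K} {U R : Subgroup G}

namespace Sy

variable (s : Sy h U R)
include s

theorem RU : R ≤ normalizer (U : Set G) := fun r hr => normOf fun y hy => by
  rwa [← (s.sR.le hr).2 y (s.le hy), mul_inv_cancel_right]

theorem dec {x : G} (hx : x ∈ U ⊔ R) : ∃ u ∈ U, ∃ r ∈ R, u * r = x := (mem_sup_of_le_normalizer s.RU).1 hx

theorem conj_mem {c a : G} {k : Fˣ} (hc : c ∈ h.A) (e : P h c = h.κ k) (ha : a ∈ U) : c * a * c⁻¹ ∈ U := by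
  obtain ⟨⟨n, hn⟩, x, y, e1⟩ := (s.mem a (s.le ha)).1 ha
  exact (s.mem _ (cjN (le_normalizer hc) (s.le ha))).2 ⟨⟨n, by rw [conj_pow, hn, mul_one, mul_inv_cancel]⟩, _, _, by
    rw [P_conj h hc (s.le ha), e, e1, h.κ_j]⟩

theorem mem_of_cen {r : G} (h1 : r ∈ h.A) (h2 : r ∈ centralizer (h.A : Set G)) (h3 : ∃ k, r ^ 2 ^ k = 1) : r ∈ U :=
  (s.mem r h1).2 ⟨h3, 0, 0, ((P_eq_one h h1).2 h2).trans h.j0.symm⟩

theorem mem_R {z : G} (h1 : z ∈ U) (h2 : z ∈ centralizer (h.A : Set G)) : z ∈ R :=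
  s.sR.le_of_le_normalizer' (pg_zp (two_of s.pg h1))
    (zpowers_le.2 ⟨mem_centralizer_singleton_iff.2 (h.tA z (s.le h1)).symm, h2⟩)
    (zpowers_le.2 (normOf fun y hy => by rwa [(s.sR.le hy).2 z (s.le h1), mul_inv_cancel_right])) (mem_zpowers z)

theorem sylA : IsSylowIn 2 U h.A := by
  haveI := Fact.mk Nat.prime_two
  have k := s.sT.inf_of_le_normalizer (N := h.A) fun g hg => h.A_norm g (mem_centralizer_singleton_iff.1 hg)
  rwa [inf_eq_right.2 (show h.A ≤ centralizer {h.t} from fun a ha => mem_centralizer_singleton_iff.2 (h.tA a ha).symm),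
    le_antisymm (a := (U ⊔ R) ⊓ h.A) (fun x hx => by
      obtain ⟨u, hu, r, hr, rfl⟩ := s.dec hx.1
      exact mul_mem hu (s.mem_of_cen ((mul_mem_cancel_left (s.le hu)).1 hx.2) (s.sR.le hr).2 (two_of s.sR.pgroup hr)))
      (le_inf le_sup_left s.le)] at k

theorem zero_of_sq {u : G} (hu : u ∈ U) (h2 : u * u ∈ centralizer (h.A : Set G)) : ∃ y, P h u = h.j 0 y := by
  obtain ⟨-, x, y, e⟩ := (s.mem u (s.le hu)).1 hu
  have := (P_eq_one h (mul_mem (s.le hu) (s.le hu))).2 h2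
  rw [P_mul h (s.le hu) (s.le hu), e, j_sq] at this
  exact ⟨y, by rw [e, ss_eq_zero.1 (j_eq_one _ this).2]⟩

theorem cm_cen {z u : G} {y : F} (hz : z ∈ U) (e : P h z = h.j 0 y) (hu : u ∈ U) :
    z * u * z⁻¹ * u⁻¹ ∈ centralizer (h.A : Set G) := by
  obtain ⟨-, a, b, e1⟩ := (s.mem u (s.le hu)).1 hu
  have k := cjN (le_normalizer (s.le hz)) (s.le hu)
  refine (P_eq_one h (mul_mem k (inv_mem (s.le hu)))).1 ?_
  rw [P_mul h k (inv_mem (s.le hu)), P_conj h (s.le hz) (s.le hu), P_inv h (s.le hu), e, e1, z_comm]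
  group

theorem sq_cen {z : G} {y : F} (hz : z ∈ U) (e : P h z = h.j 0 y) : z * z ∈ centralizer (h.A : Set G) :=
  (P_eq_one h (mul_mem (s.le hz) (s.le hz))).1 (by
    rw [P_mul h (s.le hz) (s.le hz), e, j_sq, ss_eq_zero.2 rfl, h.j0])

theorem cm_two {z u : G} {y : F} (hz : z ∈ U) (e : P h z = h.j 0 y) (hu : u ∈ U) :
    z * u * z⁻¹ * u⁻¹ * (z * u * z⁻¹ * u⁻¹) = 1 := by
  rw [← cm_sq (s.cm_cen hz e hu z (s.le hz)).symm, ← s.sq_cen hz e u (s.le hu)]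
  group

theorem zz {z z' : G} {y y' : F} (hz : z ∈ U) (e : P h z = h.j 0 y) (hz' : z' ∈ U) (e' : P h z' = h.j 0 y') :
    z * z' = z' * z := by
  obtain ⟨x, rfl⟩ := h.ss_surj y
  obtain ⟨v, hv, e1⟩ := s.surj x 0
  have k1 := P_eq h (mul_mem (s.le hv) (s.le hv)) (s.le hz) (by rw [P_mul h (s.le hv) (s.le hv), e1, e, j_sq])
  have k2 := inv_mem (s.cm_cen hz' e' hv)
  have k3 := congrArg (·⁻¹) (s.cm_two hz' e' hv)
  rw [show (z' * v * z'⁻¹ * v⁻¹)⁻¹ = v * z' * v⁻¹ * z'⁻¹ by group] at k2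
  simp only [mul_inv_rev, inv_inv, inv_one, ← mul_assoc] at k3
  have k4 := cm_sq (show Commute (v * z' * v⁻¹ * z'⁻¹) v from (k2 v (s.le hv)).symm)
  simp only [← mul_assoc] at k4
  rw [k3, mul_inv_eq_one, mul_inv_eq_iff_eq_mul] at k4
  calc z * z' = v * v * ((v * v)⁻¹ * z * z') := by group
    _ = v * v * z' * ((v * v)⁻¹ * z) := by rw [← k1 z' (s.le hz')]; group
    _ = _ := by rw [k4]; group

theorem lift (y : F) : ∃ e ∈ U, e * e = 1 ∧ P h e = h.j 0 y := by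
  obtain ⟨k, -, hk1⟩ := h.exists_ne 0 1
  have k1 : ss θ k + 1 ≠ 0 := fun e => hk1 (h.ss_inj (by rw [ss_one]; linear_combination e - h.two))
  obtain ⟨c, hc, e⟩ := P_surj h (h.κ k)
  obtain ⟨z, hz, e1⟩ := s.surj 0 (y / (ss θ k + 1))
  have k2 := s.conj_mem hc e hz
  have k3 : P h (c * z * c⁻¹) = h.j 0 (ss θ k * (y / (ss θ k + 1))) := by
    rw [P_conj h hc (s.le hz), e, e1, h.κ_j, mul_zero]
  refine ⟨c * z * c⁻¹ * z⁻¹, mul_mem k2 (inv_mem hz), ?_, ?_⟩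
  · have k4 : Commute (c * z * c⁻¹) z := s.zz k2 k3 hz e1
    rw [← pow_two, k4.inv_right.mul_pow, pow_two, pow_two, conj_mul, s.sq_cen hz e1 c hc]
    group
  · rw [P_mul h (s.le k2) (inv_mem (s.le hz)), P_inv h (s.le hz), k3, e1, j_inv, ss_eq_zero.2 rfl, add_zero, z_add]
    congr 1
    field_simp

/-- the elements of order at most two -/
def E0 : Subgroup G where
  carrier := {e | e ∈ U ∧ e * e = 1}
  one_mem' := ⟨one_mem _, mul_one _⟩
  mul_mem' := fun {a b} ha hb => ⟨mul_mem ha.1 hb.1, by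
    obtain ⟨y, e⟩ := s.zero_of_sq ha.1 (ha.2 ▸ one_mem _)
    obtain ⟨y', e'⟩ := s.zero_of_sq hb.1 (hb.2 ▸ one_mem _)
    rw [← pow_two, (show Commute a b from s.zz ha.1 e hb.1 e').mul_pow, pow_two, pow_two, ha.2, hb.2, one_mul]⟩
  inv_mem' := fun {a} ha => ⟨inv_mem ha.1, by rw [← mul_inv_rev, ha.2, inv_one]⟩

theorem mem_E0 (ht : h.t ∈ U) {x : G} (hx : x ∈ U ⊔ R) (h2 : x * x = 1) : x ∈ s.E0 := by
  refine ⟨?_, h2⟩
  obtain ⟨u, hu, r, hr, rfl⟩ := s.dec hx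
  have rc := (s.sR.le hr).2
  have k1 : Commute u r := rc u (s.le hu)
  rw [← pow_two, k1.mul_pow, pow_two, pow_two] at h2
  obtain ⟨y, e⟩ := s.zero_of_sq hu (by rw [eq_inv_of_mul_eq_one_left h2]; exact inv_mem (mul_mem rc rc))
  obtain ⟨e', he', k2, k3⟩ := s.lift y
  have k4 := P_eq h (s.le he') (s.le hu) (k3.trans e.symm)
  have k5 := mul_mem (s.mem_R (mul_mem (inv_mem he') hu) k4) hr
  have k6 : e'⁻¹ * u * r * (e'⁻¹ * u * r) = 1 := by
    have c1 : Commute e' u := s.zz he' k3 hu e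
    have c2 : Commute e' r := rc e' (s.le he')
    rw [mul_assoc e'⁻¹, ← pow_two, (c1.mul_right c2).inv_left.mul_pow, k1.mul_pow, inv_pow, pow_two, pow_two, pow_two,
      k2, h2, inv_one, one_mul]
  have k7 : e'⁻¹ * u * r ∈ U := by
    by_cases k : e'⁻¹ * u * r = 1
    · rw [k]; exact one_mem _
    · rw [inv_eq_t h (s.sR.le k5).2 (mem_centralizer_singleton_iff.1 (s.sR.le k5).1) k6 k]; exact ht
  simpa [mul_assoc] using mul_mem he' k7

theorem not_triv (ht : h.t ∈ U) (hc : ∀ z ∈ U, ∀ y, P h z = h.j 0 y → ∀ u ∈ U, z * u = u * z) : False := by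
  classical
  have := Fintype.ofFinite F
  haveI := Fact.mk Nat.prime_two
  choose c hcA hcP using fun k : Fˣ => P_surj h (h.κ k)
  have tE : h.t ∈ s.E0 := ⟨ht, h.tt⟩
  have two : ∀ g ∈ zpowers h.t, g = 1 ∨ g = h.t := fun g hg => by
    obtain ⟨i, rfl⟩ := mem_zpowers_iff.1 hg
    have e : h.t ^ (2 : ℤ) = 1 := by rw [zpow_two, h.tt]
    rcases Int.even_or_odd' i with ⟨n, rfl | rfl⟩
    · left; rw [zpow_mul, e, one_zpow]
    · right; rw [zpow_add, zpow_mul, e, one_zpow, one_mul, zpow_one]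
  obtain ⟨φ, h1, -, h3⟩ := extend (W := ⊥) (A := zpowers h.t) (Y := s.E0) (a := fun g => if g = 1 then (0 : F) else 1)
    bot_le (zpowers_le.2 tE) (fun y hy => mem_bot.2 hy.2) (fun x hx y hy => by
      rcases two x hx with rfl | rfl <;> rcases two y hy with rfl | rfl <;> simp [h.t1, h.tt, h.add_self])
    fun y hy => by simp [mem_bot.1 hy]
  have cE : ∀ k, ∀ e ∈ s.E0, c k * e * (c k)⁻¹ ∈ s.E0 := fun k e he =>
    ⟨s.conj_mem (hcA k) (hcP k) he.1, by rw [conj_mul, he.2, mul_one, mul_inv_cancel]⟩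
  obtain ⟨ε, hε⟩ : ∃ ε : G → F, ε = fun e => ∑ k, φ (c k * e * (c k)⁻¹) := ⟨_, rfl⟩
  have e1 : Ad s.E0 ε := fun x hx y hy => by
    simp only [hε]
    rw [← Finset.sum_add_distrib]
    exact Finset.sum_congr rfl fun k _ => by rw [← h1 _ (cE k x hx) _ (cE k y hy), conj_mul]
  have e2 : ∀ l, ∀ e ∈ s.E0, ε (c l * e * (c l)⁻¹) = ε e := fun l e he => by
    simp only [hε]
    rw [← Equiv.sum_comp (Equiv.mulRight l) fun k => φ (c k * e * (c k)⁻¹)]
    refine Finset.sum_congr rfl fun k _ => congrArg φ ?_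
    have k1 := P_eq h (mul_mem (hcA k) (hcA l)) (hcA (k * l)) (by rw [P_mul h (hcA k) (hcA l), hcP, hcP, hcP, map_mul])
    simp only [Equiv.coe_mulRight]
    calc _ = c k * c l * (e * ((c k * c l)⁻¹ * c (k * l))) * (c (k * l))⁻¹ := by group
      _ = _ := by rw [k1 e (s.le he.1)]; group
  have e3 : ε h.t ≠ 0 := by
    have : ∀ k, φ (c k * h.t * (c k)⁻¹) = 1 := fun k => by
      rw [← h.tA _ (hcA k), mul_inv_cancel_right, h3 _ (mem_zpowers _), if_neg h.t1]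
    simp only [hε, this, Finset.sum_const, Finset.card_univ, Fintype.card_units, nsmul_eq_mul, mul_one]
    rw [Nat.cast_pred Fintype.card_pos, FiniteField.cast_card_eq_zero]
    simp
  choose! ux uy hu using fun u (hu : u ∈ U) => ((s.mem u (s.le hu)).1 hu).2
  have ad : Ad U ux := fun a ha b hb => (h.j_inj _ _ _ _ (by
    rw [← hu _ (mul_mem ha hb), P_mul h (s.le ha) (s.le hb), hu a ha, hu b hb, h.j_mul])).1
  have onto : ∀ x, ∃ u ∈ U, ux u = x := fun x => by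
    obtain ⟨u, hu', e⟩ := s.surj x 0
    exact ⟨u, hu', (h.j_inj _ _ _ _ ((hu u hu').symm.trans e)).1⟩
  have z0 : ∀ u ∈ U, ux u = 0 → ∀ v ∈ U, u * v = v * u := fun u hu' e => hc u hu' (uy u) (by rw [hu u hu', e])
  have cU : ∀ a ∈ U, ∀ b ∈ U, a * b * a⁻¹ * b⁻¹ ∈ U := fun a ha b hb =>
    mul_mem (mul_mem (mul_mem ha hb) (inv_mem ha)) (inv_mem hb)
  have cz : ∀ a ∈ U, ∀ b ∈ U, ∀ v ∈ U, a * b * a⁻¹ * b⁻¹ * v = v * (a * b * a⁻¹ * b⁻¹) := fun a ha b hb =>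
    z0 _ (cU a ha b hb) (by
      rw [ad _ (mul_mem (mul_mem ha hb) (inv_mem ha)) _ (inv_mem hb), ad _ (mul_mem ha hb) _ (inv_mem ha), ad a ha b hb,
        ad.inv ha, ad.inv hb]; ring)
  have cE0 : ∀ a ∈ U, ∀ b ∈ U, a * b * a⁻¹ * b⁻¹ ∈ s.E0 := fun a ha b hb => ⟨cU a ha b hb, by
    rw [← cm_sq (cz a ha b hb a ha), z0 _ (mul_mem ha ha) (by rw [ad a ha a ha, h.add_self]) b hb]; group⟩
  obtain ⟨g, g1, g2, g3⟩ := desc (A := U) (B := U) (ψ := fun a b => ε (a * b * a⁻¹ * b⁻¹)) ad ad onto onto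
    (fun b hb a ha a' ha' => by
      beta_reduce
      rw [add_comm, ← e1 _ (cE0 a' ha' b hb) _ (cE0 a ha b hb)]
      congr 1
      calc _ = a * (a' * b * a'⁻¹ * b⁻¹) * b * a⁻¹ * b⁻¹ := by group
        _ = _ := by rw [← cz a' ha' b hb a ha]; group)
    (fun a ha b hb b' hb' => by
      beta_reduce
      rw [← e1 _ (cE0 a ha b hb) _ (cE0 a ha b' hb')]
      congr 1
      calc _ = a * b * a⁻¹ * (a * b' * a⁻¹ * b'⁻¹ * b⁻¹) := by group
        _ = _ := by rw [cz a ha b' hb' _ (inv_mem hb)]; group)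
    (fun a ha b hb e => by
      beta_reduce
      rw [z0 a ha e b hb, show b * a * a⁻¹ * b⁻¹ = 1 by group, e1.one])
    (fun a ha b hb e => by
      beta_reduce
      rw [← z0 b hb e a ha, show b * a * a⁻¹ * b⁻¹ = 1 by group, e1.one])
  have g0 := h.form0 g1 g2 fun k x y => by
    obtain ⟨a, ha, rfl⟩ := onto x
    obtain ⟨b, hb, rfl⟩ := onto y
    have k1 : ∀ a ∈ U, ux (c k * a * (c k)⁻¹) = k * ux a := fun a ha => (h.j_inj _ _ _ _ (by
      rw [← hu _ (s.conj_mem (hcA k) (hcP k) ha), P_conj h (hcA k) (s.le ha), hcP, hu a ha, h.κ_j])).1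
    rw [← k1 a ha, ← k1 b hb, g3 _ (s.conj_mem (hcA k) (hcP k) ha) _ (s.conj_mem (hcA k) (hcP k) hb), g3 a ha b hb,
      ← e2 k _ (cE0 a ha b hb)]
    congr 1; group
  have k1 : ⁅U, U⁆ ≤ e1.ker := commutator_le.2 fun a ha b hb => ⟨cE0 a ha b hb, (g3 a ha b hb).symm.trans (g0 _ _)⟩
  have k2 := k1 (transfer_mem h.perf s.le (s.le ht) h.tA)
  obtain ⟨n, hn⟩ : Odd (U.relIndex h.A) := by
    rw [← Nat.not_even_iff_odd, even_iff_two_dvd]; exact s.sylA.not_dvd_relIndex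
  rw [hn, pow_succ, pow_mul, pow_two, h.tt, one_pow, one_mul] at k2
  exact e3 k2.2

end Sy

end XE

theorem Hy.t_not_mem (h : Hy θ G K) : h.t ∉ h.A := by
  intro htA
  haveI := Fact.mk Nat.prime_two
  obtain ⟨U, R, s⟩ := XE.exists_sy h
  have tC : h.t ∈ centralizer (h.A : Set G) := fun a ha => (h.tA a ha).symm
  have ht : h.t ∈ U := s.mem_of_cen htA tC ⟨1, by rw [pow_one, pow_two, h.tt]⟩
  let W : AddSubgroup F :=
    { carrier := {y | ∃ z ∈ U, XE.P h z = h.j 0 y ∧ ∀ u ∈ U, z * u = u * z}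
      zero_mem' := ⟨1, one_mem _, (XE.P_one h).trans h.j0.symm, fun u _ => by simp⟩
      add_mem' := fun {a b} ⟨z, hz, e, k⟩ ⟨z', hz', e', k'⟩ => ⟨z * z', mul_mem hz hz', by
        rw [XE.P_mul h (s.le hz) (s.le hz'), e, e', XE.z_add], fun u hu =>
          ((show Commute z u from k u hu).mul_left (k' u hu)).eq⟩
      neg_mem' := fun {a} ha => by rwa [show -a = a by linear_combination -a * h.two] }
  by_cases hW : ∃ y ∈ W, y ≠ 0
  · obtain ⟨y, hy, y0⟩ := hW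
    have := h.irr (W := W) (fun k x ⟨z, hz, e, k1⟩ => by
      obtain ⟨c, hc, e1⟩ := XE.P_surj h (h.κ k)
      refine ⟨c * z * c⁻¹, s.conj_mem hc e1 hz, by rw [XE.P_conj h hc (s.le hz), e1, e, h.κ_j, mul_zero],
        fun u hu => ?_⟩
      have k2 := k1 _ (s.conj_mem (k := k⁻¹) (inv_mem hc) (by rw [XE.P_inv h hc, e1, map_inv]) hu)
      calc _ = c * (z * (c⁻¹ * u * c⁻¹⁻¹)) * c⁻¹ := by group
        _ = _ := by rw [k2]; group) hy y0
    refine s.not_triv ht fun z hz y e u hu => ?_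
    obtain ⟨z', hz', e', k⟩ := (this ▸ AddSubgroup.mem_top y : y ∈ W)
    have k1 := XE.P_eq h (s.le hz') (s.le hz) (e'.trans e.symm) u (s.le hu)
    calc z * u = z' * (z'⁻¹ * z * u) := by group
      _ = z' * u * (z'⁻¹ * z) := by rw [← k1]; group
      _ = _ := by rw [k u hu]; group
  push Not at hW
  have hN : normalizer ((U ⊔ R : Subgroup G) : Set G) ≤ centralizer {h.t} := fun g hg => by
    have k1 := s.mem_E0 ht (XE.cjN hg (mem_sup_left ht)) (by rw [conj_mul, h.tt, mul_one, mul_inv_cancel])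
    obtain ⟨y, e⟩ := s.zero_of_sq k1.1 (k1.2 ▸ one_mem _)
    have k2 := hW y ⟨_, k1.1, e, fun u hu => by
      have := mem_centralizer_singleton_iff.1 (s.sT.le (XE.cjN' hg (mem_sup_left hu)))
      calc _ = g * (h.t * (g⁻¹ * u * g)) * g⁻¹ := by group
        _ = _ := by rw [← this]; group⟩
    rw [k2, h.j0, XE.P_eq_one h (s.le k1.1)] at e
    exact mem_centralizer_singleton_iff.2 (mul_inv_eq_iff_eq_mul.1 (XE.inv_eq_t h e (h.tA _ (s.le k1.1)).symm k1.2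
      (by simpa using h.t1)))
  have hT : IsSylowIn 2 (U ⊔ R : Subgroup G) ⊤ :=
    IsSylowIn.of_normalizer le_top (s.sT.of_le (le_inf le_top le_normalizer) (inf_le_right.trans hN))
  have hL : h.L = ⊤ := eq_top_iff.2 fun g _ => (h.gen g).elim id (mul_mem_cancel_left (h.AL htA)).1
  haveI := h.Ls
  haveI : IsSimpleGroup G := ((MulEquiv.subgroupCongr hL).trans topEquiv).symm.isSimpleGroup
  have tE : h.t ∈ s.E0 := ⟨ht, h.tt⟩
  have hE : s.E0 ≤ U ⊔ R := fun e he => mem_sup_left he.1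
  have k := GS.gs (fun k => h.Lnc inferInstance) (GS.SC.of_sylow hT hE (fun e he => he.2) fun e he g _ hg =>
    s.mem_E0 ht hg (by rw [conj_mul, he.2, mul_one, mul_inv_cancel])) fun e => h.t1 (mem_bot.1 (e ▸ tE))
  have k2 : ¬ IsSylowIn 2 s.E0 ⊤ := fun k => by
    obtain ⟨u, hu, e⟩ := s.surj 1 0
    have k1 : u ∈ s.E0 := k.max _ le_top hT.pgroup hE ▸ mem_sup_left hu
    obtain ⟨y, e'⟩ := s.zero_of_sq hu (k1.2 ▸ one_mem _)
    exact one_ne_zero (h.j_inj _ _ _ _ (e.symm.trans e')).1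
  have k3 := (k.resolve_right fun k => k.elim (fun k => k2 k.1) fun k => k2 k.1).2.2
  obtain ⟨w, hw, e⟩ := XE.P_surj h h.w
  have k4 : w ∈ normalizer (s.E0 : Set G) := by
    by_contra k4
    have k5 := k3 w k4
    have k6 : h.t ∈ normalizer (s.E0 : Set G) ⊓ cj w (normalizer (s.E0 : Set G)) :=
      ⟨le_normalizer tE, mem_cj.2 (by rw [mul_assoc, h.tA w hw, inv_mul_cancel_left]; exact le_normalizer tE)⟩
    have k7 := k5.of_dvd_nat (orderOf_dvd_natCard _ k6)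
    rw [orderOf_eq_prime (p := 2) (by rw [pow_two, h.tt]) h.t1] at k7
    exact absurd k7 (by decide)
  obtain ⟨z, hz, z2, e1⟩ := s.lift 1
  have k5 := XE.cjN k4 (show z ∈ s.E0 from ⟨hz, z2⟩)
  obtain ⟨y, e2⟩ := s.zero_of_sq k5.1 (k5.2 ▸ one_mem _)
  rw [XE.P_conj h hw (s.le hz), e, e1, inv_eq_of_mul_eq_one_right h.ww] at e2
  exact one_ne_zero (h.wU 0 1 0 y 1 (by rw [e2, map_one, mul_one])).2

end Cfsg.Agent.WA.Sk
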