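import Cfsg.Agent.WA.ISkS
import Cfsg.Agent.WA.ISkFb
import Cfsg.Agent.WA.GMain
import Cfsg.Agent.H9.Extra
import Cfsg.Agent.H7.TwoTools
import Cfsg.Agent.H7.ZStar
import Cfsg.Agent.FT.Main

/-! Module SkE1, part a: the Sylow `2`-subgroup of `C(t)`. -/

set_option autoImplicit false
set_option linter.unusedSectionVars false

namespace Cfsg.Agent.WA.Sk

open Subgroup Cfsg.Agent.H8

variable {F : Type*} [Field F] [Finite F] {θ : RingAut F} {G : Type*} [Group G] [Finite G] {K : Type*} [Group K]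

namespace XE

theorem cjN {S : Subgroup G} {g x : G} (hg : g ∈ normalizer (S : Set G)) (hs : x ∈ S) : g * x * g⁻¹ ∈ S :=
  (mem_normalizer_iff.1 hg x).1 hs

theorem cjN' {S : Subgroup G} {g x : G} (hg : g ∈ normalizer (S : Set G)) (hs : x ∈ S) : g⁻¹ * x * g ∈ S := by
  simpa using cjN (inv_mem hg) hs

theorem normOf {M : Subgroup G} {g : G} (h : ∀ y ∈ M, g * y * g⁻¹ ∈ M) : g ∈ normalizer (M : Set G) :=
  mem_normalizer_of_cj_le fun y hy => by simpa [mul_assoc] using h _ (mem_cj.mp hy)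

theorem two_of {S : Subgroup G} (h : IsPGroup 2 S) {x : G} (hx : x ∈ S) : ∃ k, x ^ 2 ^ k = 1 := by
  obtain ⟨k, hk⟩ := h ⟨x, hx⟩
  exact ⟨k, congrArg Subtype.val hk⟩

theorem pg_zp {x : G} (h : ∃ k, x ^ 2 ^ k = 1) : IsPGroup 2 (zpowers x) := H9.isPGroup_zpowers h

theorem j_inv (d : SzD θ K) (x y : F) : (d.j x y)⁻¹ = d.j x (y + ss θ x) := by
  refine inv_eq_of_mul_eq_one_right ?_
  rw [d.j_mul, ← d.j0]
  congr 1
  · linear_combination x * d.two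
  · rw [ss]; linear_combination (y + x * θ x) * d.two

theorem j_sq (d : SzD θ K) (x y : F) : d.j x y * d.j x y = d.j 0 (ss θ x) := by
  rw [d.j_mul]
  congr 1
  · linear_combination x * d.two
  · rw [ss]; linear_combination y * d.two

theorem z_comm (d : SzD θ K) (y x' y' : F) : d.j 0 y * d.j x' y' = d.j x' y' * d.j 0 y := by
  rw [d.j_mul, d.j_mul]; congr 1 <;> simp [add_comm]

theorem z_add (d : SzD θ K) (y y' : F) : d.j 0 y * d.j 0 y' = d.j 0 (y + y') := by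
  rw [d.j_mul]; simp

theorem j_eq_one (d : SzD θ K) {x y : F} (h : d.j x y = 1) : x = 0 ∧ y = 0 := d.j_inj _ _ _ _ (h.trans d.j0.symm)

open Classical in
/-- the projection, as a function on `G` -/
noncomputable def P (h : Hy θ G K) (g : G) : K := if hg : g ∈ h.A then h.π ⟨g, hg⟩ else 1

variable (h : Hy θ G K)

theorem P_coe (a : h.A) : P h a = h.π a := by simp [P]

theorem P_mk {a : G} (ha : a ∈ h.A) : P h a = h.π ⟨a, ha⟩ := P_coe h ⟨a, ha⟩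

theorem P_mul {a b : G} (ha : a ∈ h.A) (hb : b ∈ h.A) : P h (a * b) = P h a * P h b := by
  rw [P_mk h ha, P_mk h hb, ← map_mul, P_mk h (mul_mem ha hb)]; rfl

theorem P_inv {a : G} (ha : a ∈ h.A) : P h a⁻¹ = (P h a)⁻¹ := by
  rw [P_mk h ha, ← map_inv, P_mk h (inv_mem ha)]; rfl

theorem P_pow {a : G} (ha : a ∈ h.A) (n : ℕ) : P h (a ^ n) = P h a ^ n := by
  rw [P_mk h ha, ← map_pow, P_mk h (pow_mem ha n)]; rfl

theorem P_one : P h 1 = 1 := by rw [P_mk h (one_mem _)]; exact map_one _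

theorem P_conj {a b : G} (ha : a ∈ h.A) (hb : b ∈ h.A) : P h (a * b * a⁻¹) = P h a * P h b * (P h a)⁻¹ := by
  rw [P_mul h (mul_mem ha hb) (inv_mem ha), P_mul h ha hb, P_inv h ha]

theorem P_eq_one {a : G} (ha : a ∈ h.A) : P h a = 1 ↔ a ∈ centralizer (h.A : Set G) := by
  rw [P_mk h ha, h.π_ker, mem_center_iff, mem_centralizer_iff]
  exact ⟨fun k b hb => congrArg Subtype.val (k ⟨b, hb⟩), fun k b => Subtype.ext (k b b.2)⟩

theorem P_surj (k : K) : ∃ a ∈ h.A, P h a = k := by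
  obtain ⟨a, rfl⟩ := h.π_surj k
  exact ⟨a, a.2, P_coe h a⟩

theorem P_eq {a b : G} (ha : a ∈ h.A) (hb : b ∈ h.A) (e : P h a = P h b) : a⁻¹ * b ∈ centralizer (h.A : Set G) :=
  (P_eq_one h (mul_mem (inv_mem ha) hb)).1 (by rw [P_mul h (inv_mem ha) hb, P_inv h ha, e, inv_mul_cancel])

theorem aut' {g : G} (hg : g ∈ normalizer (h.A : Set G)) :
    ∃ φ : K ≃* K, ∀ a ∈ h.A, φ (P h a) = P h (g * a * g⁻¹) := by
  have : Finite K := Finite.of_surjective _ h.π_surj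
  let c : h.A ≃* h.A := normalizerMonoidHom h.A ⟨g, hg⟩
  let ψ : K →* K := h.π.liftOfSurjective h.π_surj ⟨h.π.comp c.toMonoidHom, fun a ha => by
    rw [MonoidHom.mem_ker] at ha ⊢
    rw [h.π_ker] at ha
    exact (h.π_ker _).2 (mem_center_iff.2 fun b => by
      obtain ⟨b, rfl⟩ := c.surjective b
      exact (map_mul c b a).symm.trans ((congrArg c (mem_center_iff.1 ha b)).trans (map_mul c a b)))⟩
  have k : ∀ a : h.A, ψ (h.π a) = h.π (c a) := fun a => MonoidHom.liftOfRightInverse_comp_apply _ _ _ _ a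
  refine ⟨MulEquiv.ofBijective ψ (Finite.surjective_iff_bijective.1 fun x => ?_), fun a ha => ?_⟩
  · obtain ⟨a, rfl⟩ := h.π_surj x
    obtain ⟨a, rfl⟩ := c.surjective a
    exact ⟨_, k a⟩
  · rw [P_mk h ha, P_mk h (cjN hg ha)]
    exact k ⟨a, ha⟩

theorem cen' {g : G} (hg : g ∈ normalizer (h.A : Set G)) (h1 : ∀ a ∈ h.A, P h (g * a * g⁻¹) = P h a) :
    g ∈ centralizer (h.A : Set G) := by
  have h2 : h.A ≤ centralizer {g} := by
    have e : ⁅h.A, h.A⁆ = h.A := by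
      rw [← map_subtype_commutator, h.perf, ← MonoidHom.range_eq_map, range_subtype]
    rw [← e]
    refine commutator_le.2 fun a ha b hb => mem_centralizer_singleton_iff.2 ?_
    obtain ⟨z, hz⟩ : ∃ z, z = a⁻¹ * (g * a * g⁻¹) := ⟨_, rfl⟩
    obtain ⟨y, hy⟩ : ∃ y, y = b⁻¹ * (g * b * g⁻¹) := ⟨_, rfl⟩
    have z1 := hz ▸ P_eq h ha (cjN hg ha) (h1 a ha).symm
    have y1 := hy ▸ P_eq h hb (cjN hg hb) (h1 b hb).symm
    have y2 : y ∈ h.A := hy ▸ mul_mem (inv_mem hb) (cjN hg hb)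
    rw [eq_comm, ← mul_inv_eq_iff_eq_mul, commutatorElement_def]
    calc _ = (a * z) * (b * y) * (a * z)⁻¹ * (b * y)⁻¹ := by rw [hz, hy]; group
      _ = a * (z * (b * y)) * z⁻¹ * a⁻¹ * y⁻¹ * b⁻¹ := by group
      _ = a * b * (a⁻¹ * y) * y⁻¹ * b⁻¹ := by rw [← z1 _ (mul_mem hb y2), y1 _ (inv_mem ha)]; group
      _ = _ := by group
  exact fun a ha => mem_centralizer_singleton_iff.1 (h2 ha)

include h in
theorem O2 : pPrimeCore 2 G = ⊥ := by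
  haveI := Fact.mk Nat.prime_two
  haveI := h.Ls
  haveI := h.Ln
  rcases (Normal.subgroupOf (inferInstance : (pPrimeCore 2 G).Normal) h.L).eq_bot_or_eq_top with k | k
  · refine le_bot_iff.1 (h.LC ▸ ?_)
    exact le_centralizer_iff.1 (commutator_eq_bot_iff_le_centralizer.1 (le_bot_iff.1
      ((commutator_le_inf _ _).trans (disjoint_iff.1 (subgroupOf_eq_bot.1 k).symm).le)))
  · exact absurd (IsSimpleGroup.comm_iff_isSolvable.2 (FT.odd_solvable (by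
      rw [← Nat.not_even_iff_odd, even_iff_two_dvd]
      exact L0.not_dvd_card_of_le (subgroupOf_eq_top.1 k) L0.not_dvd_card_pPrimeCore))) fun k => h.Lnc ⟨⟨k⟩⟩

theorem inv_eq_t {s : G} (h1 : s ∈ centralizer (h.A : Set G)) (h2 : s * h.t = h.t * s) (h3 : s * s = 1) (h4 : s ≠ 1) :
    s = h.t :=
  H9.eq_of_isCyclic_of_mul_self (h.cyc (zpowers s ⊔ zpowers h.t) (sup_le (zpowers_le.2 h1)
    (zpowers_le.2 fun a ha => (h.tA a ha).symm)) ((pg_zp ⟨1, by rw [pow_one, pow_two, h3]⟩).to_sup_of_normal_left'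
      (pg_zp ⟨1, by rw [pow_one, pow_two, h.tt]⟩) (zpowers_le.2 (normOf fun y hy => by
        obtain ⟨i, rfl⟩ := mem_zpowers_iff.1 hy
        rw [← ((show Commute s h.t from h2).zpow_left i).eq, mul_inv_cancel_right]; exact hy))))
    (mem_sup_left (mem_zpowers _)) (mem_sup_right (mem_zpowers _)) h3 h.tt h4 h.t1

/-- the Sylow data -/
structure Sy (U R : Subgroup G) : Prop where
  pg : IsPGroup 2 U
  le : U ≤ h.A
  mem : ∀ a ∈ h.A, a ∈ U ↔ (∃ k, a ^ 2 ^ k = 1) ∧ ∃ x y, P h a = h.j x y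
  surj : ∀ x y, ∃ a ∈ U, P h a = h.j x y
  sR : IsSylowIn 2 R (centralizer {h.t} ⊓ centralizer (h.A : Set G))
  tR : h.t ∈ R
  sT : IsSylowIn 2 (U ⊔ R : Subgroup G) (centralizer {h.t})

theorem exists_sy : ∃ U R, Sy h U R := by
  haveI := Fact.mk Nat.prime_two
  let X : Subgroup G :=
    { carrier := {a | a ∈ h.A ∧ ∃ x y, P h a = h.j x y}
      one_mem' := ⟨one_mem _, 0, 0, (P_one h).trans h.j0.symm⟩
      mul_mem' := fun {a b} ⟨ha, _, _, e⟩ ⟨hb, _, _, e'⟩ => ⟨mul_mem ha hb, _, _, by rw [P_mul h ha hb, e, e', h.j_mul]⟩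
      inv_mem' := fun {a} ⟨ha, _, _, e⟩ => ⟨inv_mem ha, _, _, by rw [P_inv h ha, e, j_inv]⟩ }
  have hX : ∀ a, a ∈ X ↔ a ∈ h.A ∧ ∃ x y, P h a = h.j x y := fun a => Iff.rfl
  have hO : H7.opp 2 (h.A ⊓ centralizer (h.A : Set G)) ≤ h.A ⊓ centralizer (h.A : Set G) := H7.opp_le _
  obtain ⟨U, u1, u2, u3, u4⟩ := twoPart (X := X) (Z := H7.opp 2 (h.A ⊓ centralizer (h.A : Set G)))
    (fun a ha => ⟨(hO ha).1, 0, 0, ((P_eq_one h (hO ha).1).2 (hO ha).2).trans h.j0.symm⟩)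
    (fun a ha z hz => ((hO hz).2 a ha.1).symm)
    (by rw [← Nat.not_even_iff_odd, even_iff_two_dvd]; exact L0.not_dvd_card_map_pPrimeCore _)
    (fun a ⟨ha, x, y, e⟩ => by
      obtain ⟨k, hk⟩ := H7.exists_odd_orderOf_pow (a ^ 2 ^ 2)
      have h1 : a ^ 2 ^ 2 ∈ h.A ⊓ centralizer (h.A : Set G) := ⟨pow_mem ha _, (P_eq_one h (pow_mem ha _)).1 (by
        rw [P_pow h ha, e, pow_two 2, pow_mul, pow_two, pow_two, j_sq, j_sq, ss_eq_zero.2 rfl, h.j0])⟩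
      refine ⟨2 + k, ?_⟩
      rw [pow_add, pow_mul]
      refine L0.le_map_pPrimeCore (zpowers_le.2 (pow_mem h1 _)) (fun c hc => normOf fun y hy => ?_) ?_ (mem_zpowers _)
      · rwa [← hc.2 y (zpowers_le.2 (pow_mem h1 (2 ^ k)) hy).1, mul_inv_cancel_right]
      · rwa [Nat.card_zpowers, ← even_iff_two_dvd, Nat.not_even_iff_odd])
  have hUA : U ≤ h.A := fun a ha => (u1 ha).1
  have hmem : ∀ a ∈ h.A, a ∈ U ↔ (∃ k, a ^ 2 ^ k = 1) ∧ ∃ x y, P h a = h.j x y := fun a ha =>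
    ⟨fun k => ⟨two_of u2 k, (u1 k).2⟩, fun k => u4 a ⟨ha, k.2⟩ k.1⟩
  have hsurj : ∀ x y, ∃ a ∈ U, P h a = h.j x y := fun x y => by
    obtain ⟨a, ha, e⟩ := P_surj h (h.j x y)
    obtain ⟨p, hp, z, hz, rfl⟩ := u3 a ⟨ha, x, y, e⟩
    exact ⟨p, hp, by rwa [P_mul h (hUA hp) (hO hz).1, (P_eq_one h (hO hz).1).2 (hO hz).2, mul_one] at e⟩
  obtain ⟨R, hR, htR⟩ := exists_isSylowIn_ge (p := 2) (Q := zpowers h.t)
    (K := centralizer {h.t} ⊓ centralizer (h.A : Set G)) (pg_zp ⟨1, by rw [pow_one, pow_two, h.tt]⟩)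
    (zpowers_le.2 ⟨mem_centralizer_singleton_iff.2 rfl, fun a ha => (h.tA a ha).symm⟩)
  have hn : R ≤ normalizer (U : Set G) := fun r hr => normOf fun y hy => by
    rwa [← (hR.le hr).2 y (hUA hy), mul_inv_cancel_right]
  have hT := u2.to_sup_of_normal_left' hR.pgroup hn
  have hTC : U ⊔ R ≤ centralizer {h.t} := sup_le
    (fun a ha => mem_centralizer_singleton_iff.2 (h.tA a (hUA ha)).symm) (hR.le.trans inf_le_left)
  refine ⟨U, R, u2, hUA, hmem, hsurj, hR, htR (mem_zpowers _), hTC, hT, fun Q hQ hQp hle => ?_⟩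
  by_contra hne
  obtain ⟨g, ⟨hgQ, hgN⟩, hg⟩ := SetLike.exists_of_lt (lt_inf_normalizer_of_pgroup hQp (lt_of_le_of_ne hle (Ne.symm hne)))
  have gA := h.A_norm g (mem_centralizer_singleton_iff.1 (hQ hgQ))
  obtain ⟨φ, hφ⟩ := aut' h gA
  have h1 := h.aut_two φ (fun x y => by
    obtain ⟨a, ha, e⟩ := hsurj x y
    obtain ⟨u, hu, r, hr, e1⟩ := (mem_sup_of_le_normalizer hn).1 (cjN hgN (mem_sup_left ha))
    have k : r ∈ h.A := by
      rw [← mul_mem_cancel_left (hUA hu), e1]; exact cjN gA (hUA ha)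
    obtain ⟨x', y', e2⟩ := (u1 hu).2
    exact ⟨x', y', by rw [← e, hφ a (hUA ha), ← e1, P_mul h (hUA hu) k, (P_eq_one h k).2 (hR.le hr).2, mul_one, e2]⟩) (by
    obtain ⟨k, hk⟩ := two_of hQp hgQ
    refine ⟨k, fun a => ?_⟩
    obtain ⟨a, ha, rfl⟩ := P_surj h a
    have : ∀ n : ℕ, φ^[n] (P h a) = P h (g ^ n * a * (g ^ n)⁻¹) := fun n => by
      induction n with
      | zero => simp
      | succ n ih =>
        rw [Function.iterate_succ_apply', ih, hφ _ (cjN (pow_mem gA n) ha), pow_succ']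
        congr 1; group
    rw [this, hk]; simp)
  obtain ⟨x, y, e⟩ := h.aut φ h1
  obtain ⟨u, hu, e1⟩ := hsurj x y
  have h2 := cen' h (mul_mem (inv_mem (le_normalizer (hUA hu))) gA) fun a ha => by
    rw [show u⁻¹ * g * a * (u⁻¹ * g)⁻¹ = u⁻¹ * (g * a * g⁻¹) * u⁻¹⁻¹ by group,
      P_conj h (inv_mem (hUA hu)) (cjN gA ha), P_inv h (hUA hu), ← hφ a ha, e, e1]
    group
  have h3 : u⁻¹ * g ∈ Q := mul_mem (inv_mem (hle (mem_sup_left hu))) hgQ
  have h4 := hR.max (Q ⊓ (centralizer {h.t} ⊓ centralizer (h.A : Set G))) inf_le_right (hQp.to_le inf_le_left)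
    (le_inf (le_sup_right.trans hle) hR.le)
  have h5 : u⁻¹ * g ∈ R := h4 ▸ ⟨h3, hQ h3, h2⟩
  exact hg (by simpa using mul_mem (mem_sup_left hu : u ∈ U ⊔ R) (mem_sup_right h5))

end XE

theorem Hy.exists_aut (h : Hy θ G K) {g : G} (hg : g * h.t = h.t * g) :
    ∃ φ : K ≃* K, ∀ a : h.A, ∀ b : h.A, (b : G) = g * a * g⁻¹ → φ (h.π a) = h.π b := by
  obtain ⟨φ, hφ⟩ := XE.aut' h (h.A_norm g hg)
  exact ⟨φ, fun a b e => by rw [← XE.P_coe, ← XE.P_coe, hφ a a.2, e]⟩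

theorem Hy.cen_of (h : Hy θ G K) {g : G} (hg : g ∈ normalizer (h.A : Set G))
    (h1 : ∀ a : h.A, ∀ b : h.A, (b : G) = g * a * g⁻¹ → h.π a = h.π b) : g ∈ centralizer (h.A : Set G) :=
  XE.cen' h hg fun a ha => by
    rw [XE.P_mk h ha, XE.P_mk h (XE.cjN hg ha)]
    exact (h1 _ _ rfl).symm

theorem Hy.not_isolated (h : Hy θ G K) {T : Subgroup G} (hT : IsSylowIn 2 T ⊤) (ht : h.t ∈ T) :
    ∃ g, g * h.t * g⁻¹ ∈ T ∧ g * h.t * g⁻¹ ≠ h.t := by
  by_contra k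
  push Not at k
  refine h.t1 (mem_bot.1 (h.LC ▸ fun g _ => ?_))
  have := H7.zstar_sylow hT.toSylowTop h.tt k g
  rw [XE.O2 h, mem_bot, commutatorElement_eq_one_iff_commute] at this
  exact this.symm

/-- `T₀ = U₀ R` is a Sylow `2`-subgroup of `C(t)` -/
theorem Hy.exists_syl (h : Hy θ G K) : ∃ U₀ R : Subgroup G, IsPGroup 2 U₀ ∧ U₀ ≤ h.A ∧
    (∀ a : h.A, (a : G) ∈ U₀ ↔ (∃ k, a ^ 2 ^ k = 1) ∧ ∃ x y, h.π a = h.j x y) ∧
    (∀ x y, ∃ a : h.A, (a : G) ∈ U₀ ∧ h.π a = h.j x y) ∧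
    IsSylowIn 2 R (centralizer {h.t} ⊓ centralizer (h.A : Set G)) ∧ h.t ∈ R ∧
    IsSylowIn 2 (U₀ ⊔ R) (centralizer {h.t}) := by
  obtain ⟨U, R, s⟩ := XE.exists_sy h
  refine ⟨U, R, s.pg, s.le, fun a => ?_, fun x y => ?_, s.sR, s.tR, s.sT⟩
  · rw [s.mem a a.2, XE.P_coe]
    simp only [Subtype.ext_iff, coe_pow, coe_one]
  · obtain ⟨a, ha, e⟩ := s.surj x y
    exact ⟨⟨a, s.le ha⟩, ha, (XE.P_mk h _).symm.trans e⟩

end Cfsg.Agent.WA.Sk
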