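import Cfsg.Agent.WA.SkE1

/-! Module SkE2: existence of the frame. -/

set_option autoImplicit false
set_option linter.unusedSectionVars false

namespace Cfsg.Agent.WA.Sk

open Subgroup Cfsg.Agent.H8

variable {F : Type*} [Field F] [Finite F] {θ : RingAut F} {G : Type*} [Group G] [Finite G] {K : Type*} [Group K]

namespace XE

variable {h : Hy θ G K} {U R : Subgroup G}

theorem two_zp {t g : G} (ht : t * t = 1) (hg : g ∈ zpowers t) : g = 1 ∨ g = t := by
  obtain ⟨i, rfl⟩ := mem_zpowers_iff.1 hg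
  have e : t ^ (2 : ℤ) = 1 := by rw [zpow_two, ht]
  rcases Int.even_or_odd' i with ⟨n, rfl | rfl⟩
  · left; rw [zpow_mul, e, one_zpow]
  · right; rw [zpow_add, zpow_mul, e, one_zpow, one_mul, zpow_one]

theorem odd_cen {z : G} (h1 : z ∈ h.A) (h2 : z ∈ centralizer (h.A : Set G)) : Odd (orderOf z) := by
  by_contra k
  obtain ⟨n, hn⟩ := Nat.not_odd_iff_even.1 k
  have h0 : 0 < n := by have := orderOf_pos z; omega
  refine h.t_not_mem (inv_eq_t h (pow_mem h2 n) (h.tA _ (pow_mem h1 n)).symm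
    (by rw [← pow_add, ← hn, pow_orderOf_eq_one]) (pow_ne_one_of_lt_orderOf h0.ne' (by omega)) ▸ pow_mem h1 n)

theorem eq_one_of_two {z : G} (h1 : Odd (orderOf z)) (h2 : ∃ k, z ^ 2 ^ k = 1) : z = 1 := by
  obtain ⟨k, hk⟩ := h2
  exact orderOf_eq_one_iff.1 (Nat.Coprime.eq_one_of_dvd ((Nat.coprime_two_right.2 h1).pow_right k)
    (orderOf_dvd_of_pow_eq_one hk))

namespace Sy

variable (s : Sy h U R)
include s

theorem inj {a b : G} (ha : a ∈ U) (hb : b ∈ U) (e : P h a = P h b) : a = b :=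
  inv_mul_eq_one.1 (eq_one_of_two (odd_cen (s.le (mul_mem (inv_mem ha) hb)) (P_eq h (s.le ha) (s.le hb) e))
    (two_of s.pg (mul_mem (inv_mem ha) hb)))

theorem z_cen {z u : G} {y : F} (hz : z ∈ U) (e : P h z = h.j 0 y) (hu : u ∈ U) : z * u = u * z :=
  mul_inv_eq_iff_eq_mul.1 (mul_inv_eq_one.1 (s.inj (mul_mem (mul_mem (mul_mem hz hu) (inv_mem hz)) (inv_mem hu))
    (one_mem _) (by
      rw [P_one]
      exact (P_eq_one h (s.le (mul_mem (mul_mem (mul_mem hz hu) (inv_mem hz)) (inv_mem hu)))).2 (s.cm_cen hz e hu))))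

theorem R_eq : R ≤ zpowers h.t := by
  haveI := Fact.mk Nat.prime_two
  by_contra hR
  have rc : ∀ r ∈ R, r ∈ centralizer (h.A : Set G) := fun r hr => (s.sR.le hr).2
  have rt : ∀ r ∈ R, r * h.t = h.t * r := fun r hr => mem_centralizer_singleton_iff.1 (s.sR.le hr).1
  have hcyc := h.cyc R rc s.sR.pgroup
  have rr : ∀ r ∈ R, ∀ r' ∈ R, r * r' = r' * r := fun r hr r' hr' =>
    congrArg Subtype.val (hcyc.isMulCommutative.is_comm.comm (⟨r, hr⟩ : R) ⟨r', hr'⟩)
  obtain ⟨r₀, hr₀, e₀⟩ : ∃ r ∈ R, r * r = h.t := by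
    obtain ⟨r, hr, hn⟩ := SetLike.not_le_iff_exists.1 hR
    obtain ⟨k, hk⟩ := two_of s.sR.pgroup hr
    induction k generalizing r with
    | zero => exact (hn (by rw [pow_zero, pow_one] at hk; rw [hk]; exact one_mem _)).elim
    | succ k ih =>
      by_cases k1 : r * r ∈ zpowers h.t
      · rcases two_zp h.tt k1 with k2 | k2
        · exact (hn (by
            by_cases k3 : r = 1
            · rw [k3]; exact one_mem _
            · rw [inv_eq_t h (rc r hr) (rt r hr) k2 k3]; exact mem_zpowers _)).elim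
        · exact ⟨r, hr, k2⟩
      · exact ih _ (mul_mem hr hr) k1 (by rwa [← pow_two, ← pow_mul, ← pow_succ'])
  have cT : ∀ r ∈ R, ∀ x ∈ U ⊔ R, x * r = r * x := fun r hr x hx => by
    obtain ⟨u, hu, r', hr', rfl⟩ := s.dec hx
    exact ((show Commute u r from rc r hr u (s.le hu)).mul_left (rr r' hr' r hr)).eq
  have hN : normalizer ((U ⊔ R : Subgroup G) : Set G) ≤ centralizer {h.t} := fun g hg => by
    obtain ⟨u, hu, r, hr, e⟩ := s.dec (cjN hg (mem_sup_right hr₀))
    have k1 : ∀ v ∈ U, u * v = v * u := fun v hv => by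
      have k := cT r₀ hr₀ _ (cjN' hg (mem_sup_left hv))
      have k' : u * r * v = v * (u * r) := by
        rw [e]
        calc _ = g * (r₀ * (g⁻¹ * v * g)) * g⁻¹ := by group
          _ = _ := by rw [← k]; group
      rwa [mul_assoc, ← rc r hr v (s.le hv), ← mul_assoc, ← mul_assoc, mul_left_inj] at k'
    obtain ⟨-, x, y, e1⟩ := (s.mem u (s.le hu)).1 hu
    have k2 : x = 0 := by
      by_contra x0
      obtain ⟨x', k, -⟩ := h.bb_big x0 0 0
      obtain ⟨v, hv, e2⟩ := s.surj x' 0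
      have := congrArg (P h) (k1 v hv)
      rw [P_mul h (s.le hu) (s.le hv), P_mul h (s.le hv) (s.le hu), e1, e2, h.j_mul, h.j_mul] at this
      refine k ?_
      rw [bb]
      linear_combination (h.j_inj _ _ _ _ this).2 + x * θ x' * h.two
    rw [k2] at e1
    have k3 : u * u = 1 := s.inj (mul_mem hu hu) (one_mem _) (by
      rw [P_one]; exact (P_eq_one h (s.le (mul_mem hu hu))).2 (s.sq_cen hu e1))
    have k4 : g * h.t * g⁻¹ = r * r := by
      rw [← e₀, ← conj_mul, ← e, ← pow_two, (show Commute u r from rc r hr u (s.le hu)).mul_pow, pow_two, pow_two, k3,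
        one_mul]
    refine mem_centralizer_singleton_iff.2 (mul_inv_eq_iff_eq_mul.1 ?_)
    refine inv_eq_t h (k4 ▸ rc _ (mul_mem hr hr)) (k4 ▸ rt _ (mul_mem hr hr)) ?_ (by simpa using h.t1)
    rw [conj_mul, h.tt, mul_one, mul_inv_cancel]
  have hT : IsSylowIn 2 (U ⊔ R : Subgroup G) ⊤ :=
    IsSylowIn.of_normalizer le_top (s.sT.of_le (le_inf le_top le_normalizer) (inf_le_right.trans hN))
  obtain ⟨g, hg, hne⟩ := h.not_isolated hT (mem_sup_right s.tR)
  obtain ⟨n, hn, e⟩ := H6.burnside_fusion hT.toSylowTop (x := h.t) (g := g) (cT _ s.tR) fun x hx => by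
    obtain ⟨u, hu, r, hr, e⟩ := s.dec hg
    have k1 : Commute u r := rc r hr u (s.le hu)
    have k2 : u * r * (u * r) = 1 := by rw [e, conj_mul, h.tt, mul_one, mul_inv_cancel]
    rw [← pow_two, k1.mul_pow, pow_two, pow_two] at k2
    obtain ⟨y, e1⟩ := s.zero_of_sq hu (by
      rw [eq_inv_of_mul_eq_one_left k2]; exact inv_mem (rc _ (mul_mem hr hr)))
    rw [← e]
    refine (Commute.mul_right ?_ (cT r hr x hx)).eq
    obtain ⟨u', hu', r', hr', rfl⟩ := s.dec hx
    exact (show Commute u' u from (s.z_cen hu e1 hu').symm).mul_left (rc r' hr' u (s.le hu)).symm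
  exact hne (by rw [← e, mem_centralizer_singleton_iff.1 (hN hn), mul_inv_cancel_right])

end Sy

end XE

open XE in
theorem Hy.exists_fr (h : Hy θ G K) : ∃ f : Fr θ G, f.t = h.t ∧ f.L = h.L := by
  haveI := Fact.mk Nat.prime_two
  obtain ⟨U, R, s⟩ := exists_sy h
  obtain ⟨C, hC⟩ : ∃ C, C = centralizer {h.t} ⊓ centralizer (h.A : Set G) := ⟨_, rfl⟩
  have mC : ∀ c, c ∈ C ↔ c * h.t = h.t * c ∧ c ∈ centralizer (h.A : Set G) := fun c => by
    rw [hC, mem_inf, mem_centralizer_singleton_iff]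
  have sC : IsSylowIn 2 R C := hC ▸ s.sR
  have tC : h.t ∈ C := sC.le s.tR
  have hO : ¬ 2 ∣ Nat.card (H7.qClos 2 C) := by
    have h1 : HasNormalPComplement 2 C :=
      H6.hasNormalPComplement_of_normalizer_le_centralizer sC.toSylow fun g _ =>
        mem_centralizer_iff.mpr fun z hz => Subtype.ext (by
          rcases two_zp (g := (z : G)) h.tt (s.R_eq hz) with k | k
          · simp [k]
          · simp only [coe_mul, k]; exact ((mC g).1 g.2).1.symm)
    rw [H7.qClos_eq_map_pResidual, card_map_of_injective C.subtype_injective]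
    exact H6.hasNormalPComplement_iff_not_dvd_card_pResidual.mp h1
  have mO : ∀ c ∈ C, Odd (orderOf c) → c ∈ H7.qClos 2 C := fun c hc k => H7.mem_qClos hc (Nat.coprime_two_right.2 k)
  have zO : ∀ a ∈ h.A, ∀ b ∈ h.A, P h a = P h b → ∃ o ∈ H7.qClos 2 C, b = a * o := fun a ha b hb e =>
    ⟨a⁻¹ * b, mO _ ((mC _).2 ⟨(h.tA _ (mul_mem (inv_mem ha) hb)).symm, P_eq h ha hb e⟩)
      (odd_cen (mul_mem (inv_mem ha) hb) (P_eq h ha hb e)), by group⟩
  have decC : ∀ c ∈ C, ∃ o ∈ H7.qClos 2 C, c = o ∨ c = h.t * o := fun c hc => by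
    have k1 : H7.qClos 2 C ⊔ R = C := by
      refine le_antisymm (sup_le (H7.qClos_le C) sC.le) (le_of_forall_isSylowIn_le fun p hp _ => ?_)
      by_cases e : p = 2
      · subst e; exact ⟨R, sC, le_sup_right⟩
      obtain ⟨Q, hQ⟩ := exists_isSylowIn p C
      haveI := Fact.mk hp
      obtain ⟨n, hn⟩ := hQ.pgroup.exists_card_eq
      exact ⟨Q, hQ, (H7.le_qClos (by
        rw [hn]; exact fun k => e ((Nat.prime_dvd_prime_iff_eq Nat.prime_two hp).1
          (Nat.prime_two.dvd_of_dvd_pow k)).symm) hQ.le).trans le_sup_left⟩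
    obtain ⟨o, ho, r, hr, rfl⟩ := (mem_sup_of_le_normalizer (sC.le.trans (H7.le_normalizer_qClos C))).1 (k1.ge hc)
    refine ⟨o, ho, (two_zp h.tt (s.R_eq hr)).imp (fun k => by rw [k, mul_one]) fun k => ?_⟩
    rw [k]; exact ((mC o).1 (H7.qClos_le C ho)).1
  choose j jU jP using s.surj
  choose κ κA κP using fun k : Fˣ => P_surj h (h.κ k)
  have jA : ∀ x y, j x y ∈ h.A := fun x y => s.le (jU x y)
  have eqj : ∀ a ∈ h.A, (∃ k, a ^ 2 ^ k = 1) → ∀ x y, P h a = h.j x y → a = j x y := fun a ha k x y e =>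
    s.inj ((s.mem a ha).2 ⟨k, x, y, e⟩) (jU x y) (e.trans (jP x y).symm)
  have cj2 : ∀ g x y, ∃ k, (g * j x y * g⁻¹) ^ 2 ^ k = 1 := fun g x y => by
    obtain ⟨k, hk⟩ := two_of s.pg (jU x y)
    exact ⟨k, by rw [conj_pow, hk, mul_one, mul_inv_cancel]⟩
  obtain ⟨w, wA, wP, ww⟩ : ∃ w ∈ h.A, P h w = h.w ∧ w * w = 1 := by
    obtain ⟨w, wA, wP⟩ := P_surj h h.w
    obtain ⟨n, hn⟩ := odd_cen (mul_mem wA wA) ((P_eq_one h (mul_mem wA wA)).1 (by rw [P_mul h wA wA, wP, h.ww]))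
    refine ⟨w ^ (2 * n + 1), pow_mem wA _, ?_, ?_⟩
    · rw [P_pow h wA, wP, pow_succ, pow_mul, pow_two, h.ww, one_pow, one_mul]
    · rw [← pow_add, ← two_mul, pow_mul, pow_two, ← hn, pow_orderOf_eq_one]
  refine ⟨{ toFd := h.toFd, t := h.t, tt := h.tt, t1 := h.t1, j := j, j_mul := fun x y x' y' => ?_
            j_inj := fun x y x' y' e => h.j_inj _ _ _ _ (by rw [← jP, ← jP, e]), κ := κ, κ_j := fun k x y => ?_
            κ_odd := fun k => ?_, O := H7.qClos 2 C
            O_odd := by rwa [← Nat.not_even_iff_odd, even_iff_two_dvd]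
            κ_mul := fun k l => zO _ (mul_mem (κA k) (κA l)) _ (κA _) (by
              rw [P_mul h (κA k) (κA l), κP, κP, κP, map_mul])
            t_ne := fun x y e => h.t_not_mem (e ▸ jA x y)
            tO := fun o ho => ((mC o).1 (H7.qClos_le C ho)).1.symm, O_norm := fun g hg => ?_
            ti := fun g hg y x' y' y0 e a b => ?_, ker := fun g hg e => ?_, A := h.A, A_norm := h.A_norm, jA := jA
            κA := κA, tA := h.tA, OA := fun o ho a ha => (((mC o).1 (H7.qClos_le C ho)).2 a ha).symm, w := w, wA := wA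
            ww := ww, wκ := fun k => zO _ (inv_mem (κA k)) _ (mul_mem (mul_mem wA (κA k)) wA) (by
              rw [P_mul h (mul_mem wA (κA k)) wA, P_mul h wA (κA k), P_inv h (κA k), wP, κP, h.wκ])
            wU := ⟨0, 1, fun x' y' e => ?_⟩, bru := fun a ha => ?_, L := h.L, Ln := h.Ln, Ls := h.Ls, Lnc := h.Lnc
            AL := h.AL, gen := h.gen, LC := h.LC }, rfl, rfl⟩
  · exact s.inj (mul_mem (jU x y) (jU x' y')) (jU _ _) (by rw [P_mul h (jA x y) (jA x' y'), jP, jP, jP, h.j_mul])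
  · exact eqj _ (cjN (le_normalizer (κA k)) (jA x y)) (cj2 _ x y) _ _ (by rw [P_conj h (κA k) (jA x y), κP, jP, h.κ_j])
  · have := Fintype.ofFinite F
    have k1 := odd_cen (pow_mem (κA k) (Nat.card Fˣ)) ((P_eq_one h (pow_mem (κA k) _)).1 (by
      rw [P_pow h (κA k), κP, ← map_pow, pow_card_eq_one', map_one]))
    obtain ⟨n, hn, e⟩ := h.card_pow
    have k2 : Odd (Nat.card Fˣ) := by
      rw [Nat.card_units, e]
      exact Nat.Even.sub_odd Nat.one_le_two_pow ((Nat.even_pow.2 ⟨even_two, by omega⟩)) odd_one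
    refine (k2.mul k1).of_dvd_nat (orderOf_dvd_of_pow_eq_one ?_)
    rw [pow_mul, pow_orderOf_eq_one]
  · refine H7.normalizer_le_normalizer_qClos C ?_
    rw [hC]
    exact H7.le_normalizer_inf (C := zpowers g) (zpowers_le.2 (le_normalizer (mem_centralizer_singleton_iff.2 hg)))
      (zpowers_le.2 (normalizer_le_normalizer_centralizer _ (h.A_norm g hg))) (mem_zpowers g)
  · obtain ⟨φ, hφ⟩ := aut' h (h.A_norm g hg)
    obtain ⟨a', b', e1⟩ := h.aut_U φ (x' := x') (y' := y') y0 (by rw [← jP, hφ _ (jA 0 y), e, jP]) a b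
    exact ⟨a', b', eqj _ (cjN (h.A_norm g hg) (jA a b)) (cj2 g a b) _ _ (by rw [← hφ _ (jA a b), jP, e1])⟩
  · have gA := h.A_norm g hg
    obtain ⟨φ, hφ⟩ := aut' h gA
    obtain ⟨x, y, e1⟩ := h.aut φ fun y => by rw [← jP, hφ _ (jA 0 y), e, mul_inv_cancel_right]
    have h2 := cen' h (mul_mem (inv_mem (le_normalizer (jA x y))) gA) fun a ha => by
      rw [show (j x y)⁻¹ * g * a * ((j x y)⁻¹ * g)⁻¹ = (j x y)⁻¹ * (g * a * g⁻¹) * (j x y)⁻¹⁻¹ by group,
        P_conj h (inv_mem (jA x y)) (cjN gA ha), P_inv h (jA x y), ← hφ a ha, e1, jP]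
      group
    obtain ⟨o, ho, k⟩ := decC _ ((mC _).2 ⟨((show Commute (j x y) h.t from (h.tA _ (jA x y)).symm).inv_left.mul_left
      hg).eq, h2⟩)
    refine ⟨x, y, o, ho, k.imp (fun k => by rw [← k]; group) fun k => ?_⟩
    rw [h.tA _ (jA x y), mul_assoc, ← k]; group
  · have := congrArg (P h) e
    rw [P_mul h (mul_mem wA (jA _ _)) wA, P_mul h wA (jA _ _), wP, jP, jP] at this
    exact one_ne_zero (h.wU 0 1 x' y' 1 (by rw [this, map_one, mul_one])).2
  · obtain ⟨x, y, k, e | ⟨x', y', e⟩⟩ := h.bru (P h a)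
    · obtain ⟨o, ho, e1⟩ := zO _ (mul_mem (jA x y) (κA k)) a ha (by rw [P_mul h (jA x y) (κA k), jP, κP, e])
      exact ⟨x, y, k, o, ho, Or.inl e1⟩
    · have m := mul_mem (mul_mem (jA x y) (κA k)) wA
      obtain ⟨o, ho, e1⟩ := zO _ (mul_mem m (jA x' y')) a ha (by
        rw [P_mul h m (jA x' y'), P_mul h (mul_mem (jA x y) (κA k)) wA, P_mul h (jA x y) (κA k), jP, κP, wP, jP, e])
      refine ⟨x, y, k, o, ho, Or.inr ⟨x', y', ?_⟩⟩
      have k1 := ((mC o).1 (H7.qClos_le C ho)).2 _ (mul_mem wA (jA x' y'))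
      calc a = j x y * κ k * (w * j x' y' * o) := by rw [e1]; group
        _ = _ := by rw [k1]; group

end Cfsg.Agent.WA.Sk
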