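import Cfsg.Agent.WA.SkAd

/-! Elementary field lemmas. -/

set_option autoImplicit false
set_option linter.unusedSectionVars false

namespace Cfsg.Agent.WA.Sk

variable {F : Type*} [Field F] [Finite F] {θ : RingAut F}

theorem ss_eq_zero {x : F} : ss θ x = 0 ↔ x = 0 := by simp [ss]
theorem ss_mul (x y : F) : ss θ (x * y) = ss θ x * ss θ y := by simp only [ss, map_mul]; ring
theorem ss_add (x y : F) : ss θ (x + y) = ss θ x + ss θ y + bb θ x y := by simp only [ss, bb, map_add]; ring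
theorem ss_one : ss θ (1 : F) = 1 := by simp [ss]
theorem bb_comm (x y : F) : bb θ x y = bb θ y x := by simp only [bb]; ring
theorem bb_add (x y z : F) : bb θ x (y + z) = bb θ x y + bb θ x z := by simp only [bb, map_add]; ring
theorem bb_zero (x : F) : bb θ x 0 = 0 := by simp [bb]
theorem bb_smul (k x y : F) : bb θ (k * x) (k * y) = ss θ k * bb θ x y := by simp only [ss, bb, map_mul]; ring
theorem Fd.add_self (h : Fd θ) (x : F) : x + x = 0 := by linear_combination x * h.two
theorem Fd.bb_self (h : Fd θ) (x : F) : bb θ x x = 0 := h.add_self _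

theorem Fd.fix_eq (h : Fd θ) {x : F} (hx : θ x = x) : x = 0 ∨ x = 1 := by
  have h1 := h.th x
  rw [hx, hx] at h1
  by_cases h0 : x = 0
  · exact Or.inl h0
  · exact Or.inr (mul_left_cancel₀ h0 (by rw [← h1, mul_one]))

theorem Fd.ss_inj (h : Fd θ) : Function.Injective (ss θ) := fun x y e => by
  by_cases hy : y = 0
  · rw [hy, ss_eq_zero.2 rfl, ss_eq_zero] at e; rw [e, hy]
  have h1 : ss θ (x / y) = 1 := by
    have := ss_mul (θ := θ) (x / y) y
    rw [div_mul_cancel₀ _ hy, e] at this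
    exact (mul_right_cancel₀ (mt ss_eq_zero.1 hy) (by rw [← this, one_mul])).symm
  have h2 := congrArg θ h1
  rw [ss, map_mul, h.th, map_one] at h2
  rw [ss] at h1
  have h3 : x / y = 1 := by linear_combination h2 - (x / y) * h1
  exact (div_eq_one_iff_eq hy).1 h3

theorem Fd.ss_surj (h : Fd θ) : Function.Surjective (ss θ) := Finite.surjective_of_injective h.ss_inj

theorem Fa.bb_eq {x : F} (z : F) : bb θ x (x * z) = ss θ x * (θ z + z) := by simp only [bb, ss, map_mul]; ring

theorem Fd.bb_eq_zero (h : Fd θ) {x y : F} : bb θ x y = 0 ↔ x = 0 ∨ y = 0 ∨ x = y := by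
  refine ⟨fun e => ?_, ?_⟩
  · by_cases hx : x = 0
    · exact Or.inl hx
    obtain ⟨z, rfl⟩ : ∃ z, y = x * z := ⟨y / x, by field_simp⟩
    rw [Fa.bb_eq, mul_eq_zero, ss_eq_zero] at e
    rcases h.fix_eq (x := z) (by linear_combination e.resolve_left hx - z * h.two) with rfl | rfl <;> simp
  · rintro (rfl | rfl | rfl)
    · rw [bb_comm, bb_zero]
    · exact bb_zero _
    · exact h.bb_self _

theorem Fa.ne_one (h : Fd θ) (z : F) : θ z + z ≠ 1 := fun e => by
  have h2 := congrArg θ e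
  rw [map_add, h.th, map_one] at h2
  have h3 : z * (z - 1) = 0 := by linear_combination h2 - e
  rcases mul_eq_zero.1 h3 with h4 | h4
  · simp [h4] at e
  · rw [sub_eq_zero.1 h4, map_one] at e
    exact one_ne_zero (by linear_combination e)

theorem Fd.bb_ne_ss (h : Fd θ) {x : F} (hx : x ≠ 0) (y : F) : bb θ x y ≠ ss θ x := fun e => by
  obtain ⟨z, rfl⟩ : ∃ z, y = x * z := ⟨y / x, by field_simp⟩
  rw [Fa.bb_eq] at e
  exact Fa.ne_one h z (mul_left_cancel₀ (mt ss_eq_zero.1 hx) (e.trans (mul_one _).symm))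

/-- `bb x` as an additive map -/
def Fa.bh (θ : RingAut F) (x : F) : F →+ F := AddMonoidHom.mk' (bb θ x) (bb_add x)

theorem Fa.card_ker (h : Fd θ) {x : F} (hx : x ≠ 0) : Nat.card (Fa.bh θ x).ker = 2 := by
  rw [Nat.card_eq_two_iff]
  refine ⟨⟨0, zero_mem _⟩, ⟨x, h.bb_self x⟩, fun e => hx (congrArg Subtype.val e).symm, Set.eq_univ_of_forall fun y => ?_⟩
  rcases h.bb_eq_zero.1 y.2 with e | e | e
  · exact absurd e hx
  · exact Or.inl (Subtype.ext e)
  · exact Or.inr (Subtype.ext e.symm)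

theorem Fa.card_range (h : Fd θ) {x : F} (hx : x ≠ 0) : 2 * Nat.card (Fa.bh θ x).range = Nat.card F := by
  rw [← Fa.card_ker h hx, ← AddSubgroup.index_ker, AddSubgroup.card_mul_index]

theorem Fa.two_le {H K : AddSubgroup F} (h : H ≤ K) {x : F} (hx : x ∈ K) (hx' : x ∉ H) : 2 * Nat.card H ≤ Nat.card K := by
  obtain ⟨k, hk⟩ := AddSubgroup.card_dvd_of_le h
  have h1 : Nat.card H ≠ Nat.card K := fun e => hx' ((AddSubgroup.eq_of_le_of_card_ge h e.ge).ge hx)
  have h2 : 0 < Nat.card K := Nat.card_pos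
  rcases k with _ | _ | k
  · omega
  · omega
  · rw [hk]; nlinarith

theorem Fd.bb_or (h : Fd θ) {x : F} (hx : x ≠ 0) (z : F) : ∃ y, z = bb θ x y ∨ z = bb θ x y + ss θ x := by
  have h1 : (Fa.bh θ x).range.index = 2 := by
    have := (Fa.bh θ x).range.card_mul_index
    rw [← Fa.card_range h hx, mul_comm 2] at this
    exact Nat.eq_of_mul_eq_mul_left Nat.card_pos this
  by_cases hz : z ∈ (Fa.bh θ x).range
  · obtain ⟨y, e⟩ := hz
    exact ⟨y, Or.inl e.symm⟩
  · obtain ⟨y, e⟩ := (AddSubgroup.add_mem_iff_of_index_two h1 (a := z) (b := ss θ x)).2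
      (iff_of_false hz fun ⟨y, e⟩ => h.bb_ne_ss hx y e)
    exact ⟨y, Or.inr (by rw [show bb θ x y = z + ss θ x from e, add_assoc, h.add_self, add_zero])⟩

/-- the only scalars preserving `T₀` are `0` and `1` -/
theorem Fa.pres (h : Fd θ) {c : F} (hc : ∀ z, ∃ y, c * (θ z + z) = θ y + y) : c = 0 ∨ c = 1 := by
  by_contra hn
  rw [not_or] at hn
  have key : ∀ d : F, d ≠ 0 → (∀ z, ∃ y, d * (θ z + z) = θ y + y) → ∃ y, d = θ y + y + 1 := fun d hd hd' => by
    obtain ⟨y, e | e⟩ := h.bb_or one_ne_zero d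
    · exfalso
      have hall : ∀ v, ∃ y, d * v = θ y + y := fun v => by
        obtain ⟨u, e' | e'⟩ := h.bb_or one_ne_zero v
        · rw [e']; simpa [bb] using hd' u
        · obtain ⟨y', e2⟩ := hd' u
          refine ⟨y' + y, ?_⟩
          rw [e', map_add]
          simp only [bb, ss, map_one, mul_one, one_mul] at e ⊢
          linear_combination e2 + e
      obtain ⟨y, e⟩ := hall d⁻¹
      exact Fa.ne_one h y (by rw [← e, mul_inv_cancel₀ hd])
    · exact ⟨y, by simpa [bb, ss] using e⟩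
  obtain ⟨y, e⟩ := key c hn.1 hc
  obtain ⟨y', e'⟩ := key (c + 1) (fun e => hn.2 (by linear_combination e - h.two)) fun z => by
    obtain ⟨y, e⟩ := hc z
    exact ⟨y + z, by rw [map_add]; linear_combination e⟩
  exact Fa.ne_one h (y + y') (by rw [map_add]; linear_combination -e - e' + c * h.two - h.two)

theorem Fd.exists_ne (h : Fd θ) (a b : F) : ∃ k : Fˣ, (k : F) ≠ a ∧ (k : F) ≠ b := by
  classical
  have := Fintype.ofFinite F
  by_contra hn
  push Not at hn
  have h1 : (Finset.univ : Finset F) ⊆ {0, a, b} := fun x _ => by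
    by_cases hx : x = 0
    · simp [hx]
    by_cases ha : x = a
    · simp [ha]
    simp [show x = b from hn (Units.mk0 x hx) ha]
  have h2 := (Finset.card_le_card h1).trans Finset.card_le_three
  have h3 := h.eight
  rw [Nat.card_eq_fintype_card] at h3
  rw [Finset.card_univ] at h2
  omega

theorem Fd.bb_span (h : Fd θ) {W : AddSubgroup F} (hW : ∀ x y, bb θ x y ∈ W) : W = ⊤ := by
  by_contra hn
  have h1 : (1 : F) ∉ W := fun h1 => hn (eq_top_iff.2 fun z _ => by
    obtain ⟨y, e | e⟩ := h.bb_or one_ne_zero z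
    · exact e ▸ hW _ _
    · rw [e, ss_one]; exact W.add_mem (hW _ _) h1)
  obtain ⟨k, k0, k1⟩ := h.exists_ne 0 1
  obtain ⟨x, hx⟩ := h.ss_surj k
  rcases Fa.pres h (c := k) (fun z => by
    obtain ⟨y, e | e⟩ := h.bb_or one_ne_zero (bb θ x (x * z))
    · exact ⟨y, by rw [← hx, ← Fa.bb_eq, e]; simp [bb]⟩
    · refine absurd ?_ h1
      have := W.sub_mem (hW x (x * z)) (hW 1 y)
      rwa [e, ss_one, add_sub_cancel_left] at this) with e | e
  exacts [k0 e, k1 e]

theorem Fd.bb_big (h : Fd θ) {x : F} (hx : x ≠ 0) (a b : F) : ∃ y, bb θ x y ≠ 0 ∧ bb θ x y ≠ a ∧ bb θ x y ≠ b := by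
  by_contra hn
  push Not at hn
  have h1 : ((Fa.bh θ x).range : Set F) ⊆ {0, a, b} := by
    rintro _ ⟨y, rfl⟩
    by_cases h0 : bb θ x y = 0
    · exact Or.inl h0
    by_cases ha : bb θ x y = a
    · exact Or.inr (Or.inl ha)
    exact Or.inr (Or.inr (hn y h0 ha))
  have h2 := Set.ncard_le_ncard h1
  have h3 : ({0, a, b} : Set F).ncard ≤ 3 :=
    (Set.ncard_insert_le _ _).trans (by have := Set.ncard_insert_le a ({b} : Set F); simp at this ⊢; omega)
  have h4 := Fa.card_range h hx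
  have h5 := h.eight
  rw [← Nat.card_coe_set_eq] at h2
  change Nat.card (Fa.bh θ x).range ≤ _ at h2
  omega

theorem Fd.card_pow (h : Fd θ) : ∃ n, 3 ≤ n ∧ Nat.card F = 2 ^ n := by
  have := Fintype.ofFinite F
  have : CharP F 2 := (CharP.charP_iff_prime_eq_zero Nat.prime_two).mpr (by exact_mod_cast h.two)
  obtain ⟨n, -, hn⟩ := FiniteField.card F 2
  have h8 := h.eight
  rw [Nat.card_eq_fintype_card, hn] at h8
  refine ⟨n, ?_, by rw [Nat.card_eq_fintype_card, hn]⟩
  exact (Nat.pow_le_pow_iff_right (by norm_num : 1 < 2)).1 (show 2 ^ 3 ≤ _ from h8)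

theorem Fd.irr (h : Fd θ) {W : AddSubgroup F} (hW : ∀ (k : Fˣ), ∀ x ∈ W, ss θ k * x ∈ W) {y : F} (hy : y ∈ W)
    (h0 : y ≠ 0) : W = ⊤ := eq_top_iff.2 fun z _ => by
  by_cases hz : z = 0
  · exact hz ▸ W.zero_mem
  obtain ⟨k, hk⟩ := h.ss_surj (z / y)
  have := hW (Units.mk0 k fun e => by rw [e, ss_eq_zero.2 rfl] at hk; exact div_ne_zero hz h0 hk.symm) y hy
  rwa [Units.val_mk0, hk, div_mul_cancel₀ _ h0] at this

theorem Fd.lemT (h : Fd θ) {α β : F → F} (hα : ∀ x y, α (x + y) = α x + α y) (hβ : ∀ x y, β (x + y) = β x + β y)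
    (hs : ∀ x, ss θ (α x) = β (ss θ x)) (h2 : ∀ x, α (α x) = x) : (∀ x, α x = x) ∧ ∀ x, β x = x := by
  suffices H : ∀ x, α x = x from ⟨H, fun x => by obtain ⟨y, rfl⟩ := h.ss_surj x; rw [← hs, H]⟩
  by_contra hn
  push Not at hn
  obtain ⟨w, hw⟩ := hn
  have hb : ∀ x y, bb θ (α x) (α y) = β (bb θ x y) := fun x y => by
    have := hs (x + y)
    rw [hα, ss_add, ss_add, hβ, hβ, hs, hs] at this
    exact add_left_cancel this
  set v := w + α w with hv
  have v0 : v ≠ 0 := fun e => hw (by linear_combination e - w * h.two)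
  have hαv : α v = v := by rw [hv, hα, h2, add_comm]
  let a : F →+ F := AddMonoidHom.mk' (fun x => α x + x) fun x y => by rw [hα]; ring
  let b : F →+ F := AddMonoidHom.mk' (fun x => β x + x) fun x y => by rw [hβ]; ring
  have ha : ∀ x, x ∈ a.ker ↔ α x = x := fun x =>
    ⟨fun e : α x + x = 0 => by linear_combination e - x * h.two, fun e => show α x + x = 0 by rw [e, h.add_self]⟩
  have hb' : ∀ x, x ∈ b.ker ↔ β x = x := fun x =>
    ⟨fun e : β x + x = 0 => by linear_combination e - x * h.two, fun e => show β x + x = 0 by rw [e, h.add_self]⟩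
  have c1 : Nat.card b.ker ≤ Nat.card a.ker := by
    refine Nat.card_le_card_of_surjective (fun x : a.ker => (⟨ss θ x, (hb' _).2 (by rw [← hs, (ha _).1 x.2])⟩ : b.ker)) fun y => ?_
    obtain ⟨x, hx⟩ := h.ss_surj y
    exact ⟨⟨x, (ha _).2 (h.ss_inj (by rw [hs, hx, (hb' _).1 y.2]))⟩, Subtype.ext hx⟩
  let Y : AddSubgroup F :=
    { carrier := {y | α y = y ∨ α y = y + v}
      zero_mem' := Or.inl (by simpa using hα 0 0)
      add_mem' := by
        rintro x y (e | e) (e' | e') <;> simp only [Set.mem_ofPred_eq, hα, e, e']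
        · simp
        · right; ring
        · right; ring
        · left; linear_combination v * h.two
      neg_mem' := fun {x} e => by rwa [show -x = x by linear_combination -x * h.two] }
  have c2 := Fa.two_le (H := a.ker) (K := Y) (fun x hx => Or.inl ((ha x).1 hx)) (x := w)
    (Or.inr (by rw [hv]; linear_combination -w * h.two)) fun e => hw ((ha w).1 e)
  have c3 := Fa.two_le (H := Y.map (Fa.bh θ v)) (K := b.ker) (by
    rintro _ ⟨y, e | e, rfl⟩ <;> refine (hb' _).2 ?_ <;> change β (bb θ v y) = bb θ v y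
    · rw [← hb, hαv, e]
    · rw [← hb, hαv, e, bb_add, h.bb_self, add_zero]) (x := ss θ v) ((hb' _).2 (by rw [← hs, hαv]))
    fun ⟨y, _, e⟩ => h.bb_ne_ss v0 y e
  have c4 := ((Fa.bh θ v).comp Y.subtype).ker.card_mul_index
  rw [AddSubgroup.index_ker, AddMonoidHom.range_comp, AddSubgroup.range_subtype] at c4
  have c5 : Nat.card ((Fa.bh θ v).comp Y.subtype).ker ≤ 2 := by
    rw [← Fa.card_ker h v0]
    exact Nat.card_le_card_of_injective (fun x => ⟨x.1.1, x.2⟩) fun x y e => Subtype.ext (Subtype.ext (congrArg (fun z : (Fa.bh θ v).ker => z.1) e))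
  have c6 : 0 < Nat.card a.ker := Nat.card_pos
  nlinarith

theorem Fd.kappa (h : Fd θ) {u c : F} (hu : u ≠ 0) (hi : Function.Injective fun v => ss θ v + c * bb θ u v) :
    c = 0 ∨ c = 1 := Fa.pres h fun z => by
  by_cases hz : z = 0
  · exact ⟨0, by simp [hz]⟩
  obtain ⟨y, e | e⟩ := h.bb_or one_ne_zero (c * (θ z + z))
  · exact ⟨y, by simpa [bb] using e⟩
  exfalso
  have hθ : θ z ≠ 0 := by simpa using hz
  have := @hi (u * z⁻¹ * y + u * z⁻¹) (u * z⁻¹ * y) (by
    simp only [bb, ss, map_mul, map_add, map_inv₀, map_one, mul_one, one_mul] at e ⊢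
    field_simp
    linear_combination θ u * e + θ u * (θ y + y + 1) * h.two)
  simp [hu, hz] at this

theorem Fd.bb_rigid (h : Fd θ) {α : F → F} (hα : Function.Surjective α) (hb : ∀ x y, bb θ (α x) (α y) = bb θ x y)
    (x : F) : α x = x := by
  have hi := Finite.injective_iff_surjective.2 hα
  have h0 : ∀ x, x ≠ 0 → α x ≠ 0 := fun x hx e => by
    obtain ⟨y, h1, -⟩ := h.bb_big hx 0 0
    exact h1 (by rw [← hb, e, bb_comm, bb_zero])
  have key : ∀ x, x ≠ 0 → α x = x := fun x hx => by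
    have hs := mt (ss_eq_zero (θ := θ)).1 hx
    rcases Fa.pres h (c := ss θ (α x) / ss θ x) (fun z => by
      obtain ⟨y, hy⟩ := hα (α x * z)
      refine ⟨y / x, ?_⟩
      have := hb x y
      rw [hy, Fa.bb_eq, show y = x * (y / x) by field_simp, Fa.bb_eq] at this
      rw [div_mul_eq_mul_div, this, mul_div_cancel_left₀ _ hs]) with e | e
    · exact absurd (ss_eq_zero.1 ((div_eq_zero_iff.1 e).resolve_right hs)) (h0 x hx)
    · exact h.ss_inj ((div_eq_one_iff_eq hs).1 e)
  by_cases hx : x = 0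
  · by_contra hn
    exact hn (hi (key _ (hx ▸ hn)))
  · exact key x hx

end Cfsg.Agent.WA.Sk
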