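import Cfsg.Agent.WA.ISkFa

/-! Field lemmas: equivariant biadditive maps, automorphisms of the form `bb`, the radical of `bf`. -/

set_option autoImplicit false
set_option linter.unusedSectionVars false

namespace Cfsg.Agent.WA.Sk

open Cfsg.Agent.BS.Hig

variable {F : Type*} [Field F] [Finite F] {θ : RingAut F}

namespace Fb

theorem n1 (h : Fd θ) : θ ≠ 1 := fun e => by
  obtain ⟨k, k0, k1⟩ := h.exists_ne 0 1
  exact (h.fix_eq (x := k) (by rw [e]; rfl)).elim k0 k1

theorem prim (h : Fd θ) : ∃ l : F, Prim l ∧ l ≠ 0 := by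
  obtain ⟨l, hl⟩ := BS.Rec.exists_prim (F := F)
  obtain ⟨k, k0, k1⟩ := h.exists_ne 0 1
  exact ⟨l, hl, hl.ne_zero k0 k1⟩

theorem single {d : RingAut F → RingAut F → F} {a b : RingAut F} (hd : ∀ α β, d α β ≠ 0 → α = a ∧ β = b) (x y : F) :
    ∑ α, ∑ β, d α β * α x * β y = d a b * a x * b y := by
  have z : ∀ α β, ¬ (α = a ∧ β = b) → d α β * α x * β y = 0 := fun α β c => by
    rw [not_not.1 (mt (hd α β) c), zero_mul, zero_mul]
  rw [Finset.sum_eq_single a (fun α _ c => Finset.sum_eq_zero fun β _ => z α β fun e => c e.1) (by simp),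
    Finset.sum_eq_single b (fun β _ c => z a β fun e => c e.2) (by simp)]

theorem cm (h : Fd θ) (a b : RingAut F) : a * b = b * a := by
  have : CharP F 2 := (CharP.charP_iff_prime_eq_zero Nat.prime_two).mpr (by exact_mod_cast h.two)
  have := H1.U3.isCyclic_ringAut (F := F)
  exact mul_comm' a b

theorem pw (h : Fd θ) {k : ℕ} (k0 : 0 < k) (e : θ ^ (2 * k) = 1) : Nat.card F ≤ 2 ^ k := by
  have := Fintype.ofFinite F
  have h1 : ∀ (k : ℕ) (x : F), (θ ^ (2 * k)) x = x ^ 2 ^ k := fun k => by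
    induction k with
    | zero => simp
    | succ k ih =>
      intro x
      rw [Nat.mul_succ, pow_add, pow_two, RingAut.mul_apply, RingAut.mul_apply, h.th, ih, pow_succ', pow_mul, pow_two]
  have p1 : 1 < 2 ^ k := Nat.one_lt_two_pow k0.ne'
  have h2 := (FiniteField.forall_pow_eq_one_iff F (2 ^ k - 1)).1 fun x => mul_right_cancel (b := x) (Units.ext (by
    rw [← pow_succ, Nat.sub_add_cancel p1.le, one_mul, Units.val_pow_eq_pow_val, ← h1, e]; rfl))
  have := Nat.le_of_dvd (by omega) h2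
  rw [Nat.card_eq_fintype_card]
  omega

theorem inv1 (h : Fd θ) {μ : RingAut F} (e : μ * μ = 1) : μ = 1 := by
  have := Fintype.ofFinite F
  obtain ⟨n, h3, hn⟩ := h.card_pow
  have hc := H1.U3.card_ringAut (F := F) (m := n) (by rw [← Nat.card_eq_fintype_card, hn])
  rcases Nat.even_or_odd' n with ⟨k, rfl | rfl⟩
  · have := pw h (k := k) (by omega) (hc ▸ pow_card_eq_one')
    rw [hn, Nat.pow_le_pow_iff_right (by norm_num)] at this
    omega
  · have : μ ^ (2 * k + 1) = 1 := hc ▸ pow_card_eq_one'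
    rwa [pow_succ, pow_mul, pow_two, e, one_pow, one_mul] at this

theorem indep₂ {c : RingAut F → RingAut F → F} (h : ∀ x y, ∑ μ, ∑ ν, c μ ν * μ x * ν y = 0) (μ ν : RingAut F) :
    c μ ν = 0 :=
  indep (c := c μ) (fun y => indep (c := fun μ => ∑ ν, c μ ν * ν y) (fun x => by
    rw [← h x y]
    refine Finset.sum_congr rfl fun μ _ => ?_
    rw [Finset.sum_mul]
    exact Finset.sum_congr rfl fun ν _ => by ring) μ) ν

theorem dual (h : Fd θ) : ∃ T : F →+ ZMod 2, (∀ x, T (θ x) = T x) ∧ (∀ b, (∀ x, T (b * x) = 0) → b = 0) ∧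
    ∀ I : AddSubgroup F, I ≠ ⊤ → ∃ c, c ≠ 0 ∧ ∀ x ∈ I, T (c * x) = 0 := by
  have : CharP F 2 := (CharP.charP_iff_prime_eq_zero Nat.prime_two).mpr (by exact_mod_cast h.two)
  letI : Algebra (ZMod 2) F := ZMod.algebra _ _
  have nd := traceForm_nondegenerate (ZMod 2) F
  refine ⟨(Algebra.trace (ZMod 2) F).toAddMonoidHom,
    fun x => Algebra.trace_eq_of_algEquiv ((H1.U3.ringAutEquiv F).symm θ) x, fun b hb => nd.1 b hb, fun I hI => ?_⟩
  obtain ⟨f, f0, hf⟩ := Submodule.exists_le_ker_of_lt_top (AddSubgroup.toZModSubmodule 2 I)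
    (lt_top_iff_ne_top.2 fun e => hI (eq_top_iff.2 fun x _ => e.ge (Submodule.mem_top (x := x))))
  obtain ⟨c, rfl⟩ := (LinearMap.BilinForm.toDual _ nd).surjective f
  exact ⟨c, fun e => f0 (by rw [e, map_zero]), fun x hx => hf hx⟩

end Fb

open Fb

theorem Fd.lemW (h : Fd θ) {g : F → F → F} (h1 : ∀ x x' y, g (x + x') y = g x y + g x' y)
    (h2 : ∀ x y y', g x (y + y') = g x y + g x y')
    (he : ∀ (k : Fˣ) x y, g (k * x) (ss θ k * y) = ss θ k * g x y) : ∃ a, ∀ x y, g x y = a * θ.symm (x * y) := by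
  obtain ⟨l, hl, l0⟩ := prim h
  have t0 : θ l ≠ 0 := (map_ne_zero θ).2 l0
  have e := he (Units.mk0 (θ l / l) (div_ne_zero t0 l0))
  rw [Units.val_mk0, show ss θ (θ l / l) = l by rw [ss, map_div₀, h.th]; field_simp] at e
  obtain ⟨d, hd, hd'⟩ := expand₂ h.two h1 h2 e
  refine ⟨d θ⁻¹ θ⁻¹, fun x y => ?_⟩
  rw [hd, single (a := θ⁻¹) (b := θ⁻¹) fun α β c => ?_, map_mul, mul_assoc]
  · rfl
  have := hd' α β c
  have a0 : α l ≠ 0 := (map_ne_zero α).2 l0
  rcases pair_eq h.two (a := α * θ) (b := β) (c := 1) (d := α) hl (by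
    rw [map_div₀] at this
    rw [RingAut.mul_apply, RingAut.one_apply]
    nth_rw 3 [← this]
    field_simp) with ⟨e1, e2⟩ | ⟨e1, -⟩
  · exact ⟨eq_inv_of_mul_eq_one_left e1, e2.trans (eq_inv_of_mul_eq_one_left e1)⟩
  · exact absurd (mul_eq_left.1 e1) (n1 h)

theorem Fd.alt0 (h : Fd θ) {g : F → F → F} (h1 : ∀ x x' y, g (x + x') y = g x y + g x' y)
    (h2 : ∀ x y y', g x (y + y') = g x y + g x y')
    (he : ∀ (k : Fˣ) x y, g (ss θ k * x) (ss θ k * y) = ss θ k * g x y) (h0 : ∀ x, g x x = 0) (x y : F) :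
    g x y = 0 := by
  obtain ⟨l, hl, l0⟩ := prim h
  obtain ⟨k, hk⟩ := h.ss_surj l
  have e := he (Units.mk0 k fun c => l0 (by rw [← hk, c, ss_eq_zero]))
  rw [Units.val_mk0, hk] at e
  obtain ⟨d, hd, hd'⟩ := expand₂ h.two h1 h2 e
  have s := single (a := (θ * θ)⁻¹) (b := (θ * θ)⁻¹) (d := d) fun α β c => by
    have := pair_eq h.two (a := α) (b := β) (c := (θ * θ)⁻¹) (d := (θ * θ)⁻¹) hl (by
      rw [hd' α β c, ← map_mul, ← h.th]
      exact ((θ * θ).symm_apply_apply l).symm)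
    rwa [or_self] at this
  have := h0 1
  rw [hd, s, map_one, mul_one, mul_one] at this
  rw [hd, s, this, zero_mul, zero_mul]

theorem Fd.form0 (h : Fd θ) {g : F → F → F} (h1 : ∀ x x' y, g (x + x') y = g x y + g x' y)
    (h2 : ∀ x y y', g x (y + y') = g x y + g x y') (he : ∀ (k : Fˣ) x y, g (k * x) (k * y) = g x y) (x y : F) :
    g x y = 0 := by
  by_contra c
  obtain ⟨l, hl, l0⟩ := prim h
  obtain ⟨α, β, e⟩ := exists_eigen h.two h1 h2 (m := l) (n := l) (k := 1)
    (fun x y => (he (Units.mk0 l l0) x y).trans (one_mul _).symm) c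
  have all : ∀ t, t ≠ 0 → α t * β t = 1 := fun t ht => by
    obtain ⟨k, rfl⟩ := hl t ht
    rw [map_pow, map_pow, ← mul_pow, e, one_pow]
  obtain ⟨k, k0, k1⟩ := h.exists_ne 0 1
  have e1 := all k k0
  have e2 := all (k + 1) fun c => k1 (by linear_combination c - h.two)
  rw [map_add, map_add, map_one, map_one] at e2
  have e3 : (k : F) * k + k + 1 = 0 := α.injective (by
    rw [map_add, map_add, map_mul, map_one, map_zero]
    linear_combination α k * e2 - (α k + 1) * e1)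
  have e4 := congrArg θ e3
  rw [map_add, map_add, map_mul, map_one, map_zero] at e4
  have e5 : (θ k + k) * (θ k + k + 1) = 0 := by linear_combination e4 - e3 + (k * k + k + θ k * k) * h.two
  rcases mul_eq_zero.1 e5 with c | c
  · exact (h.fix_eq (x := k) (by linear_combination c - k * h.two)).elim k0 k1
  · exact Fa.ne_one h k (by linear_combination c - h.two)

theorem Fd.autB (h : Fd θ) (h8 : Nat.card F ≠ 8) {α β : F → F} (hα : ∀ x y, α (x + y) = α x + α y)
    (hβ : ∀ x y, β (x + y) = β x + β y) (hs : ∀ x y, bb θ (α x) (α y) = β (bb θ x y)) (h2 : ∀ x, α (α x) = x)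
    (x : F) : α x = x := by
  classical
  obtain ⟨a, ha⟩ := expand h.two α hα
  obtain ⟨b, hb⟩ := expand h.two β hβ
  have m1 := n1 h
  have m2 : θ * θ ≠ 1 := fun e => m1 (inv1 h e)
  have m3 : θ * (θ * θ) ≠ 1 := fun e => h8 (le_antisymm (pw h (k := 3) (by norm_num) (by
    rw [mul_comm 2 3, pow_mul, pow_three, e, one_pow])) h.eight)
  have m4 : θ * (θ * (θ * θ)) ≠ 1 := fun e => m2 (inv1 h (by rw [mul_assoc, e]))
  have re : ∀ g : RingAut F → F, ∑ μ, g μ = ∑ μ, g (θ * μ) := fun g => (Equiv.sum_comp (Equiv.mulLeft θ) g).symm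
  have ap : ∀ (μ : RingAut F) x, θ (μ x) = μ (θ x) := fun μ x => DFunLike.congr_fun (cm h θ μ) x
  have L : ∀ x y, bb θ (α x) (α y) = ∑ μ, ∑ ν, (a (θ * μ) * θ (a ν) + a (θ * ν) * θ (a μ)) * μ (θ x) * ν (θ y) := by
    intro x y
    have e1 : ∀ x, α x = ∑ μ, a (θ * μ) * μ (θ x) := fun x => by
      rw [ha, re]; simp only [RingAut.mul_apply, ap]
    have e2 : ∀ x, θ (α x) = ∑ μ, θ (a μ) * μ (θ x) := fun x => by
      rw [ha, map_sum]; simp only [map_mul, ap]
    rw [bb, e2, e2, e1, e1, mul_comm (∑ μ, a (θ * μ) * μ (θ y)), Finset.sum_mul_sum, Finset.sum_mul_sum,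
      ← Finset.sum_add_distrib]
    refine Finset.sum_congr rfl fun μ _ => ?_
    rw [← Finset.sum_add_distrib]
    exact Finset.sum_congr rfl fun ν _ => by ring
  have R : ∀ x y, β (x * θ y) = ∑ μ, ∑ ν, (if ν = θ * μ then b ν else 0) * μ (θ x) * ν (θ y) := fun x y => by
    rw [hb, re]
    refine Finset.sum_congr rfl fun μ _ => ?_
    simp only [ite_mul, zero_mul, Finset.sum_ite_eq', Finset.mem_univ, if_true, map_mul, RingAut.mul_apply, ap, mul_assoc]
  have star : ∀ μ ν, ν ≠ θ * μ → μ ≠ θ * ν → a (θ * μ) * θ (a ν) + a (θ * ν) * θ (a μ) = 0 := fun μ ν c1 c2 => by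
    have := indep₂ (c := fun μ ν => a (θ * μ) * θ (a ν) + a (θ * ν) * θ (a μ) -
      ((if ν = θ * μ then b ν else 0) + (if μ = θ * ν then b μ else 0))) (fun x y => by
        obtain ⟨x, rfl⟩ := θ.surjective x
        obtain ⟨y, rfl⟩ := θ.surjective y
        have := hs x y
        rw [L, bb, hβ, R, R, Finset.sum_comm (f := fun μ ν : RingAut F => (if ν = θ * μ then b ν else 0) * μ (θ y) * ν (θ x)),
          ← Finset.sum_add_distrib, ← sub_eq_zero, ← Finset.sum_sub_distrib] at this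
        refine Eq.trans (Finset.sum_congr rfl fun μ _ => ?_) this
        rw [← Finset.sum_add_distrib, ← Finset.sum_sub_distrib]
        exact Finset.sum_congr rfl fun ν _ => by ring) μ ν
    simpa only [if_neg c1, if_neg c2, add_zero, sub_zero] using this
  by_cases cl : ∀ μ, a (θ * μ) ≠ 0 → a μ ≠ 0
  · exfalso
    have key : ∀ μ, a (θ * μ) * θ (a (θ * μ)) + a (θ * (θ * μ)) * θ (a μ) = 0 := fun μ => by
      by_cases c : a (θ * μ) = 0
      · rw [c, not_not.1 fun e => cl _ e c]; simp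
      obtain ⟨κ, rfl⟩ : ∃ κ, μ = θ * (θ * κ) := ⟨θ⁻¹ * (θ⁻¹ * μ), by simp⟩
      have s1 := star (θ * (θ * κ)) κ (fun e => m3 (by simpa only [← mul_assoc, right_eq_mul] using e))
        fun e => m1 (by simpa only [mul_eq_right] using e)
      have s2 := star (θ * (θ * (θ * κ))) κ (fun e => m4 (by simpa only [← mul_assoc, right_eq_mul] using e))
        fun e => m2 (by simpa only [mul_right_inj, ← mul_assoc, mul_eq_right, mul_left_inj] using e)
      refine mul_left_cancel₀ (cl _ (cl _ c)) ?_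
      linear_combination a (θ * (θ * (θ * κ))) * s2 + a (θ * (θ * (θ * (θ * κ)))) * s1 -
        a (θ * (θ * (θ * κ))) * a (θ * (θ * (θ * (θ * κ)))) * θ (a κ) * h.two
    obtain ⟨y, hy, -⟩ := h.bb_big one_ne_zero 0 0
    rw [← h2 1, ← h2 y, L] at hy
    refine hy (Finset.sum_eq_zero fun μ _ => Finset.sum_eq_zero fun ν _ => ?_)
    by_cases c1 : ν = θ * μ
    · rw [c1, key, zero_mul, zero_mul]
    by_cases c2 : μ = θ * ν
    · rw [add_comm, c2, key, zero_mul, zero_mul]
    rw [star μ ν c1 c2, zero_mul, zero_mul]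
  push Not at cl
  have S : ∀ μ, a (θ * μ) ≠ 0 → a μ = 0 → ∀ ν, a ν ≠ 0 → ν = θ * μ ∨ μ = θ * ν := fun μ c1 c2 ν c3 => by
    by_contra c
    rw [not_or] at c
    have := star μ ν c.1 c.2
    rw [c2, map_zero, mul_zero, add_zero] at this
    exact mul_ne_zero c1 ((map_ne_zero θ).2 c3) this
  obtain ⟨μ, c1, c2⟩ := cl
  have one : ∀ ν, a ν ≠ 0 → ν = θ * μ := fun ν c3 => (S μ c1 c2 ν c3).resolve_right fun e => by
    obtain ⟨κ, rfl⟩ : ∃ κ, ν = θ * κ := ⟨θ⁻¹ * ν, by simp⟩
    subst e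
    have c4 : a κ = 0 := not_not.1 fun c => (S _ c1 c2 κ c).elim
      (fun e => m3 (by simpa only [← mul_assoc, right_eq_mul] using e)) fun e => m1 (by simpa only [mul_eq_right] using e)
    exact (S κ c3 c4 _ c1).elim
      (fun e => m2 (by simpa only [mul_right_inj, ← mul_assoc, mul_eq_right, mul_left_inj] using e))
      fun e => m4 (by simpa only [← mul_assoc, right_eq_mul] using e)
  generalize θ * μ = ρ at one
  have e : ∀ x, α x = a ρ * ρ x := fun x => by
    rw [ha, Finset.sum_eq_single ρ (fun ν _ c => by rw [not_not.1 (mt (one ν) c), zero_mul]) (by simp)]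
  have e1 : a ρ * ρ (a ρ) = 1 := by simpa [e] using h2 1
  have e2 : ρ = 1 := inv1 h (RingEquiv.ext fun x => by
    have := h2 x
    rwa [e, e, map_mul, ← mul_assoc, e1, one_mul] at this)
  rw [e2, RingAut.one_apply] at e1
  have e3 : (a 1 - 1) ^ 2 = 0 := by linear_combination e1 + (1 - a 1) * h.two
  rw [e, e2, sub_eq_zero.1 (pow_eq_zero_iff two_ne_zero |>.1 e3), one_mul, RingAut.one_apply]

/-- for `a ≠ 0` the nonzero vectors `y` with `bf y ·` not onto form one torus orbit -/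
theorem Fd.rad (h : Fd θ) {a : F} (ha : a ≠ 0) : ∃ w₀ : F, ∀ e u w : F, e = 0 ∨ e = 1 →
    ((¬ ∀ z, ∃ e' u' w', (e' = 0 ∨ e' = 1) ∧ bf θ a e u w e' u' w' = z) ↔
      (e = 0 ∧ u = 0 ∧ w = 0) ∨ (e = 1 ∧ u ≠ 0 ∧ w = ss θ u * w₀)) := by
  obtain ⟨T, T1, T2, T3⟩ := dual h
  have ta : θ a ≠ 0 := (map_ne_zero θ).2 ha
  obtain ⟨b, b0, hb⟩ : ∃ b : F, b ≠ 0 ∧ θ a * θ b = b :=
    ⟨ss θ (θ a)⁻¹, mt ss_eq_zero.1 (inv_ne_zero ta), by rw [ss, map_mul, h.th]; field_simp⟩
  have tτ : ∀ x, θ (θ.symm x) = x := θ.apply_symm_apply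
  have τt : ∀ x, θ.symm (θ x) = x := θ.symm_apply_apply
  have Tb : ∀ c e u w e' u' w', T (c * bf θ a e u w e' u' w') = T ((c * e + θ a * θ c * u) * w') + T (c * w * e') +
      T ((θ.symm (c * u) + c * θ u + θ a * θ c * w) * u') := fun c e u w e' u' w' => by
    have e1 : T (c * (a * θ.symm (u * w'))) = T (θ a * θ c * u * w') := by
      rw [← T1]; congr 1; simp only [map_mul, tτ]; ring
    have e2 : T (c * (a * θ.symm (u' * w))) = T (θ a * θ c * w * u') := by
      rw [← T1]; congr 1; simp only [map_mul, tτ]; ring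
    have e3 : T (c * (u * θ u')) = T (θ.symm (c * u) * u') := by
      rw [← T1 (_ * u')]; congr 1; simp only [map_mul, tτ]; ring
    simp only [bf, bb, mul_add, add_mul, map_add, e1, e2, e3]
    rw [show c * (e * w') = c * e * w' by ring, show c * (e' * w) = c * w * e' by ring,
      show c * (u' * θ u) = c * θ u * u' by ring]
    ring
  refine ⟨1 + θ.symm b / b, fun e u w he => ⟨fun hn => ?_, fun hr hz => ?_⟩⟩
  · let I : AddSubgroup F :=
      { carrier := {z | ∃ e' u' w', (e' = 0 ∨ e' = 1) ∧ bf θ a e u w e' u' w' = z}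
        zero_mem' := ⟨0, 0, 0, Or.inl rfl, by simp [bf, bb]⟩
        add_mem' := by
          rintro _ _ ⟨e₁, u₁, w₁, h₁, rfl⟩ ⟨e₂, u₂, w₂, h₂, rfl⟩
          refine ⟨e₁ + e₂, u₁ + u₂, w₁ + w₂, ?_, by simp only [bf, bb, mul_add, add_mul, map_add]; ring⟩
          rcases h₁ with rfl | rfl <;> rcases h₂ with rfl | rfl <;> simp [h.add_self]
        neg_mem' := fun {x} e => by rwa [show -x = x by linear_combination -x * h.two] }
    obtain ⟨c, c0, hc⟩ := T3 I fun e => hn fun z => e.ge (AddSubgroup.mem_top z)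
    have tc : θ c ≠ 0 := (map_ne_zero θ).2 c0
    have k1 := T2 (c * e + θ a * θ c * u) fun x => by simpa [Tb] using hc _ ⟨0, 0, x, Or.inl rfl, rfl⟩
    have k2 := T2 (θ.symm (c * u) + c * θ u + θ a * θ c * w) fun x => by simpa [Tb] using hc _ ⟨0, x, 0, Or.inl rfl, rfl⟩
    rcases he with rfl | rfl
    · have u0 : u = 0 := by simpa [ta, tc] using k1
      exact Or.inl ⟨rfl, u0, by simpa [u0, ta, tc] using k2⟩
    have u0 : u ≠ 0 := fun e => c0 (by simpa [e] using k1)
    have tu : θ u ≠ 0 := (map_ne_zero θ).2 u0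
    have tb : θ b ≠ 0 := (map_ne_zero θ).2 b0
    have k3 : θ a * θ c * u = c := by linear_combination k1 - c * h.two
    have k4 : c * ss θ u = b := by
      refine (div_eq_one_iff_eq b0).1 ((h.fix_eq ?_).resolve_left
        (div_ne_zero (mul_ne_zero c0 (mt ss_eq_zero.1 u0)) b0))
      rw [ss, map_div₀, map_mul, map_mul, h.th, div_eq_div_iff tb b0]
      linear_combination (θ b * u * θ u) * k3 - (θ c * θ u * u * u) * hb
    refine Or.inr ⟨rfl, u0, mul_left_cancel₀ c0 ?_⟩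
    have k5 : θ.symm b = θ.symm (c * u) * u := by rw [← k4, ss, ← mul_assoc, map_mul θ.symm (c * u), τt]
    rw [← mul_assoc, k4, mul_add, mul_one, mul_div_cancel₀ _ b0, k5, ← k4, ss]
    linear_combination u * k2 - w * k3 - (θ.symm (c * u) * u + c * (u * θ u)) * h.two
  · rcases hr with ⟨rfl, rfl, rfl⟩ | ⟨rfl, u0, rfl⟩
    · obtain ⟨e', u', w', -, e⟩ := hz 1
      simp [bf, bb] at e
    have tu : θ u ≠ 0 := (map_ne_zero θ).2 u0
    have tb : θ b ≠ 0 := (map_ne_zero θ).2 b0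
    refine div_ne_zero b0 (mul_ne_zero u0 tu) (T2 _ fun z => ?_)
    obtain ⟨e', u', w', he', rfl⟩ := hz z
    have k3 : θ a * θ (b / (u * θ u)) * u = b / (u * θ u) := by
      rw [map_div₀, map_mul, h.th]; field_simp; linear_combination hb
    have k4 : b / (u * θ u) * (ss θ u * (1 + θ.symm b / b)) = b + θ.symm b := by rw [ss]; field_simp
    have k5 : θ.symm (b / (u * θ u) * u) = θ.symm b / u := by
      rw [show b / (u * θ u) * u = b / θ u by field_simp, map_div₀, τt]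
    rw [Tb, k3, k4, k5, mul_one, h.add_self, zero_mul, map_zero, zero_add,
      show θ.symm b / u + b / (u * θ u) * θ u + θ a * θ (b / (u * θ u)) * (ss θ u * (1 + θ.symm b / b)) = 0 by
        rw [ss, ← mul_assoc, ← mul_assoc, k3]; field_simp; linear_combination (θ.symm b + b) * h.two,
      zero_mul, map_zero, add_zero]
    rcases he' with rfl | rfl
    · simp
    · rw [mul_one, map_add, ← T1 (θ.symm b), tτ, CharTwo.add_self_eq_zero]

end Cfsg.Agent.WA.Sk
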