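import Cfsg.Agent.WA.ISkFa

/-! The Suzuki group: torus, Bruhat decomposition and automorphisms (see PLAN_SK.md). -/

set_option autoImplicit false
set_option linter.unusedSectionVars false

namespace Cfsg.Agent.WA.Sk

open Subgroup Cfsg.Agent.H8

variable {F : Type*} [Field F] [Finite F] {θ : RingAut F} {G : Type*} [Group G] [Finite G] {K : Type*} [Group K]

namespace S

open Cfsg.Agent.BS.Rec Matrix Cfsg.Lie

/-- torus elements -/
def Dm (θ : RingAut F) (l : F) : Matrix (Fin 4) (Fin 4) F :=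
  !![l * θ l, 0, 0, 0; 0, l, 0, 0; 0, 0, l⁻¹, 0; 0, 0, 0, (l * θ l)⁻¹]

theorem Dm_mul (l l' : F) : Dm θ l * Dm θ l' = Dm θ (l * l') := by
  ext i k; fin_cases i <;> fin_cases k <;> simp [Dm, mul_apply, Fin.sum_univ_four] <;> ring

theorem Dm_one : Dm θ 1 = 1 := by
  ext i k; fin_cases i <;> fin_cases k <;> simp [Dm]

/-- the torus in `GL₄` -/
def DG (θ : RingAut F) (k : Fˣ) : GL (Fin 4) F := ⟨Dm θ (θ.symm k), Dm θ (θ.symm ↑k⁻¹),
  by rw [Dm_mul, ← map_mul, Units.mul_inv, map_one, Dm_one], by rw [Dm_mul, ← map_mul, Units.inv_mul, map_one, Dm_one]⟩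

theorem Dm_U (H : Th θ) {l : F} (hl : l ≠ 0) (x y : F) :
    Dm θ l * Um θ x y = Um θ (θ l * x) (ss θ (θ l) * y) * Dm θ l := by
  have := θ_ne (θ := θ) hl
  ext i k; fin_cases i <;> fin_cases k <;> simp [Dm, Um, nn, ss, mul_apply, Fin.sum_univ_four, H.th] <;> field_simp

theorem W_Dm (l : F) : Wm F * Dm θ l * Wm F = Dm θ l⁻¹ := by
  ext i k; fin_cases i <;> fin_cases k <;> simp [Dm, Wm, mul_apply, Fin.sum_univ_four] <;> ring

theorem Dm_mem (H : Th θ) {e : ℕ} (he : ∀ x, θ x = x ^ e) (k : Fˣ) :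
    DG θ k ∈ Sp4 F ∧ star4 (Dm θ (θ.symm k)) = (Dm θ (θ.symm k)).map fun x => x ^ e := by
  have hl : θ.symm k ≠ 0 := θ_ne k.ne_zero
  refine ⟨fun u v => ?_, ?_⟩
  · show altForm4 (Dm θ _ *ᵥ u) (Dm θ _ *ᵥ v) = _
    generalize θ.symm k = l at hl
    have := θ_ne (θ := θ) hl
    simp [altForm4, Dm, mulVec, dotProduct, Fin.sum_univ_four]; field_simp
  · rw [← funext he]
    generalize θ.symm k = l at hl
    have := θ_ne (θ := θ) hl
    ext i k; fin_cases i <;> fin_cases k <;> simp [star4, pairOf, Dm, H.th] <;> field_simp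

theorem Dm_e0 (l c : F) : Dm θ l *ᵥ e0 c = e0 (ss θ l * c) := by
  ext i; fin_cases i <;> simp [Dm, e0, ss, mulVec, dotProduct, Fin.sum_univ_four]

theorem W_U (x y x' y' l : F) (h : Wm F * Um θ x y * Wm F = Um θ x' y' * Dm θ l) : x = 0 ∧ y = 0 := by
  have h1 := congrFun (congrFun h 1) 0
  have h2 := congrFun (congrFun h 2) 0
  simp [Dm, Wm, Um, mul_apply, Fin.sum_univ_four] at h1 h2
  exact ⟨h1, h2⟩

theorem W_tst (H : Th θ) : Wm F * Um θ 0 1 * Wm F * Um θ 1 0 = Um θ 1 0 * Wm F := by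
  have two := H.two
  ext i k; fin_cases i <;> fin_cases k <;> simp [Wm, Um, nn, mul_apply, Fin.sum_univ_four] <;> grind

theorem szd (h : Fd θ) {e : ℕ} (he : ∀ x, θ x = x ^ e) : Nonempty (SzD θ (Sz F e)) := by
  have H : Th θ := ⟨h.two, h.th⟩
  let U : F → F → Sz F e := fun x y => ⟨H.UG x y, subset_closure (H.UG_mem he x y)⟩
  let W : Sz F e := ⟨Th.WG F, subset_closure (H.WG_mem he)⟩
  let D : Fˣ →* Sz F e :=
    { toFun := fun k => ⟨DG θ k, subset_closure (Dm_mem H he k)⟩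
      map_one' := Subtype.ext (Units.ext (by show Dm θ _ = 1; rw [Units.val_one, map_one, Dm_one]))
      map_mul' := fun k l => Subtype.ext (Units.ext (by
        show Dm θ _ = Dm θ _ * Dm θ _; rw [Dm_mul, Units.val_mul, map_mul])) }
  have hU : ∀ x y x' y', U x y * U x' y' = U (x + x') (y + y' + θ x * x') := fun x y x' y' =>
    Subtype.ext (Units.ext (H.Um_mul x y x' y'))
  have hD : ∀ (k : Fˣ) x y, D k * U x y * (D k)⁻¹ = U (k * x) (ss θ k * y) := fun k x y => by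
    rw [mul_inv_eq_iff_eq_mul]
    have := Dm_U H (θ_ne (θ := θ.symm) k.ne_zero) x y
    rw [RingEquiv.apply_symm_apply] at this
    exact Subtype.ext (Units.ext this)
  have hW : W * W = 1 := Subtype.ext (Units.ext Wm_sq)
  have hWD : ∀ k, W * D k * W = (D k)⁻¹ := fun k => by
    rw [← map_inv]
    refine Subtype.ext (Units.ext ((W_Dm _).trans ?_))
    show _ = Dm θ _
    rw [Units.val_inv_eq_inv_val, map_inv₀]
  have hB : ∀ (a : Sz F e) c, c ≠ 0 → a.1.1 *ᵥ e0 1 = e0 c → ∃ x y k, a = U x y * D k := fun a c hc h1 => by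
    obtain ⟨l, hl⟩ := h.ss_surj c⁻¹
    have l0 : l ≠ 0 := fun e => inv_ne_zero hc (by rw [← hl, e, ss_eq_zero])
    obtain ⟨x, y, h2⟩ := H.eq_U he (H.SZ_of_mem he (D (Units.mk0 _ (θ_ne (θ := θ) l0)) * a).2) (by
      show (Dm θ _ * a.1.1) *ᵥ _ = _
      rw [← mulVec_mulVec, h1, Dm_e0, Units.val_mk0, RingEquiv.symm_apply_apply, hl, inv_mul_cancel₀ hc])
    have h3 : D (Units.mk0 _ (θ_ne (θ := θ) l0)) * a = U x y := Subtype.ext (Units.ext h2)
    exact ⟨_, _, (Units.mk0 _ (θ_ne (θ := θ) l0))⁻¹, by rw [← hD, ← h3, map_inv]; group⟩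
  refine ⟨{ h with
    j := U, j_mul := hU, j_inj := fun x y x' y' e => ?_, κ := D, κ_j := hD, w := W, ww := hW, wκ := hWD,
    wU := fun x y x' y' k e => W_U x y x' y' _ (congrArg (fun a : Sz F _ => a.1.1) e),
    tst := eq_mul_inv_of_mul_eq (Subtype.ext (Units.ext (W_tst H))), bru := fun a => ?_ }⟩
  · have e' : Um θ x y = Um θ x' y' := congrArg (fun a : Sz F _ => a.1.1) e
    exact ⟨congrFun (congrFun e' 0) 1, congrFun (congrFun e' 1) 3⟩
  · rcases H.first (H.SZ_of_mem he a.2) one_ne_zero with ⟨c, hc, h1⟩ | ⟨c, x, y, hc, h1⟩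
    · obtain ⟨x, y, k, h2⟩ := hB a c hc h1
      exact ⟨x, y, k, Or.inl h2⟩
    · obtain ⟨u, v, k, h2⟩ := hB (W * U x (y + x * θ x) * a) c hc (by
        show (Wm F * Um θ _ _ * a.1.1) *ᵥ _ = _
        rw [← mulVec_mulVec, ← mulVec_mulVec, h1, H.Um_ov, ← Wm_ov0 (θ := θ)]; congr 2 <;> grind [H.two])
      have h3 : U x y * U x (y + x * θ x) = 1 := Subtype.ext (Units.ext (H.UG x y).val_inv)
      refine ⟨x, y, k⁻¹, Or.inr ⟨↑k⁻¹ * u, ss θ ↑k⁻¹ * v, ?_⟩⟩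
      have h4 : (D k)⁻¹ * W * (D k)⁻¹ = W := by
        nth_rw 1 [← hWD]; rw [mul_assoc _ W W, hW, mul_one, mul_inv_cancel_right]
      rw [← hD k⁻¹ u v, map_inv, inv_inv]
      calc a = U x y * W * (W * U x (y + x * θ x) * a) := by
            rw [← mul_assoc, ← mul_assoc, mul_assoc _ W W, hW, mul_one, h3, one_mul]
        _ = U x y * ((D k)⁻¹ * W * (D k)⁻¹) * (U u v * D k) := by rw [h2, h4]
        _ = _ := by group

end S

theorem exists_szd {F : Type*} [Field F] [Fintype F] {m : ℕ} (hm : 1 ≤ m) (hF : Fintype.card F = 2 ^ (2 * m + 1)) :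
    ∃ θ : RingAut F, Nonempty (SzD θ (Lie.Sz F (2 ^ (m + 1)))) := by
  have two : (2 : F) = 0 := by
    have := FiniteField.cast_card_eq_zero F
    rw [hF, Nat.cast_pow] at this
    exact_mod_cast pow_eq_zero_iff (by omega) |>.1 this
  obtain ⟨φ, hφ⟩ := BS.Rec.exists_frob two
  have h2 : ∀ k x, (φ ^ k) x = x ^ 2 ^ k := fun k x => by
    induction k with
    | zero => simp
    | succ k ih => rw [pow_succ', RingAut.mul_apply, ih, hφ, pow_succ, pow_mul, sq]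
  refine ⟨φ ^ (m + 1), S.szd ⟨two, fun x => ?_, ?_⟩ (h2 _)⟩
  · rw [h2, h2, ← pow_mul, ← pow_add, show m + 1 + (m + 1) = 2 * m + 1 + 1 by ring, pow_succ, pow_mul, ← hF,
      FiniteField.pow_card, sq]
  · rw [Nat.card_eq_fintype_card, hF]
    exact Nat.pow_le_pow_right two_pos (show 3 ≤ 2 * m + 1 by omega)

theorem SzD.j0 (d : SzD θ K) : d.j 0 0 = 1 := by
  have h := d.j_mul 0 0 0 0
  simp only [add_zero, mul_zero] at h
  exact mul_eq_left.1 h

namespace S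

variable (d : SzD θ K)

theorem j_inv (x y : F) : (d.j x y)⁻¹ = d.j x (y + ss θ x) := by
  refine inv_eq_of_mul_eq_one_right ?_
  rw [d.j_mul, ← d.j0]
  congr 1
  · linear_combination x * d.two
  · rw [ss]; linear_combination (y + x * θ x) * d.two

theorem j_sq (x y : F) : d.j x y * d.j x y = d.j 0 (ss θ x) := by
  rw [d.j_mul, d.toFd.add_self, d.toFd.add_self, zero_add, ss, mul_comm]

theorem z_cen (x y z : F) : d.j x y * d.j 0 z = d.j 0 z * d.j x y := by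
  rw [d.j_mul, d.j_mul]; congr 1 <;> simp [add_comm]

theorem j_z (x y z : F) : d.j x y * d.j 0 z = d.j x (y + z) := by rw [d.j_mul]; simp

theorem winv : d.w⁻¹ = d.w := inv_eq_of_mul_eq_one_right d.ww

/-- the Sylow 2-subgroup -/
def U : Subgroup K where
  carrier := {g | ∃ x y, g = d.j x y}
  one_mem' := ⟨0, 0, d.j0.symm⟩
  mul_mem' := by rintro _ _ ⟨x, y, rfl⟩ ⟨x', y', rfl⟩; exact ⟨_, _, d.j_mul _ _ _ _⟩
  inv_mem' := by rintro _ ⟨x, y, rfl⟩; exact ⟨_, _, j_inv d _ _⟩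

theorem jU (x y : F) : d.j x y ∈ U d := ⟨x, y, rfl⟩

theorem κU (k : Fˣ) {u : K} (hu : u ∈ U d) : d.κ k * u * (d.κ k)⁻¹ ∈ U d := by
  obtain ⟨x, y, rfl⟩ := hu; exact ⟨_, _, d.κ_j _ _ _⟩

theorem κU' (k : Fˣ) {u : K} (hu : u ∈ U d) : (d.κ k)⁻¹ * u * d.κ k ∈ U d := by
  simpa using κU d k⁻¹ hu

/-- the Borel subgroup -/
def B : Subgroup K where
  carrier := {g | ∃ u ∈ U d, ∃ k, g = u * d.κ k}
  one_mem' := ⟨1, one_mem _, 1, by simp⟩
  mul_mem' := by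
    rintro _ _ ⟨u, hu, k, rfl⟩ ⟨v, hv, l, rfl⟩
    exact ⟨_, mul_mem hu (κU d k hv), k * l, by rw [map_mul]; group⟩
  inv_mem' := by
    rintro _ ⟨u, hu, k, rfl⟩
    exact ⟨_, κU' d k (inv_mem hu), k⁻¹, by rw [map_inv]; group⟩

theorem UB {u : K} (hu : u ∈ U d) : u ∈ B d := ⟨u, hu, 1, by simp⟩
theorem κB (k : Fˣ) : d.κ k ∈ B d := ⟨1, one_mem _, k, by simp⟩

theorem wUw {u : K} (hu : u ∈ U d) (h : d.w * u * d.w ∈ B d) : u = 1 := by
  obtain ⟨x, y, rfl⟩ := hu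
  obtain ⟨_, ⟨x', y', rfl⟩, k, h⟩ := h
  obtain ⟨rfl, rfl⟩ := d.wU _ _ _ _ _ h
  exact d.j0

theorem BU {b u : K} (hb : b ∈ B d) (hu : u ∈ U d) : b * u * b⁻¹ ∈ U d := by
  obtain ⟨v, hv, k, rfl⟩ := hb
  rw [show v * d.κ k * u * (v * d.κ k)⁻¹ = v * (d.κ k * u * (d.κ k)⁻¹) * v⁻¹ by group]
  exact mul_mem (mul_mem hv (κU d k hu)) (inv_mem hv)

theorem j_ne {x y : F} (h0 : ¬ (x = 0 ∧ y = 0)) : d.j x y ≠ 1 := fun e => h0 (d.j_inj _ _ _ _ (e.trans d.j0.symm))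

theorem κ_mem {k : Fˣ} (h : d.κ k ∈ U d) : k = 1 := by
  obtain ⟨x, y, h⟩ := h
  have := d.κ_j k 1 0
  rw [h, j_inv, d.j_mul, d.j_mul] at this
  have h1 := (d.j_inj _ _ _ _ this).1
  exact Units.ext (by rw [Units.val_one]; linear_combination -h1 + x * d.two)

theorem bru' (a : K) : a ∈ B d ∨ ∃ b ∈ B d, ∃ u ∈ U d, a = b * d.w * u := by
  obtain ⟨x, y, k, h | ⟨x', y', h⟩⟩ := d.bru a
  · exact Or.inl ⟨_, jU d x y, k, h⟩
  · exact Or.inr ⟨_, mul_mem (UB d (jU d x y)) (κB d k), _, jU d x' y', h⟩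

theorem ti' {a u : K} (hu : u ∈ U d) (h1 : u ≠ 1) (h : a * u * a⁻¹ ∈ U d) : a ∈ B d := by
  rcases bru' d a with hb | ⟨b, hb, v, hv, rfl⟩
  · exact hb
  · have := wUw d (mul_mem (mul_mem hv hu) (inv_mem hv)) (UB d (by
      have := BU d (inv_mem hb) h
      rwa [show b⁻¹ * (b * d.w * v * u * (b * d.w * v)⁻¹) * b⁻¹⁻¹ = d.w * (v * u * v⁻¹) * d.w⁻¹ by group, winv] at this))
    exact absurd (by simpa using this) h1

end S

open S in
/-- `C(z) = U` and more: an element conjugating `z` into `U` lies in the Borel subgroup -/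
theorem SzD.ti (d : SzD θ K) {a : K} {x y x' y' : F} (h0 : ¬ (x = 0 ∧ y = 0)) (h : a * d.j x y * a⁻¹ = d.j x' y') :
    ∃ u v k, a = d.j u v * d.κ k := by
  obtain ⟨_, ⟨u, v, rfl⟩, k, e⟩ := ti' d (jU d x y) (j_ne d h0) (h ▸ jU d x' y')
  exact ⟨u, v, k, e⟩

theorem S.conj_z (d : SzD θ K) (u v y : F) (k : Fˣ) :
    d.j u v * d.κ k * d.j 0 y * (d.j u v * d.κ k)⁻¹ = d.j 0 (ss θ k * y) := by
  rw [show d.j u v * d.κ k * d.j 0 y * (d.j u v * d.κ k)⁻¹ = d.j u v * (d.κ k * d.j 0 y * (d.κ k)⁻¹) * (d.j u v)⁻¹ by group,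
    d.κ_j, mul_zero, S.z_cen, mul_inv_cancel_right]

theorem SzD.cen (d : SzD θ K) {a : K} {y : F} (h0 : y ≠ 0) (h : a * d.j 0 y = d.j 0 y * a) : ∃ u v, a = d.j u v := by
  have h' := mul_inv_eq_iff_eq_mul.2 h
  obtain ⟨u, v, k, rfl⟩ := d.ti (fun e => h0 e.2) h'
  rw [S.conj_z] at h'
  obtain rfl : k = 1 := Units.ext (d.toFd.ss_inj (((mul_eq_right₀ h0).1 (d.j_inj _ _ _ _ h').2).trans ss_one.symm))
  exact ⟨u, v, by simp⟩

theorem S.inv_j (d : SzD θ K) {x y : F} (h : d.j x y * d.j x y = 1) : x = 0 := by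
  rw [S.j_sq, ← d.j0] at h
  exact ss_eq_zero.1 (d.j_inj _ _ _ _ h).2

theorem SzD.aut_U (d : SzD θ K) (φ : K ≃* K) {y x' y' : F} (h0 : y ≠ 0) (h : φ (d.j 0 y) = d.j x' y') (a b : F) :
    ∃ a' b', φ (d.j a b) = d.j a' b' := by
  obtain rfl : x' = 0 := S.inv_j d (by rw [← h, ← map_mul, S.j_sq, ss_eq_zero.2 rfl, d.j0, map_one])
  refine d.cen (y := y') (fun e => S.j_ne d (fun e => h0 e.2) (φ.injective (by rw [h, e, d.j0, map_one]))) ?_
  rw [← h, ← map_mul, ← map_mul, S.z_cen]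

namespace S

/-- an automorphism centralizing `Z` and mapping `w` into `κ w` is trivial -/
theorem aut1 (d : SzD θ K) (φ : K ≃* K) (h : ∀ y, φ (d.j 0 y) = d.j 0 y) {g : Fˣ} (hw : φ d.w = d.κ g * d.w) (a : K) :
    φ a = a := by
  have h1 : ∀ x, ∃ y, φ (d.j x 0) = d.j x y := fun x => by
    obtain ⟨x', y', e⟩ := d.aut_U φ one_ne_zero (h 1) x 0
    have := congrArg φ (j_sq d x 0)
    rw [map_mul, e, j_sq, h] at this
    exact ⟨y', d.toFd.ss_inj (d.j_inj _ _ _ _ this).2 ▸ e⟩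
  choose lam hl using h1
  have h2 : ∀ x y, φ (d.j x y) = d.j x (lam x + y) := fun x y => by
    rw [← j_z, ← hl, ← h, ← map_mul, j_z, zero_add]
  have h3 : ∀ k, φ (d.κ k) = d.κ k := fun k => by
    have e1 := congrArg φ (d.κ_j k 0 1)
    rw [map_mul, map_mul, map_inv, mul_zero, h, h] at e1
    obtain ⟨u, v, l, e⟩ := d.ti (fun e => one_ne_zero e.2) e1
    rw [e, conj_z] at e1
    obtain rfl : l = k := Units.ext (d.toFd.ss_inj (mul_right_cancel₀ one_ne_zero (d.j_inj _ _ _ _ e1).2))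
    have e2 := congrArg φ (d.wκ l)
    rw [map_mul, map_mul, map_inv, hw, e] at e2
    have e3 : d.w * d.j u v * d.w = (d.κ g)⁻¹ * (d.j u v * d.κ l)⁻¹ * (d.w * d.κ (l * g) * d.w)⁻¹ := by
      rw [← e2, map_mul, mul_inv_rev, mul_inv_rev, mul_inv_rev, winv]
      calc _ = d.w * d.j u v * d.κ l * d.κ g * (d.w * d.w) * (d.κ g)⁻¹ * (d.κ l)⁻¹ * d.w := by rw [d.ww]; group
        _ = _ := by group
    rw [e, wUw d (jU d u v) (by
      rw [e3, d.wκ]
      exact mul_mem (mul_mem (inv_mem (κB d _)) (inv_mem (mul_mem (UB d (jU d _ _)) (κB d _)))) (inv_mem (inv_mem (κB d _)))),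
      one_mul]
  have h4 : ∀ x, lam x = ss θ x * lam 1 := fun x => by
    by_cases hx : x = 0
    · have := h2 0 0
      rw [h] at this
      rw [hx, ss_eq_zero.2 rfl, zero_mul, ← add_zero (lam 0), ← (d.j_inj _ _ _ _ this).2]
    · have := congrArg φ (d.κ_j (Units.mk0 x hx) 1 0)
      rw [map_mul, map_mul, map_inv, h3, h2, h2, d.κ_j] at this
      simpa using (d.j_inj _ _ _ _ this).2.symm
  have h5 : lam 1 = 0 := by
    obtain ⟨k, k0, k1⟩ := d.toFd.exists_ne 0 1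
    have := congrArg φ (d.j_mul 1 0 k 0)
    rw [map_mul, h2, h2, h2, d.j_mul, h4 k, h4 (1 + k), ss_add, ss_one] at this
    have e : bb θ 1 k * lam 1 = 0 := by linear_combination -(d.j_inj _ _ _ _ this).2
    exact (mul_eq_zero.1 e).resolve_left fun e => by
      rcases d.toFd.bb_eq_zero.1 e with e | e | e
      exacts [one_ne_zero e, k0 e, k1 e.symm]
  have h6 : ∀ x y, φ (d.j x y) = d.j x y := fun x y => by rw [h2, h4, h5, mul_zero, zero_add]
  have h7 : g = 1 := by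
    have e := congrArg φ d.tst
    rw [map_mul, map_mul, map_mul, map_mul, map_inv, h6, h6, hw] at e
    have e1 : d.κ g * d.w = d.w * (d.κ g)⁻¹ := by rw [← d.wκ, ← mul_assoc, ← mul_assoc, d.ww, one_mul]
    have e2 : d.κ g * (d.j 1 0 * d.w * (d.j 1 0)⁻¹) * (d.κ g)⁻¹ = d.j 1 0 * (d.κ g * d.w) * (d.j 1 0)⁻¹ := by
      rw [← e, ← d.tst]; nth_rw 2 [e1]; group
    have e3 : d.w * ((d.j 1 0)⁻¹ * (d.κ g)⁻¹ * d.j 1 0 * d.κ g) * d.w =
        (d.j 1 0)⁻¹ * (d.κ g)⁻¹ * d.j 1 0 * d.κ g * (d.w * d.κ g * d.w) := by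
      have e4 : d.w * (d.j 1 0)⁻¹ * (d.κ g)⁻¹ * d.j 1 0 = (d.j 1 0)⁻¹ * (d.κ g)⁻¹ * d.j 1 0 * (d.κ g * d.w) := by
        calc _ = (d.j 1 0)⁻¹ * (d.κ g)⁻¹ * (d.κ g * (d.j 1 0 * d.w * (d.j 1 0)⁻¹) * (d.κ g)⁻¹) * d.j 1 0 := by group
          _ = _ := by rw [e2]; group
      calc _ = d.w * (d.j 1 0)⁻¹ * (d.κ g)⁻¹ * d.j 1 0 * d.κ g * d.w := by group
        _ = _ := by rw [e4]; group
    have e5 : (d.j 1 0)⁻¹ * (d.κ g)⁻¹ * d.j 1 0 * d.κ g ∈ U d := by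
      rw [mul_assoc, mul_assoc, ← mul_assoc (d.κ g)⁻¹]
      exact mul_mem (inv_mem (jU d _ _)) (κU' d g (jU d _ _))
    have e6 := wUw d e5 (by rw [e3, d.wκ]; exact mul_mem (UB d e5) (inv_mem (κB d _)))
    have e7 : d.κ g * d.j 1 0 * (d.κ g)⁻¹ = d.j 1 0 := by
      calc _ = d.κ g * d.j 1 0 * ((d.j 1 0)⁻¹ * (d.κ g)⁻¹ * d.j 1 0 * d.κ g) * (d.κ g)⁻¹ := by rw [e6, mul_one]
        _ = _ := by group
    rw [d.κ_j] at e7
    exact Units.ext (by simpa using (d.j_inj _ _ _ _ e7).1)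
  rw [h7, map_one, one_mul] at hw
  obtain ⟨x, y, k, rfl | ⟨x', y', rfl⟩⟩ := d.bru a <;> simp only [map_mul, h3, h6, hw]

end S

open S in
/-- an automorphism that centralizes `Z` is induced by an element of `U` -/
theorem SzD.aut (d : SzD θ K) (φ : K ≃* K) (h : ∀ y, φ (d.j 0 y) = d.j 0 y) :
    ∃ x y, ∀ a, φ a = d.j x y * a * (d.j x y)⁻¹ := by
  rcases bru' d (φ d.w) with hb | ⟨_, ⟨_, ⟨x, y, rfl⟩, k, rfl⟩, v, hv, e⟩
  · obtain ⟨x, y, e⟩ := BU d hb (jU d 0 1)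
    obtain ⟨x', y', e'⟩ := d.aut_U φ.symm one_ne_zero (φ.symm_apply_eq.2 (h 1).symm) x y
    rw [← e, ← h, ← map_inv, ← map_mul, ← map_mul, φ.symm_apply_apply, winv] at e'
    exact absurd (wUw d (jU d 0 1) (e' ▸ UB d (jU d _ _))) (j_ne d fun e => one_ne_zero e.2)
  · have e1 : φ d.w * φ d.w = 1 := by rw [← map_mul, d.ww, map_one]
    have e2 : v * d.j x y = 1 := wUw d (mul_mem hv (jU d x y)) (by
      have : d.w * (v * d.j x y) * d.w = (d.j x y * d.κ k)⁻¹ * (φ d.w * φ d.w) * v⁻¹ * (d.w * d.κ k * d.w)⁻¹ := by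
        rw [e, mul_inv_rev (d.w * _), mul_inv_rev d.w, winv]
        calc _ = d.w * (v * d.j x y) * d.κ k * (d.w * d.w) * (d.κ k)⁻¹ * d.w := by rw [d.ww]; group
          _ = _ := by group
      rw [this, e1, mul_one, d.wκ]
      exact mul_mem (mul_mem (inv_mem (mul_mem (UB d (jU d _ _)) (κB d _))) (inv_mem (UB d hv))) (inv_mem (inv_mem (κB d _))))
    refine ⟨x, y, fun a => ?_⟩
    have := aut1 d (φ.trans (MulAut.conj (d.j x y)⁻¹)) (fun z => by
      rw [MulEquiv.trans_apply, h, MulAut.conj_apply, j_inv, z_cen, mul_inv_cancel_right]) (g := k) (by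
      rw [MulEquiv.trans_apply, e, MulAut.conj_apply, eq_inv_of_mul_eq_one_left e2]; group) a
    rw [MulEquiv.trans_apply, MulAut.conj_apply] at this
    nth_rw 2 [← this]; group

theorem S.lemT2 (h : Fd θ) (k : ℕ) : ∀ {α β : F → F}, (∀ x y, α (x + y) = α x + α y) → (∀ x y, β (x + y) = β x + β y) →
    (∀ x, ss θ (α x) = β (ss θ x)) → (∀ x, α^[2 ^ k] x = x) → (∀ x, α x = x) ∧ ∀ x, β x = x := by
  induction k with
  | zero => exact fun hα hβ hs h2 => h.lemT hα hβ hs fun x => (h2 _).trans (h2 _)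
  | succ k ih =>
    intro α β hα hβ hs h2
    exact h.lemT hα hβ hs (ih (α := α^[2]) (β := β^[2]) (fun x y => by simp [hα]) (fun x y => by simp [hβ])
      (fun x => by simp [hs]) fun x => by rw [← Function.iterate_mul, ← pow_succ', h2]).1

/-- an automorphism of `2`-power order that normalizes `U` centralizes `Z` -/
theorem SzD.aut_two (d : SzD θ K) (φ : K ≃* K) (h : ∀ a b, ∃ a' b', φ (d.j a b) = d.j a' b') (h2 : ∃ k, ∀ a, φ^[2 ^ k] a = a)
    (y : F) : φ (d.j 0 y) = d.j 0 y := by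
  obtain ⟨k, h2⟩ := h2
  have h1 : ∀ y, ∃ y', φ (d.j 0 y) = d.j 0 y' := fun y => by
    obtain ⟨a, b, e⟩ := h 0 y
    obtain rfl : a = 0 := S.inv_j d (by rw [← e, ← map_mul, S.j_sq, ss_eq_zero.2 rfl, d.j0, map_one])
    exact ⟨b, e⟩
  choose β hβ using h1
  choose α γ hα using fun a => h a 0
  have h3 : ∀ x y, φ (d.j x y) = d.j (α x) (γ x + β y) := fun x y => by
    rw [← S.j_z, ← hα, ← hβ, ← map_mul, S.j_z, zero_add]
  have h4 : ∀ n x y, ∃ y', φ^[n] (d.j x y) = d.j (α^[n] x) y' := fun n => by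
    induction n with
    | zero => exact fun x y => ⟨y, rfl⟩
    | succ n ih => exact fun x y => by rw [Function.iterate_succ_apply, Function.iterate_succ_apply, h3]; exact ih _ _
  rw [hβ, (S.lemT2 d.toFd k (α := α) (β := β) (fun x y => ?_) (fun x y => ?_) (fun x => ?_) fun x => ?_).2]
  · have := congrArg φ (d.j_mul x 0 y 0)
    rw [map_mul, h3, h3, h3, d.j_mul] at this
    exact (d.j_inj _ _ _ _ this).1.symm
  · have := congrArg φ (S.j_z d 0 x y)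
    rw [map_mul, hβ, hβ, hβ, S.j_z] at this
    exact (d.j_inj _ _ _ _ this).2.symm
  · have := congrArg φ (S.j_sq d x 0)
    rw [map_mul, hα, hβ, S.j_sq] at this
    exact (d.j_inj _ _ _ _ this).2
  · obtain ⟨y, e⟩ := h4 (2 ^ k) x 0
    rw [h2] at e
    exact (d.j_inj _ _ _ _ e).1.symm

end Cfsg.Agent.WA.Sk
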