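import Cfsg.Agent.WA.Lk0b

/-! The pre-frame of a standard unitary subgroup with cyclic centralizer: the coordinates of `Lk.Fr` without the
splitting of the centralizer of the involution. -/

set_option autoImplicit false
set_option linter.unusedSectionVars false

namespace Cfsg.Agent.WA.Su

open Subgroup Cfsg.Agent.H1.U3 Cfsg.Agent.H8 Cfsg.Agent.WA.Lk

variable {F : Type*} [Field F] (σ : F →+* F) [Ctx σ]

/-- `A` is normal in `C(t)`, `Q = j.range` is a Sylow 2-subgroup of `A`, `K = C(t) ⊓ C(A)`. -/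
structure Pf (G : Type*) [Group G] where
  n : ℕ
  hn : 2 ≤ n
  hF : Nat.card F = 4 ^ n
  j : US σ →* G
  j_inj : Function.Injective j
  d : Fˣ →* G
  d_j : ∀ μ u, d μ * j u * (d μ)⁻¹ = j (H7.Mu.ac3 μ u)
  t : G
  t2 : t * t = 1
  t1 : t ≠ 1
  A : Subgroup G
  K : Subgroup G
  T : Subgroup G
  jA : ∀ u, j u ∈ A
  dA : ∀ μ, d μ ∈ A
  tK : t ∈ K
  KA : K ≤ centralizer (A : Set G)
  KC : K ≤ centralizer {t}
  CA : centralizer {t} ≤ normalizer (A : Set G)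
  CK : centralizer {t} ≤ normalizer (K : Set G)
  QK : ∀ u, j u ∈ K → u = 1
  uniq : ∀ k ∈ K, k * k = 1 → k = 1 ∨ k = t
  ab : ∀ a ∈ T ⊓ K, ∀ b ∈ T ⊓ K, a * b = b * a
  ti : ∀ x ∈ centralizer {t}, ∀ u u', u ≠ 1 → x * j u * x⁻¹ = j u' → x ∈ normalizer (j.range : Set G)
  ker : ∀ x ∈ centralizer {t}, (∀ u, ∃ u', x * j u * x⁻¹ = j u' ∧ u'.a = u.a) → ∃ u, ∃ k ∈ K, x = j u * k
  T_syl : IsSylowIn 2 T (centralizer {t})
  T_N : T ≤ normalizer (j.range : Set G)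
  jT : ∀ u, j u ∈ T
  AT : ∀ x ∈ T, x ∈ A → x ∈ j.range

variable {σ} {G : Type*} [Group G]

namespace Pf

variable (f : Pf σ G)

def q : ℕ := 2 ^ f.n
abbrev Q : Subgroup G := f.j.range
def V : Subgroup G := (center (US σ)).map f.j
abbrev C : Subgroup G := centralizer {f.t}
def D : Subgroup G := f.C ⊓ normalizer (f.Q : Set G)

open Classical in
noncomputable def vv (x : F) : G := if h : σ x = x then f.j (zz x h) else 1

open Classical in
noncomputable def aut (g : G) : MulAut (US σ) :=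
  if h : g ∈ normalizer (f.Q : Set G) then
    ((MonoidHom.ofInjective f.j_inj).trans (f.Q.normalizerMonoidHom ⟨g, h⟩)).trans
      (MonoidHom.ofInjective f.j_inj).symm
  else 1

noncomputable def cc [Finite F] (g : G) : F := (exists_semilinear (f.aut g)).choose

noncomputable def tt [Finite F] (g : G) : RingAut F :=
  (exists_semilinear (f.aut g)).choose_spec.choose

end Pf

variable [Finite F] [Finite G]

theorem Pf.AC (f : Pf σ G) : f.A ≤ f.C := fun a ha => mem_centralizer_singleton_iff.2 (f.KA f.tK a ha)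

theorem Pf.d_mem_D (f : Pf σ G) (μ : Fˣ) : f.d μ ∈ f.D :=
  mem_inf.mpr ⟨f.AC (f.dA μ), H9.mem_normalizer_of_conj_mem (by
    rintro _ ⟨u, rfl⟩; exact ⟨_, (f.d_j μ u).symm⟩)⟩

theorem Pf.four_le (f : Pf σ G) : 4 ≤ f.q :=
  Nat.pow_le_pow_right (n := 2) (by norm_num) f.hn

theorem Pf.card_K (f : Pf σ G) : Nat.card (KK σ) = f.q := by
  have := Fintype.ofFinite F
  exact card_KK (by rw [← Nat.card_eq_fintype_card, f.hF])

theorem Pf.exists_K (f : Pf σ G) (x y : F) : ∃ l : F, σ l = l ∧ l ≠ 0 ∧ l ≠ x ∧ l ≠ y := by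
  by_contra h
  push Not at h
  have h1 : ((KK σ : AddSubgroup F) : Set F) ⊆ {0, x, y} := fun l hl => by
    by_cases h0 : l = 0
    · simp [h0]
    by_cases h2 : l = x
    · simp [h2]
    · simp [h l hl h0 h2]
  have h2 := Set.ncard_le_ncard h1
  have h3 : ({0, x, y} : Set F).ncard ≤ 3 :=
    (Set.ncard_insert_le _ _).trans (Nat.succ_le_succ ((Set.ncard_insert_le _ _).trans (by simp)))
  have h4 : ((KK σ : AddSubgroup F) : Set F).ncard = f.q := f.card_K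
  have := f.four_le
  omega

theorem Pf.vv_of (f : Pf σ G) {x : F} (hx : σ x = x) : f.vv x = f.j (zz x hx) := dif_pos hx

theorem Pf.vv_zero (f : Pf σ G) : f.vv 0 = 1 := by
  rw [f.vv_of (map_zero σ), ← map_one f.j]
  congr 1

theorem Pf.vv_inj (f : Pf σ G) {x y : F} (hx : σ x = x) (hy : σ y = y) (h : f.vv x = f.vv y) :
    x = y := by
  rw [f.vv_of hx, f.vv_of hy] at h
  exact congrArg US.b (f.j_inj h)

theorem Pf.j_eq_vv (f : Pf σ G) {u : US σ} (h : u.a = 0) : f.j u = f.vv u.b := by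
  rw [f.vv_of (fixed_of_a h)]
  congr 1
  ext <;> simp [h]

theorem Pf.mem_V (f : Pf σ G) {v : G} : v ∈ f.V ↔ ∃ x, σ x = x ∧ f.vv x = v := by
  constructor
  · rintro ⟨u, hu, rfl⟩
    have := H1.U3.mem_center_iff.1 hu
    exact ⟨u.b, fixed_of_a this, (f.j_eq_vv this).symm⟩
  · rintro ⟨x, hx, rfl⟩
    exact ⟨zz x hx, H1.U3.mem_center_iff.2 rfl, (f.vv_of hx).symm⟩

theorem Pf.vv_mem (f : Pf σ G) (x : F) : f.vv x ∈ f.V := by
  by_cases hx : σ x = x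
  · exact f.mem_V.2 ⟨x, hx, rfl⟩
  · rw [Pf.vv, dif_neg hx]; exact one_mem _

theorem Pf.j_mem_V (f : Pf σ G) {u : US σ} : f.j u ∈ f.V ↔ u.a = 0 := by
  rw [Pf.V, mem_map_iff_mem f.j_inj, H1.U3.mem_center_iff]

theorem Pf.V_le_Q (f : Pf σ G) : f.V ≤ f.Q := map_le_range _ _

theorem Pf.j_sq (f : Pf σ G) (u : US σ) : f.j u * f.j u = f.vv (nm σ u.a) := by
  rw [← map_mul, f.j_eq_vv (sq_a u), sq_b]; rfl

theorem Pf.V_sq (f : Pf σ G) {v : G} (hv : v ∈ f.V) : v * v = 1 := by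
  obtain ⟨u, hu, rfl⟩ := hv
  rw [f.j_sq, H1.U3.mem_center_iff.1 hu, nm, mul_zero, f.vv_zero]

theorem Pf.V_comm (f : Pf σ G) {v : G} (hv : v ∈ f.V) (u : US σ) : v * f.j u = f.j u * v := by
  obtain ⟨r, hr, rfl⟩ := hv
  rw [← map_mul, ← map_mul, Subgroup.mem_center_iff.1 hr u]

theorem Pf.j_cm (f : Pf σ G) (u r : US σ) :
    f.j u * f.j r * (f.j u)⁻¹ * (f.j r)⁻¹ = f.vv (bl σ u.a r.a) := by
  rw [← map_inv, ← map_inv, ← map_mul, ← map_mul, ← map_mul, f.j_eq_vv (by simp)]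
  congr 1
  simp only [mul_b, mul_a, inv_a, inv_b, map_add, map_neg, bl]
  linear_combination u.h + r.h - (σ r.a * u.a) * two σ

theorem Pf.conj_j (f : Pf σ G) {g : G} (hg : g ∈ normalizer (f.Q : Set G)) (u : US σ) :
    g * f.j u * g⁻¹ = f.j (f.aut g u) := by
  rw [Pf.aut, dif_pos hg]
  change _ = f.j ((MonoidHom.ofInjective f.j_inj).symm _)
  rw [MonoidHom.apply_ofInjective_symm]
  rfl

theorem Pf.aut_a (f : Pf σ G) (g : G) (u : US σ) : (f.aut g u).a = f.cc g * f.tt g u.a :=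
  (exists_semilinear (f.aut g)).choose_spec.choose_spec.2.1 u

theorem Pf.cc_ne (f : Pf σ G) (g : G) : f.cc g ≠ 0 :=
  (exists_semilinear (f.aut g)).choose_spec.choose_spec.1

theorem Pf.tt_fixed (f : Pf σ G) (g : G) {x : F} (hx : σ x = x) : σ (f.tt g x) = f.tt g x := by
  rw [← comm_sig, hx]

theorem Pf.conj_vv (f : Pf σ G) {g : G} (hg : g ∈ normalizer (f.Q : Set G)) {x : F} (hx : σ x = x) :
    g * f.vv x * g⁻¹ = f.vv (nm σ (f.cc g) * f.tt g x) := by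
  rw [f.vv_of hx, f.conj_j hg, f.j_eq_vv ((aut_a_eq_zero _).2 rfl)]
  congr 1
  exact (exists_semilinear (f.aut g)).choose_spec.choose_spec.2.2 _ rfl

theorem Pf.ct_unique (f : Pf σ G) {g : G} {c : F} {τ : RingAut F}
    (h : ∀ u : US σ, (f.aut g u).a = c * τ u.a) : f.cc g = c ∧ f.tt g = τ := by
  have h1 : ∀ a, f.cc g * f.tt g a = c * τ a := fun a => by
    have := h (lift σ a)
    rwa [f.aut_a, lift_a] at this
  have h2 : f.cc g = c := by simpa using h1 1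
  exact ⟨h2, RingEquiv.ext fun a => mul_left_cancel₀ (f.cc_ne g) (by rw [h1, h2])⟩

theorem Pf.aut_mul (f : Pf σ G) {g h : G} (hg : g ∈ normalizer (f.Q : Set G))
    (hh : h ∈ normalizer (f.Q : Set G)) (u : US σ) : f.aut (g * h) u = f.aut g (f.aut h u) :=
  f.j_inj (by rw [← f.conj_j (mul_mem hg hh), ← f.conj_j hg, ← f.conj_j hh]; group)

theorem Pf.ct_mul (f : Pf σ G) {g h : G} (hg : g ∈ normalizer (f.Q : Set G))
    (hh : h ∈ normalizer (f.Q : Set G)) :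
    f.cc (g * h) = f.cc g * f.tt g (f.cc h) ∧ f.tt (g * h) = f.tt g * f.tt h :=
  f.ct_unique fun u => by
    rw [f.aut_mul hg hh, f.aut_a, f.aut_a, map_mul, ← mul_assoc]; rfl

theorem Pf.tt_mul (f : Pf σ G) {g h : G} (hg : g ∈ normalizer (f.Q : Set G))
    (hh : h ∈ normalizer (f.Q : Set G)) : f.tt (g * h) = f.tt g * f.tt h := (f.ct_mul hg hh).2

theorem Pf.cc_mul (f : Pf σ G) {g h : G} (hg : g ∈ normalizer (f.Q : Set G))
    (hh : h ∈ normalizer (f.Q : Set G)) : f.cc (g * h) = f.cc g * f.tt g (f.cc h) :=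
  (f.ct_mul hg hh).1

theorem Pf.ct_j (f : Pf σ G) (u : US σ) : f.cc (f.j u) = 1 ∧ f.tt (f.j u) = 1 :=
  f.ct_unique fun r => by
    have h := f.conj_j (le_normalizer (H := f.Q) ⟨u, rfl⟩) r
    rw [← map_inv, ← map_mul, ← map_mul] at h
    rw [← f.j_inj h]
    simp

theorem Pf.ct_cen (f : Pf σ G) {g : G} (hg : g ∈ centralizer (f.Q : Set G)) :
    f.cc g = 1 ∧ f.tt g = 1 :=
  f.ct_unique fun r => by
    have h := f.conj_j (centralizer_le_normalizer _ hg) r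
    rw [← hg _ ⟨r, rfl⟩, mul_inv_cancel_right] at h
    rw [← f.j_inj h]
    simp

theorem Pf.ct_one (f : Pf σ G) : f.cc 1 = 1 ∧ f.tt 1 = 1 := f.ct_cen (one_mem _)

theorem Pf.tt_inv (f : Pf σ G) {g : G} (hg : g ∈ normalizer (f.Q : Set G)) :
    f.tt g⁻¹ = (f.tt g)⁻¹ :=
  eq_inv_of_mul_eq_one_left (by rw [← f.tt_mul (inv_mem hg) hg, inv_mul_cancel, f.ct_one.2])

theorem Pf.tt_pow (f : Pf σ G) {g : G} (hg : g ∈ normalizer (f.Q : Set G)) (k : ℕ) :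
    f.tt (g ^ k) = f.tt g ^ k := by
  induction k with
  | zero => simp [f.ct_one.2]
  | succ k ih => rw [pow_succ, f.tt_mul (pow_mem hg k) hg, ih, pow_succ]

theorem Pf.ct_d (f : Pf σ G) (μ : Fˣ) :
    f.cc (f.d μ) = σ μ ^ 2 / μ ∧ f.tt (f.d μ) = 1 ∧ nm σ (f.cc (f.d μ)) = nm σ (μ : F) := by
  have h := f.ct_unique (g := f.d μ) (c := σ μ ^ 2 / μ) (τ := 1) fun r => by
    rw [← f.j_inj ((f.d_j μ r).symm.trans (f.conj_j (f.d_mem_D μ).2 r))]
    rfl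
  refine ⟨h.1, h.2, ?_⟩
  have := H7.Mu.σ_ne (σ := σ) μ
  rw [h.1, nm, nm, map_div₀, map_pow, invol]
  field_simp

theorem Pf.cc_d_K (f : Pf σ G) {μ : Fˣ} (h : σ μ = μ) : f.cc (f.d μ) = μ := by
  rw [(f.ct_d μ).1, h]
  field_simp

theorem Pf.cc_eq_one (f : Pf σ G) {g : G} (hg : g ∈ normalizer (f.Q : Set G))
    (h2 : ∃ k, g ^ 2 ^ k = 1) (h : f.tt g = 1) : f.cc g = 1 := by
  obtain ⟨k, hk⟩ := h2
  have : ∀ m : ℕ, f.cc (g ^ m) = f.cc g ^ m := fun m => by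
    induction m with
    | zero => simp [f.ct_one.1]
    | succ m ih => rw [pow_succ', f.cc_mul hg (pow_mem hg m), h, ih, pow_succ']; rfl
  exact eq_one_of_pow_two_pow σ (k := k) (by rw [← this, hk, f.ct_one.1])

theorem Pf.V_cen_Q (f : Pf σ G) : f.V ≤ centralizer (f.Q : Set G) := by
  rintro z hz _ ⟨u, rfl⟩; exact (f.V_comm hz u).symm

theorem Pf.tt_cases (f : Pf σ G) {g : G} (hg : g ∈ normalizer (f.Q : Set G))
    (h : f.tt (g * g) = 1) : f.tt g = 1 ∨ f.tt g = sigAut σ :=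
  eq_one_or_sig _ (by rw [pow_two, ← f.tt_mul hg hg, h])

theorem Pf.tt_of_cen_V (f : Pf σ G) {g : G} (hg : g ∈ normalizer (f.Q : Set G))
    (h : g ∈ centralizer (f.V : Set G)) :
    nm σ (f.cc g) = 1 ∧ (f.tt g = 1 ∨ f.tt g = sigAut σ) := by
  have k : ∀ x, σ x = x → nm σ (f.cc g) * f.tt g x = x := fun x hx => by
    have := f.conj_vv hg hx
    rw [← h _ (f.vv_mem x), mul_inv_cancel_right] at this
    exact (f.vv_inj hx (by rw [map_mul, nm_fixed, f.tt_fixed g hx]) this).symm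
  have h1 : nm σ (f.cc g) = 1 := by simpa using k 1 (map_one σ)
  exact ⟨h1, cases_of_fix fun x hx => by simpa [h1] using k x hx⟩

theorem Pf.nm_cc_of_sig (f : Pf σ G) {g : G} (hg : g ∈ normalizer (f.Q : Set G))
    (h : f.tt g = sigAut σ) (h2 : f.cc (g * g) = 1) :
    nm σ (f.cc g) = 1 ∧ g ∈ centralizer (f.V : Set G) := by
  rw [f.cc_mul hg hg, h, sigAut_apply, mul_comm] at h2
  refine ⟨h2, fun v hv => ?_⟩
  obtain ⟨x, hx, rfl⟩ := f.mem_V.1 hv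
  have := f.conj_vv hg hx
  rw [show nm σ (f.cc g) = 1 from h2, h, sigAut_apply, hx, one_mul] at this
  exact (mul_inv_eq_iff_eq_mul.1 this).symm

theorem Pf.sig_gen (f : Pf σ G) {g : G} (hg : g ∈ normalizer (f.Q : Set G))
    (h : f.tt g = sigAut σ) {w : US σ} (h2 : (f.j w)⁻¹ * (g * g) ∈ centralizer (f.Q : Set G))
    {u : US σ} {b : F} (hb : b + f.cc g * σ b = u.a) :
    g * f.j u * g⁻¹ * f.j u = f.vv (bl σ w.a b) := by
  have hw : f.j w ∈ normalizer (f.Q : Set G) := le_normalizer (H := f.Q) ⟨w, rfl⟩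
  have h3 : f.cc (g * g) = 1 := by
    have e := (f.ct_mul hw (centralizer_le_normalizer _ h2)).1
    rwa [mul_inv_cancel_left, (f.ct_j w).1, (f.ct_j w).2, (f.ct_cen h2).1, one_mul, map_one] at e
  obtain ⟨h4, h5⟩ := f.nm_cc_of_sig hg h h3
  obtain ⟨p, hp⟩ := exists_a (σ := σ) b
  set p' := f.aut g p with hp'
  have e1 : g * f.j p * g⁻¹ = f.j p' := f.conj_j hg p
  have e2 : p'.a = f.cc g * σ b := by rw [hp', f.aut_a, h, hp]; rfl
  have e3 : g * f.j p' * g⁻¹ = f.vv (bl σ w.a b) * f.j p := by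
    have := h2 _ ⟨p, rfl⟩
    rw [← e1, ← hp, ← f.j_cm]
    calc _ = f.j w * ((f.j w)⁻¹ * (g * g) * f.j p) * (g * g)⁻¹ := by group
      _ = _ := by rw [← this]; group
  obtain ⟨v, hv, e4⟩ : ∃ v ∈ f.V, f.j u = f.j p * f.j p' * v :=
    ⟨f.j ((p * p')⁻¹ * u), f.j_mem_V.2 (by simp [hp, e2, ← hb]), by
      rw [← map_mul, ← map_mul, mul_inv_cancel_left]⟩
  have e5 : f.j p' * f.j p' = f.j p * f.j p := by
    rw [f.j_sq, f.j_sq, e2, hp]
    congr 1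
    simp only [nm, map_mul, invol] at h4 ⊢
    linear_combination (b * σ b) * h4
  have e6 : f.j p * f.j p ∈ f.V := f.j_sq p ▸ f.vv_mem _
  have e7 : g * f.j u * g⁻¹ = f.j p' * (f.vv (bl σ w.a b) * f.j p) * v := by
    rw [e4, ← e3, ← e1]
    calc _ = g * f.j p * (g * f.j p * g⁻¹) * (v * g⁻¹) := by group
      _ = _ := by rw [(inv_mem h5) v hv]; group
  rw [e7, e4]
  calc _ = (f.j p' * f.vv (bl σ w.a b)) * f.j p * (v * f.j p) * f.j p' * v := by group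
    _ = f.vv (bl σ w.a b) * (f.j p' * (f.j p * f.j p)) * (v * f.j p') * v := by
      rw [← f.V_comm (f.vv_mem _), f.V_comm hv]; group
    _ = f.vv (bl σ w.a b) * (f.j p * f.j p * (f.j p' * f.j p')) * (v * v) := by
      rw [← f.V_comm e6, f.V_comm hv]; group
    _ = _ := by rw [e5, f.V_sq e6, f.V_sq hv]; group

theorem Pf.sig_inv (f : Pf σ G) {g : G} (hg : g ∈ normalizer (f.Q : Set G))
    (h : f.tt g = sigAut σ) (h2 : g * g ∈ centralizer (f.Q : Set G)) {u : US σ}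
    (hu : f.cc g * σ u.a = u.a) : g * f.j u * g⁻¹ = (f.j u)⁻¹ := by
  obtain ⟨-, -, -, h3⟩ := exists_fix (f.nm_cc_of_sig hg h (f.ct_cen h2).1).1
  obtain ⟨b, hb⟩ := h3 _ hu
  have := f.sig_gen hg h (w := 1) (by simpa using h2) hb
  rw [one_a, show bl σ 0 b = 0 by simp [bl], f.vv_zero] at this
  exact eq_inv_of_mul_eq_one_left this

theorem Pf.sig_conj (f : Pf σ G) {g : G} (hg : g ∈ normalizer (f.Q : Set G))
    (h : f.tt g = sigAut σ) (h2 : g * g ∈ centralizer (f.Q : Set G)) {v : G} (hv : v ∈ f.V) :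
    ∃ u, f.j u * g * (f.j u)⁻¹ = g * v := by
  obtain ⟨a₀, h0, h3, -⟩ := exists_fix (f.nm_cc_of_sig hg h (f.ct_cen h2).1).1
  obtain ⟨x, hx, rfl⟩ := f.mem_V.1 hv
  obtain ⟨l, hl, e⟩ := exists_sqrt (σ := σ) (x := x / nm σ a₀) (by rw [map_div₀, hx, nm_fixed])
  have h4 := f.sig_inv hg h h2 (u := lift σ (l * a₀)) (by rw [lift_a]; exact (h3 _).2 ⟨l, hl, rfl⟩)
  have h5 := f.j_sq (lift σ (l * a₀))
  have h6 : nm σ (l * a₀) = x := by
    have : nm σ a₀ ≠ 0 := fun e => h0 (nm_eq_zero.1 e)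
    rw [← div_mul_cancel₀ x this, ← e]
    simp only [nm, map_mul, hl]; ring
  rw [lift_a, h6] at h5
  refine ⟨(lift σ (l * a₀))⁻¹, ?_⟩
  rw [map_inv, ← h4, ← h5, h4]
  nth_rewrite 1 [← h4]
  group

theorem Pf.ct_div (f : Pf σ G) {g h : G} (hg : g ∈ normalizer (f.Q : Set G))
    (hh : h ∈ normalizer (f.Q : Set G)) (h1 : f.cc g = f.cc h) (h2 : f.tt g = f.tt h) :
    f.cc (g * h⁻¹) = 1 ∧ f.tt (g * h⁻¹) = 1 := by
  have e := (f.ct_mul hh (inv_mem hh))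
  rw [mul_inv_cancel, f.ct_one.1, f.ct_one.2] at e
  rw [f.cc_mul hg (inv_mem hh), f.tt_mul hg (inv_mem hh), h1, h2]
  exact ⟨e.1.symm, e.2.symm⟩

theorem Pf.exists_d_vv (f : Pf σ G) {x y : F} (hx : σ x = x) (hy : σ y = y) (x0 : x ≠ 0)
    (y0 : y ≠ 0) : ∃ μ : Fˣ, σ μ = μ ∧ f.d μ * f.vv x * (f.d μ)⁻¹ = f.vv y := by
  obtain ⟨l, hl, e⟩ := exists_sqrt (σ := σ) (x := y / x) (by rw [map_div₀, hx, hy])
  have l0 : l ≠ 0 := fun h => div_ne_zero y0 x0 (by rw [← e, h]; simp)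
  refine ⟨Units.mk0 l l0, hl, ?_⟩
  rw [f.conj_vv (f.d_mem_D _).2 hx, (f.ct_d _).2.2, (f.ct_d _).2.1, Units.val_mk0, nm, hl, ← pow_two,
    e]
  congr 1
  exact div_mul_cancel₀ y x0

theorem Pf.exists_sq (f : Pf σ G) {v : G} (hv : v ∈ f.V) : ∃ u, f.j u * f.j u = v := by
  obtain ⟨x, hx, rfl⟩ := f.mem_V.1 hv
  obtain ⟨a, rfl⟩ := exists_nm hx
  exact ⟨lift σ a, by rw [f.j_sq, lift_a]⟩

end Cfsg.Agent.WA.Su
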