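import Cfsg.Agent.WA.SuA
import Cfsg.Agent.WA.Lk1a1

/-! The case where the involution is a square in the centralizer of the component. -/

set_option autoImplicit false
set_option linter.unusedSectionVars false

namespace Cfsg.Agent.WA.Su

open Subgroup Cfsg.Agent.H1.U3 Cfsg.Agent.H8 Cfsg.Agent.WA.Lk

variable {F : Type*} [Field F] [Finite F] {σ : F →+* F} [Ctx σ] {G : Type*} [Group G] [Finite G]

namespace Pf

variable (f : Pf σ G)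

theorem memC {x : G} : x ∈ f.C ↔ x * f.t = f.t * x := mem_centralizer_singleton_iff

theorem cT {x : G} (hx : x ∈ f.T) : x * f.t = f.t * x := f.memC.1 (f.T_syl.le hx)

theorem tT : f.t ∈ f.T :=
  f.T_syl.le_of_le_normalizer (H9.isPGroup_zpowers ⟨1, by rw [pow_one, pow_two, f.t2]⟩)
    (zpowers_le.2 (f.KC f.tK)) (f.T_syl.le.trans (by
      rw [← H8.centralizer_zpowers]; exact centralizer_le_normalizer _)) (mem_zpowers _)

theorem Kj {k : G} (hk : k ∈ f.K) (u : US σ) : f.j u * k = k * f.j u := f.KA hk _ (f.jA u)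

theorem K_cQ {k : G} (hk : k ∈ f.K) : k ∈ centralizer (f.Q : Set G) := by
  rintro _ ⟨u, rfl⟩; exact f.Kj hk u

theorem KV {k v : G} (hk : k ∈ f.K) (hv : v ∈ f.V) : v * k = k * v := f.K_cQ hk v (f.V_le_Q hv)

theorem tQ : f.t ∉ f.Q := fun ⟨u, e⟩ => f.t1 (by rw [← e, f.QK u (e ▸ f.tK), map_one])

theorem tA : f.t ∉ f.A := fun h => f.tQ (f.AT _ f.tT h)

theorem VA {v : G} (hv : v ∈ f.V) : v ∈ f.A := by
  obtain ⟨u, rfl⟩ := f.V_le_Q hv; exact f.jA u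

theorem VT {v : G} (hv : v ∈ f.V) : v ∈ f.T := by
  obtain ⟨u, rfl⟩ := f.V_le_Q hv; exact f.jT u

theorem decT {x : G} (hx : x ∈ f.T) (h : f.tt x = 1) : ∃ u, ∃ k ∈ f.T ⊓ f.K, x = f.j u * k := by
  have h1 := f.cc_eq_one (f.T_N hx) (H9.exists_pow_eq_one_of_mem f.T_syl.pgroup hx) h
  obtain ⟨u, k, hk, rfl⟩ := f.ker x (f.T_syl.le hx) fun u =>
    ⟨_, f.conj_j (f.T_N hx) u, by rw [f.aut_a, h1, h]; simp⟩
  exact ⟨u, k, ⟨(mul_mem_cancel_left (f.jT u)).1 hx, hk⟩, rfl⟩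

theorem sq_jk (u : US σ) {k : G} (hk : k ∈ f.K) : f.j u * k * (f.j u * k) = f.j u * f.j u * (k * k) := by
  calc _ = f.j u * (k * f.j u) * k := by group
    _ = _ := by rw [← f.Kj hk]; group

theorem invT {s : G} (hs : s ∈ f.T) (h2 : s * s = 1) (h : f.tt s = 1) : ∃ v ∈ f.V, s = v ∨ s = f.t * v := by
  obtain ⟨u, k, hk, rfl⟩ := f.decT hs h
  rw [f.sq_jk u hk.2, ← map_mul] at h2
  have h3 := f.QK (u * u) (by rw [eq_inv_of_mul_eq_one_left h2]; exact inv_mem (mul_mem hk.2 hk.2))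
  have h4 := sq_b u
  rw [h3, map_one, one_mul] at h2
  rw [h3] at h4
  refine ⟨f.j u, f.j_mem_V.2 (nm_eq_zero.1 h4.symm), ?_⟩
  rcases f.uniq k hk.2 h2 with rfl | rfl
  · exact .inl (mul_one _)
  · exact .inr (f.Kj f.tK u)

theorem intoT (g : G) : ∃ h, h * (g * f.t * g⁻¹) * h⁻¹ = f.t ∧
    ∀ x ∈ f.T, x * (g * f.t * g⁻¹) = g * f.t * g⁻¹ * x → h * x * h⁻¹ ∈ f.T := by
  have : Fact (Nat.Prime 2) := ⟨Nat.prime_two⟩
  obtain ⟨P, hP, hle⟩ := exists_isSylowIn_ge (K := f.C)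
    (pgroup_cj (f.T_syl.pgroup.to_inf_left (K := centralizer {g * f.t * g⁻¹})) g⁻¹)
    (by rw [cj_le_iff, inv_inv, cj_centralizer_singleton]; exact inf_le_right)
  obtain ⟨c, hc, e⟩ := hP.exists_cj_eq f.T_syl
  refine ⟨c * g⁻¹, ?_, fun x hx h => ?_⟩
  · calc _ = c * f.t * c⁻¹ := by group
      _ = _ := by rw [f.memC.1 hc, mul_inv_cancel_right]
  · have := conj_mem_cj c (hle (conj_mem_cj g⁻¹ (show x ∈ _ ⊓ _ from ⟨hx, mem_centralizer_singleton_iff.2 h⟩)))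
    rw [e] at this
    convert this using 1; group

theorem two_V : ∃ a ∈ f.V, a ≠ 1 ∧ ∃ b ∈ f.V, b ≠ 1 ∧ a * b ≠ 1 := by
  obtain ⟨l, hl, l0, l1, -⟩ := f.exists_K 1 1
  refine ⟨_, f.vv_mem 1, fun e => one_ne_zero (f.vv_inj (map_one σ) (map_zero σ) (e.trans f.vv_zero.symm)),
    _, f.vv_mem l, fun e => l0 (f.vv_inj hl (map_zero σ) (e.trans f.vv_zero.symm)), fun e => l1 ?_⟩
  exact f.vv_inj hl (map_one σ) (mul_left_cancel (e.trans (f.V_sq (f.vv_mem 1)).symm))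

variable {f} {ρ : G} (hρ : ρ ∈ f.T ⊓ f.K) (h2 : ρ * ρ = f.t)
include hρ h2

theorem inv4 (g : G) : ∃ r, r * r = g * f.t * g⁻¹ ∧ ∀ x ∈ f.T, x * (g * f.t * g⁻¹) = g * f.t * g⁻¹ * x →
    x * r * x⁻¹ = r ∨ x * r * x⁻¹ = r * (g * f.t * g⁻¹) := by
  obtain ⟨h, h1, h3⟩ := f.intoT g
  generalize g * f.t * g⁻¹ = s at h1 h3
  have e : s = h⁻¹ * f.t * h := by rw [← h1]; group
  refine ⟨h⁻¹ * ρ * h, by rw [e, ← h2]; group, fun x hx hc => ?_⟩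
  have hy := h3 x hx hc
  obtain ⟨y, rfl⟩ : ∃ y, x = h⁻¹ * y * h := ⟨h * x * h⁻¹, by group⟩
  rw [show h * (h⁻¹ * y * h) * h⁻¹ = y by group] at hy
  have m : y * ρ * y⁻¹ ∈ f.T ⊓ f.K := mem_inf.2 ⟨mul_mem (mul_mem hy hρ.1) (inv_mem hy),
    (mem_normalizer_iff.1 (f.CK (f.T_syl.le hy)) ρ).1 hρ.2⟩
  have e1 : ρ⁻¹ * (y * ρ * y⁻¹) * (ρ⁻¹ * (y * ρ * y⁻¹)) = 1 := by
    calc _ = ρ⁻¹ * (y * ρ * y⁻¹ * ρ⁻¹) * (y * ρ * y⁻¹) := by group
      _ = (ρ * ρ)⁻¹ * (y * (ρ * ρ) * y⁻¹) := by rw [f.ab _ m _ (Subgroup.inv_mem _ hρ)]; group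
      _ = 1 := by rw [h2, f.cT hy]; group
  rcases f.uniq _ (mul_mem (inv_mem hρ.2) m.2) e1 with e2 | e2
  · left
    calc _ = h⁻¹ * ρ * (ρ⁻¹ * (y * ρ * y⁻¹)) * h := by group
      _ = _ := by rw [e2, mul_one]
  · right
    calc _ = h⁻¹ * ρ * (ρ⁻¹ * (y * ρ * y⁻¹)) * h := by group
      _ = _ := by rw [e2, e]; group

theorem notA {g v : G} (hv : v ∈ f.V) (e : g * f.t * g⁻¹ = v ∨ g * f.t * g⁻¹ = f.t * v) :
    g * f.t * g⁻¹ = f.t := by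
  obtain ⟨r, r2, hr⟩ := inv4 hρ h2 g
  have s2 : g * f.t * g⁻¹ * (g * f.t * g⁻¹) = 1 := by rw [conj_mul, f.t2]; group
  have s1 : g * f.t * g⁻¹ ≠ 1 := by simpa using f.t1
  generalize g * f.t * g⁻¹ = s at *
  have cm : ∀ x ∈ f.T, x * v = v * x → x * s = s * x := fun x hx h => by
    rcases e with rfl | rfl
    · exact h
    · rw [← mul_assoc, f.cT hx, mul_assoc, h, mul_assoc]
  have cρ := cm ρ hρ.1 (f.KV hρ.2 hv).symm
  have rC : r⁻¹ ∈ f.C := inv_mem (f.memC.2 (by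
    rcases hr ρ hρ.1 cρ with h | h
    · rw [← h2, ← mul_assoc, ← mul_inv_eq_iff_eq_mul.1 h, mul_assoc, ← mul_inv_eq_iff_eq_mul.1 h, mul_assoc]
    · have h' := mul_inv_eq_iff_eq_mul.1 h
      calc _ = r * (s * s) * ρ * ρ := by rw [s2, ← h2]; group
        _ = r * s * ρ * s * ρ := by rw [mul_assoc _ ρ s, cρ]; group
        _ = ρ * (r * s * ρ) := by rw [← h', mul_assoc ρ, mul_assoc ρ, ← h']
        _ = _ := by rw [← h', ← h2, mul_assoc]))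
  have key : ∀ u, r⁻¹ * f.j u * r⁻¹⁻¹ = f.j u ∨ (s = v ∧ r⁻¹ * f.j u * r⁻¹⁻¹ = v * f.j u) := fun u => by
    rcases hr _ (f.jT u) (cm _ (f.jT u) (f.V_comm hv u).symm) with h | h
    · left; rw [inv_inv, mul_assoc, mul_inv_eq_iff_eq_mul.1 h, inv_mul_cancel_left]
    · have h3 : r⁻¹ * f.j u * r⁻¹⁻¹ = s * f.j u := by
        rw [inv_inv, mul_assoc, mul_inv_eq_iff_eq_mul.1 h]; group
      have h4 := (mem_normalizer_iff.1 (f.CA rC) _).1 (f.jA u)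
      rw [h3, mul_mem_cancel_right (f.jA u)] at h4
      rcases e with rfl | rfl
      · exact .inr ⟨rfl, h3⟩
      · exact absurd ((mul_mem_cancel_right (f.VA hv)).1 h4) f.tA
  obtain ⟨u, k, hk, e1⟩ := f.ker _ rC fun u => by
    rcases key u with h | ⟨-, h⟩
    · exact ⟨u, h, rfl⟩
    · obtain ⟨w, hw, rfl⟩ := hv
      exact ⟨w * u, by rw [h, map_mul], by rw [mul_a, H1.U3.mem_center_iff.1 hw, zero_add]⟩
  have u0 : u.a = 0 := by
    by_contra u0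
    obtain ⟨y, hy, rfl⟩ := f.mem_V.1 hv
    obtain ⟨x, hx, x0, xy, -⟩ := f.exists_K y y
    obtain ⟨b, hb⟩ := exists_bl u0 hx
    have h3 := f.j_cm u (lift σ b)
    have h4 : r⁻¹ * f.j (lift σ b) * r⁻¹⁻¹ = f.vv x * f.j (lift σ b) := by
      rw [← hb, ← lift_a (σ := σ) b, ← h3, lift_a, e1, mul_assoc _ k, ← f.Kj hk]; group
    rcases key (lift σ b) with h | ⟨-, h⟩ <;> rw [h4] at h
    · exact x0 (f.vv_inj hx (map_zero σ) ((mul_eq_right.1 h).trans f.vv_zero.symm))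
    · exact xy (f.vv_inj hx hy (mul_right_cancel h))
  have h5 := f.sq_jk u hk
  rw [← e1, f.V_sq (f.j_mem_V.2 u0), one_mul, ← mul_inv_rev, r2, inv_eq_of_mul_eq_one_right s2] at h5
  exact (f.uniq s (h5 ▸ mul_mem hk hk) s2).resolve_left s1

theorem notS {g : G} (hs : g * f.t * g⁻¹ ∈ f.T) (h : f.tt (g * f.t * g⁻¹) = sigAut σ) : False := by
  obtain ⟨r, r2, hr⟩ := inv4 hρ h2 g
  have s2 : g * f.t * g⁻¹ * (g * f.t * g⁻¹) = 1 := by rw [conj_mul, f.t2]; group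
  generalize g * f.t * g⁻¹ = s at *
  have sV := (f.nm_cc_of_sig (f.T_N hs) h (by rw [s2, f.ct_one.1])).2
  have hv : ∀ v ∈ f.V, v * r * v⁻¹ = r ∨ v * r * v⁻¹ = r * s := fun v hv => hr v (f.VT hv) (sV v hv)
  obtain ⟨a, ha, a1, b, hb, b1, ab⟩ := f.two_V
  rcases hr _ f.tT (f.cT hs).symm with h1 | h1
  · have rC : r ∈ f.C := f.memC.2 (mul_inv_eq_iff_eq_mul.1 h1).symm
    have rV : r ∈ centralizer (f.V : Set G) := fun v m => by
      refine mul_inv_eq_iff_eq_mul.1 ((hv v m).resolve_right fun e => ?_)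
      have h3 := mul_mem ((mem_normalizer_iff.1 (f.CA (inv_mem rC)) _).1 (f.VA m)) (inv_mem (f.VA m))
      rw [show r⁻¹ * v * r⁻¹⁻¹ * v⁻¹ = r⁻¹ * (v * r * v⁻¹) by group, e, inv_mul_cancel_left] at h3
      obtain ⟨u, rfl⟩ := f.AT s hs h3
      exact sig_ne_one (h.symm.trans (f.ct_j u).2)
    obtain ⟨u, rfl⟩ := f.V_le_Q ha
    have rN := f.ti r rC u u (fun e => a1 (by rw [e, map_one])) (by rw [← rV _ ha, mul_inv_cancel_right])
    rw [← r2, f.tt_mul rN rN] at h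
    rcases (f.tt_of_cen_V rN rV).2 with e | e <;> rw [e] at h
    · exact sig_ne_one (h.symm.trans (mul_one _))
    · exact sig_ne_one (h.symm.trans sig_mul_sig)
  obtain ⟨v, m, v1, vr⟩ : ∃ v ∈ f.V, v ≠ 1 ∧ v * r * v⁻¹ = r := by
    rcases hv a ha with e | e
    · exact ⟨a, ha, a1, e⟩
    rcases hv b hb with e' | e'
    · exact ⟨b, hb, b1, e'⟩
    refine ⟨_, mul_mem ha hb, ab, ?_⟩
    calc _ = a * (b * r * b⁻¹) * a⁻¹ := by group
      _ = a * r * a⁻¹ * (a * s) * a⁻¹ := by rw [e']; group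
      _ = r * (s * s) := by rw [e, sV a ha]; group
      _ = _ := by rw [s2, mul_one]
  have e1 : r⁻¹ * f.t * r = s * f.t := by rw [mul_assoc, mul_inv_eq_iff_eq_mul.1 h1]; group
  have m1 := f.T_N (mul_mem hs f.tT)
  obtain ⟨u, e2⟩ := f.sig_conj m1
    (by rw [f.tt_mul (f.T_N hs) (f.T_N f.tT), h, (f.ct_cen (f.K_cQ f.tK)).2, mul_one])
    (by rw [← e1, show r⁻¹ * f.t * r * (r⁻¹ * f.t * r) = r⁻¹ * (f.t * f.t) * r by group, f.t2]; simp [one_mem]) m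
  have e3 : r * f.j u * r⁻¹ * f.t * (r * f.j u * r⁻¹)⁻¹ = f.t * v := by
    calc _ = r * (f.j u * (r⁻¹ * f.t * r) * (f.j u)⁻¹) * r⁻¹ := by group
      _ = f.t * (r * v) * r⁻¹ := by rw [e1, e2, ← e1]; group
      _ = _ := by rw [← mul_inv_eq_iff_eq_mul.1 vr]; group
  have := notA hρ h2 m (.inr e3)
  rw [e3] at this
  exact v1 (mul_eq_left.1 this)

theorem isoA {g : G} (hs : g * f.t * g⁻¹ ∈ f.T) : g * f.t * g⁻¹ = f.t := by
  have s2 : g * f.t * g⁻¹ * (g * f.t * g⁻¹) = 1 := by rw [conj_mul, f.t2]; group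
  rcases f.tt_cases (f.T_N hs) (by rw [s2, f.ct_one.2]) with h | h
  · obtain ⟨v, hv, e⟩ := f.invT hs s2 h
    exact notA hρ h2 hv e
  · exact (notS hρ h2 hs h).elim

end Pf

end Cfsg.Agent.WA.Su
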