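import Cfsg.Agent.WA.SuB
import Cfsg.Agent.H7.ZStar

/-! The centralizer of the involution splits unless the involution is isolated. -/

set_option autoImplicit false
set_option linter.unusedSectionVars false

namespace Cfsg.Agent.WA.Su

open Subgroup Cfsg.Agent.H1.U3 Cfsg.Agent.H8 Cfsg.Agent.WA.Lk

variable {F : Type*} [Field F] [Finite F] {σ : F →+* F} [Ctx σ] {G : Type*} [Group G] [Finite G]

namespace Pf

variable (f : Pf σ G)

theorem sq_jkx {x k : G} (hx : x ∈ normalizer (f.Q : Set G)) (hk : k ∈ f.K) (u : US σ) :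
    f.j u * k * x * (f.j u * k * x) = f.j (u * f.aut x u) * (k * (x * k * x⁻¹)) * (x * x) := by
  calc _ = f.j u * (k * (x * f.j u * x⁻¹)) * (x * k * x⁻¹) * (x * x) := by group
    _ = _ := by rw [f.conj_j hx, ← f.Kj hk, map_mul]; group

theorem sigsq {g v : G} (hg : g ∈ f.D) (h : f.tt g = sigAut σ) (hv : v ∈ f.V) (h2 : g * g = f.t * v) : v = 1 := by
  obtain ⟨x, hx, rfl⟩ := f.mem_V.1 hv
  obtain ⟨l, hl, l0, l1, -⟩ := f.exists_K 1 1
  let μ := Units.mk0 l l0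
  have hd := f.d_mem_D μ
  have c1 : f.cc (f.d μ) = l := f.cc_d_K hl
  have t1 := (f.ct_d μ).2.1
  have h3 := f.ct_div (mul_mem hd.2 hg.2) (mul_mem hg.2 hd.2)
    (by rw [f.cc_mul hd.2 hg.2, f.cc_mul hg.2 hd.2, c1, t1, h, sigAut_apply, hl, mul_comm]; rfl)
    (by rw [f.tt_mul hd.2 hg.2, f.tt_mul hg.2 hd.2, t1, one_mul, mul_one])
  have m := mul_mem (mul_mem hd hg) (inv_mem (mul_mem hg hd))
  obtain ⟨u, k, hk, e1⟩ := f.ker _ m.1 fun u => ⟨_, f.conj_j m.2 u, by rw [f.aut_a, h3.1, h3.2]; simp⟩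
  have hk' := mul_mem hk ((mem_normalizer_iff.1 (f.CK hg.1) k).1 hk)
  have e2 := f.sq_jkx hg.2 hk u
  have e3 : f.d μ * f.vv x * (f.d μ)⁻¹ = f.vv (nm σ l * x) := (f.conj_vv hd.2 hx).trans (by rw [c1, t1]; rfl)
  rw [← e1, show f.d μ * g * (g * f.d μ)⁻¹ * g * (f.d μ * g * (g * f.d μ)⁻¹ * g) = f.d μ * (g * g) * (f.d μ)⁻¹ by
    group, h2, ← mul_assoc, f.memC.1 hd.1, mul_assoc, mul_assoc, ← mul_assoc (f.d μ), e3, ← f.KV f.tK (f.vv_mem _),
    ← f.KV f.tK hv, ← mul_assoc, mul_left_inj] at e2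
  generalize k * (g * k * g⁻¹) = k' at *
  obtain ⟨w, hw⟩ : k' ∈ f.Q := by
    have := f.V_le_Q (f.vv_mem (nm σ l * x))
    rwa [e2, mul_mem_cancel_right (f.V_le_Q hv), mul_mem_cancel_left (show _ ∈ f.Q from ⟨_, rfl⟩)] at this
  rw [← hw, f.QK w (hw ▸ hk'), map_one, mul_one] at e2
  have e4 : (u * f.aut g u).a = 0 := f.j_mem_V.1 (by
    rw [eq_mul_inv_of_mul_eq e2.symm]
    exact f.V.mul_mem (f.vv_mem _) (f.V.inv_mem (f.vv_mem _)))
  rw [mul_a, f.aut_a, h, sigAut_apply] at e4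
  have e5 := f.sig_inv hg.2 h (h2 ▸ mul_mem (f.K_cQ f.tK) (f.V_cen_Q hv)) (u := u)
    (by linear_combination e4 - u.a * two σ)
  rw [map_mul, ← f.conj_j hg.2, e5, mul_inv_cancel, one_mul] at e2
  have e6 := f.vv_inj (by rw [map_mul, nm_fixed, hx]) hx e2
  have e7 : nm σ l ≠ 1 := fun e7 => l1 (eq_one_of_pow_two_pow σ (k := 1) (by
    rwa [nm, hl, ← pow_two] at e7))
  have e8 : x = 0 := by
    by_contra h0
    exact e7 (mul_right_cancel₀ h0 (by rw [e6, one_mul]))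
  rw [e8, f.vv_zero]

theorem T_le_D : f.T ≤ f.D := le_inf f.T_syl.le f.T_N

theorem tt_tj (w : US σ) : f.cc (f.t * f.j w) = 1 ∧ f.tt (f.t * f.j w) = 1 := by
  have h := f.ct_mul (f.T_N f.tT) (f.T_N (f.jT w))
  rw [h.1, h.2, (f.ct_cen (f.K_cQ f.tK)).1, (f.ct_cen (f.K_cQ f.tK)).2, (f.ct_j w).1, (f.ct_j w).2]
  simp

variable {f} (hK : ∀ ρ ∈ f.T ⊓ f.K, ρ * ρ ≠ f.t)
include hK

theorem RK {k : G} (hk : k ∈ f.T ⊓ f.K) : k = 1 ∨ k = f.t := by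
  obtain ⟨n, hn⟩ := H9.exists_pow_eq_one_of_mem f.T_syl.pgroup hk.1
  induction n generalizing k with
  | zero => exact .inl (by simpa using hn)
  | succ n ih =>
    exact f.uniq k hk.2 ((ih (mul_mem hk hk) (by rw [← pow_two, ← pow_mul, ← pow_succ', hn])).resolve_right (hK k hk))

theorem sig_of {y : G} (hy : y ∈ f.T) {w : US σ} (e : y * y = f.t * f.j w) : f.tt y = sigAut σ := by
  refine (f.tt_cases (f.T_N hy) (by rw [e, (f.tt_tj w).2])).resolve_left fun h => f.tQ ?_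
  obtain ⟨u, k, hk, rfl⟩ := f.decT hy h
  rw [f.sq_jk u hk.2, show k * k = 1 by rcases RK hK hk with rfl | rfl; exacts [mul_one _, f.t2], mul_one] at e
  rw [eq_mul_inv_of_mul_eq e.symm]
  exact mul_mem (mul_mem ⟨u, rfl⟩ ⟨u, rfl⟩) (inv_mem ⟨w, rfl⟩)

section

variable {x : G} {w : US σ} (hx : x ∈ f.T) (x2 : x * x = f.t * f.j w)
include hx x2

theorem invB {s : G} (hs : s ∈ f.T) (s2 : s * s = 1) : ∃ v ∈ f.V, s = v ∨ s = f.t * v := by
  refine f.invT hs s2 ((f.tt_cases (f.T_N hs) (by rw [s2, f.ct_one.2])).resolve_right fun h => f.tQ ?_)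
  obtain ⟨u, k, hk, e⟩ := f.decT (mul_mem hs (inv_mem hx)) (by
    rw [f.tt_mul (f.T_N hs) (inv_mem (f.T_N hx)), f.tt_inv (f.T_N hx), h, sig_of hK hx x2, mul_inv_cancel])
  have e1 := f.sq_jkx (f.T_N hx) hk.2 u
  rw [← e, inv_mul_cancel_right, s2, x2, show k * (x * k * x⁻¹) = 1 by
    rcases RK hK hk with rfl | rfl
    · simp
    · rw [f.cT hx, mul_inv_cancel_right, f.t2], mul_one, ← f.Kj f.tK, ← mul_assoc, ← map_mul] at e1
  rw [eq_inv_of_mul_eq_one_right e1.symm]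
  exact inv_mem ⟨_, rfl⟩

theorem exists_root : ∃ y ∈ f.T, y ∈ centralizer (f.V : Set G) ∧ y * y = f.t := by
  have h := sig_of hK hx x2
  have hN := f.T_N hx
  obtain ⟨h1, h2⟩ := f.nm_cc_of_sig hN h (by rw [x2, (f.tt_tj w).1])
  obtain ⟨-, -, -, h3⟩ := exists_fix h1
  have h4 : f.aut x w = w := f.j_inj (by
    rw [← f.conj_j hN, mul_inv_eq_iff_eq_mul, ← mul_right_inj f.t, ← mul_assoc, ← mul_assoc, ← x2, ← f.cT hx,
      mul_assoc x f.t, ← x2, mul_assoc])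
  obtain ⟨b, hb⟩ := h3 w.a (by have := f.aut_a x w; rwa [h4, h, eq_comm] at this)
  have hy := mul_mem hx (f.jT (lift σ b))
  have e : x * f.j (lift σ b) * (x * f.j (lift σ b)) = f.t * f.j (f.aut x (lift σ b) * w * lift σ b) := by
    rw [map_mul, map_mul, ← mul_assoc f.t, ← mul_assoc f.t, ← f.Kj f.tK, ← f.conj_j hN, mul_assoc _ f.t, ← x2]; group
  have hv : f.j (f.aut x (lift σ b) * w * lift σ b) ∈ f.V := f.j_mem_V.2 (by
    rw [mul_a, mul_a, f.aut_a, h, lift_a, sigAut_apply]; linear_combination hb + w.a * two σ)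
  refine ⟨_, hy, mul_mem h2 fun v m => f.V_comm m _, ?_⟩
  rw [e, f.sigsq (f.T_le_D hy) (sig_of hK hy e) hv e, mul_one]

theorem isoB {g : G} (hs : g * f.t * g⁻¹ ∈ f.T) : g * f.t * g⁻¹ = f.t := by
  have s2 : g * f.t * g⁻¹ * (g * f.t * g⁻¹) = 1 := by rw [conj_mul, f.t2]; group
  obtain ⟨h, h1, h3⟩ := f.intoT g
  obtain ⟨y, hy, yV, y2⟩ := exists_root hK hx x2
  generalize g * f.t * g⁻¹ = s at *
  have tV : f.t ∉ f.V := fun e => f.tQ (f.V_le_Q e)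
  have sq : ∀ z ∈ f.T, z * s = s * z → z * z * (z * z) = 1 → h * (z * z) * h⁻¹ ∈ f.V ∨ h * (z * z) * h⁻¹ = f.t :=
    fun z hz c z4 => by
      have m := h3 z hz c
      obtain ⟨v, hv, e | e⟩ := invB hK hx x2 (mul_mem m m) (by simp only [conj_mul, z4]; group) <;> rw [← conj_mul]
      · exact .inl (e ▸ hv)
      · obtain ⟨u, rfl⟩ := f.V_le_Q hv
        rw [e, f.sigsq (f.T_le_D m) (sig_of hK m e) hv e, mul_one]; exact .inr rfl
  obtain ⟨v, hv, e⟩ := invB hK hx x2 hs s2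
  have sV : ∀ a ∈ f.V, h * a * h⁻¹ ∈ f.V ∨ h * a * h⁻¹ = f.t := fun a ha => by
    obtain ⟨u, rfl⟩ := f.exists_sq ha
    refine sq _ (f.jT u) ?_ (f.V_sq ha)
    rcases e with rfl | rfl
    · exact (f.V_comm hv u).symm
    · rw [← mul_assoc, f.Kj f.tK, mul_assoc, ← f.V_comm hv, mul_assoc]
  rcases e with rfl | rfl
  · exfalso
    obtain ⟨a, ha, a1, as⟩ : ∃ a ∈ f.V, a ≠ 1 ∧ a ≠ s := by
      obtain ⟨a, ha, a1, b, hb, b1, ab⟩ := f.two_V
      by_cases e : a = s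
      · exact ⟨b, hb, b1, fun e' => ab (by rw [e, e', s2])⟩
      · exact ⟨a, ha, a1, e⟩
    have h4 := (sV a ha).resolve_right fun e => as (by simpa using e.trans h1.symm)
    rcases sV _ (mul_mem hv ha) with e | e <;> rw [← conj_mul, h1] at e
    · exact tV ((mul_mem_cancel_right h4).1 e)
    · exact a1 (by simpa using e)
  rw [← conj_mul] at h1
  rcases sq y hy (by rw [← mul_assoc, f.cT hy, mul_assoc, ← yV v hv, mul_assoc]) (by rw [y2, f.t2]) with e | e <;>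
    rw [y2] at e
  · rcases sV v hv with e' | e'
    · exact absurd (h1 ▸ mul_mem e e') tV
    · rw [e'] at h1; exact absurd (by simpa using h1) f.t1
  · rw [e] at h1
    rw [show v = 1 by simpa using h1, mul_one]

end

theorem split_of {φ : G} (hφ : φ ∈ f.T) (h : ∀ x ∈ f.T, ∃ i : ℕ, f.tt φ ^ i = f.tt x) (ht : f.t ∉ f.Q ⊔ zpowers φ) :
    ∃ U ≤ f.C, f.t ∉ U ∧ ∀ x ∈ f.C, x ∈ U ∨ f.t * x ∈ U := by
  have : Fact (Nat.Prime 2) := ⟨Nat.prime_two⟩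
  have hM : f.Q ⊔ zpowers φ ≤ f.T := sup_le (by rintro _ ⟨u, rfl⟩; exact f.jT u) (zpowers_le.2 hφ)
  have h2 : (f.Q ⊔ zpowers φ).relIndex f.T = 2 := relIndex_eq_two_iff.2 ⟨f.t, f.tT, fun b hb => by
    obtain ⟨i, hi⟩ := h b hb
    have p := pow_mem hφ i
    obtain ⟨u, k, hk, e⟩ := f.decT (mul_mem hb (inv_mem p)) (by
      rw [f.tt_mul (f.T_N hb) (inv_mem (f.T_N p)), f.tt_inv (f.T_N p), f.tt_pow (f.T_N hφ), hi, mul_inv_cancel])
    have m : f.j u * φ ^ i ∈ f.Q ⊔ zpowers φ := mul_mem_sup ⟨u, rfl⟩ (npow_mem_zpowers φ i)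
    rw [eq_mul_of_mul_inv_eq e]
    rcases RK hK hk with rfl | rfl
    · rw [mul_one]; exact .inr ⟨m, fun e => ht ((mul_mem_cancel_left m).1 e)⟩
    · rw [mul_assoc (f.j u), ← f.cT p, ← mul_assoc, mul_assoc _ f.t, f.t2, mul_one]
      exact .inl ⟨m, fun e => ht ((mul_mem_cancel_left m).1 e)⟩⟩
  by_cases hG : ∀ K : Subgroup f.C, K.index = 2 → (⟨f.t, f.KC f.tK⟩ : f.C) ∈ K
  · obtain ⟨g, h1, -⟩ := thompson hG (H := f.T.subgroupOf f.C) (M := (f.Q ⊔ zpowers φ).subgroupOf f.C)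
      (Nat.not_even_iff_odd.1 fun e => f.T_syl.not_dvd_relIndex e.two_dvd) (fun _ h => hM h)
      (by rw [relIndex_subgroupOf f.T_syl.le, h2]) (Subtype.ext f.t2) (T := ⊥) IsPGroup.of_bot
      fun x hx => by rw [mem_bot.1 hx, one_mul, mul_one]
    refine absurd ?_ ht
    have h3 : (g : G)⁻¹ * f.t * g ∈ f.Q ⊔ zpowers φ := h1
    rwa [mul_assoc, ← f.memC.1 g.2, inv_mul_cancel_left] at h3
  push Not at hG
  obtain ⟨U, hU, htU⟩ := hG
  refine ⟨U.map f.C.subtype, map_subtype_le _, fun ⟨y, hy, e⟩ => htU (by rwa [show y = ⟨_, f.KC f.tK⟩ from Subtype.ext e] at hy), fun x hx => ?_⟩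
  by_cases m : (⟨x, hx⟩ : f.C) ∈ U
  · exact .inl ⟨_, m, rfl⟩
  · exact .inr ⟨⟨f.t, f.KC f.tK⟩ * ⟨x, hx⟩, (mul_mem_iff_of_index_two hU).2 (iff_of_false htU m), rfl⟩

theorem split (hx : ∀ x ∈ f.T, ∀ w, x * x ≠ f.t * f.j w) :
    ∃ U ≤ f.C, f.t ∉ U ∧ ∀ x ∈ f.C, x ∈ U ∨ f.t * x ∈ U := by
  have : CharP F 2 := charP_two σ
  have := isCyclic_ringAut (F := F)
  let τ : f.T →* RingAut F := MonoidHom.mk' (fun x => f.tt x) fun a b => f.tt_mul (f.T_N a.2) (f.T_N b.2)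
  obtain ⟨⟨_, ⟨φ, hφ⟩, rfl⟩, hg⟩ := IsCyclic.exists_monoid_generator (α := τ.range)
  have h : ∀ x ∈ f.T, ∃ i : ℕ, f.tt φ ^ i = f.tt x := fun x hx =>
    (hg ⟨_, ⟨x, hx⟩, rfl⟩).imp fun i hi => congrArg Subtype.val hi
  by_cases h1 : f.tt φ = 1
  · exact split_of hK (one_mem _) (by rwa [f.ct_one.2, ← h1]) (by simpa using f.tQ)
  refine split_of hK hφ h fun ht => ?_
  obtain ⟨_, ⟨u, rfl⟩, y, hy, e⟩ := (H5.mem_sup_of_le_normalizer_left (zpowers_le.2 (f.T_N hφ))).1 ht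
  obtain ⟨i, rfl⟩ := mem_powers_iff_mem_zpowers.2 hy
  have e1 : φ ^ i = f.t * f.j u⁻¹ := by rw [← f.Kj f.tK, ← e, map_inv, inv_mul_cancel_left]
  rcases Nat.even_or_odd i with ⟨m, rfl⟩ | hi
  · exact hx _ (pow_mem hφ m) _ (by rw [← pow_add, e1])
  · obtain ⟨k, hk⟩ := H9.exists_pow_eq_one_of_mem f.T_syl.pgroup hφ
    refine h1 (eq_one_of_odd_two (hi.of_dvd_nat (orderOf_dvd_of_pow_eq_one ?_)) (k := k) ?_)
    · rw [← f.tt_pow (f.T_N hφ), e1, (f.tt_tj _).2]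
    · rw [← f.tt_pow (f.T_N hφ), hk, f.ct_one.2]

omit hK in
theorem main (f : Pf σ G) (hO : pPrimeCore 2 G = ⊥) (hC : f.C ≠ ⊤) :
    ∃ U ≤ f.C, f.t ∉ U ∧ ∀ x ∈ f.C, x ∈ U ∨ f.t * x ∈ U := by
  have : Fact (Nat.Prime 2) := ⟨Nat.prime_two⟩
  have key : ¬ ∀ g, g * f.t * g⁻¹ ∈ f.T → g * f.t * g⁻¹ = f.t := fun h => hC (eq_top_iff.2 fun g _ => by
    have := H7.zstar_commute f.t2 (fun g c => by
      obtain ⟨P, hP, hle⟩ := exists_isSylowIn_ge (K := f.C) (H9.isPGroup_zpowers (a := g * f.t * g⁻¹)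
        ⟨1, by rw [pow_one, pow_two, conj_mul, f.t2]; group⟩) (zpowers_le.2 (f.memC.2 c.symm))
      obtain ⟨c, hc, e⟩ := hP.exists_cj_eq f.T_syl
      have h1 := h (c * g) (by
        have := conj_mem_cj c (hle (mem_zpowers _))
        rw [e] at this
        convert this using 1; group)
      calc _ = c⁻¹ * (c * g * f.t * (c * g)⁻¹) * c := by group
        _ = _ := by rw [h1, mul_assoc, ← f.memC.1 hc, inv_mul_cancel_left]) g
    rw [hO, mem_bot, commutatorElement_eq_one_iff_mul_comm] at this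
    exact f.memC.2 this.symm)
  by_cases hK : ∀ ρ ∈ f.T ⊓ f.K, ρ * ρ ≠ f.t
  · refine split hK fun x hx w e => key fun g => isoB hK hx e
  · push Not at hK
    obtain ⟨ρ, hρ, h2⟩ := hK
    exact absurd (fun g => isoA hρ h2) key

end Pf

end Cfsg.Agent.WA.Su
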