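import Cfsg.Agent.WA.SuC
import Cfsg.Agent.WA.UkEx
import Cfsg.Agent.H7.Pump
import Cfsg.Agent.H4.Scn3
import Cfsg.Agent.WA.UkDef
import Cfsg.Agent.H1.F4

/-! Existence of the pre-frame and of the frame for a standard unitary subgroup. -/

set_option autoImplicit false

namespace Cfsg.Agent.WA.Su

open Subgroup Cfsg.Agent.H1.U3 Cfsg.Agent.H8 Cfsg.Agent.WA.Lk Cfsg.Agent.H7

variable {F : Type*} [Field F] [Fintype F] {G : Type*} [Group G] [Finite G] {A : Subgroup G} {t : G} {n : ℕ}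

theorem exists_pf (hA : IsStandardSubgroup A)
    (hR : ∀ R : Sylow 2 (centralizer (A : Set G)), IsCyclic (R : Subgroup (centralizer (A : Set G))))
    (ht : orderOf t = 2) (htA : t ∈ centralizer (A : Set G)) (hF : Fintype.card F = 4 ^ n)
    (hAX : Nonempty (A ⧸ center A ≃* PSU 3 F (2 ^ n))) : ∃ (σ : F →+* F) (_ : Ctx σ) (f : Pf σ G), f.t = t := by
  have hq := hA.1
  obtain ⟨i⟩ := id hAX
  have hn := LkX.two_le hq hF i
  obtain ⟨σ, hσ, hs⟩ := exists_ctx (by omega) hF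
  obtain ⟨f, f1, f2⟩ := LkX.exists_phi hs hq hn hF i
  let φ := A.subtype.comp f
  have hk : ∀ s, φ s = 1 → s ∈ center _ := fun s h => f2 s (by
    rw [show f s = 1 from Subtype.ext h]; exact one_mem _)
  have hr : φ.range = A := by
    rw [MonoidHom.range_comp, MonoidHom.range_eq_top.2 f1, ← MonoidHom.range_eq_map, range_subtype]
  have hφ : ∀ s, φ s ∈ A := fun s => (f s).2
  have CN := Std.centralizer_le hA ht htA
  have AC : A ≤ centralizer {t} := fun a ha => mem_centralizer_singleton_iff.2 (htA a ha)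
  have hS := LkX.sylQ hs φ
  rw [hr] at hS
  obtain ⟨T, hT, hQT⟩ := exists_isSylowIn_ge hS.pgroup (hS.le.trans AC)
  have TA := hS.max (T ⊓ A) inf_le_right (hT.pgroup.to_inf_left) (le_inf hQT hS.le)
  refine ⟨σ, hσ, ⟨n, hn, by rw [Nat.card_eq_fintype_card, hF], LkX.jj hs φ, LkX.j_inj hs hk, φ.comp (H7.Mu.δ hs),
    LkX.d_j hs φ, t, H4.mul_self_of_orderOf_two ht, H4.ne_one_of_orderOf_two ht, A,
    centralizer {t} ⊓ centralizer (A : Set G), T, fun u => hφ _, fun u => hφ _,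
    ⟨mem_centralizer_singleton_iff.2 rfl, htA⟩, inf_le_right, inf_le_left, CN,
    H7.le_normalizer_inf le_normalizer (CN.trans (H7.normalizer_le_normalizer_centralizer _)), fun u hu => ?_,
    fun k hk k2 => ?_, fun a ha b hb => ?_, fun x hx u u' hu e => LkX.ti' hs hk (hr ▸ CN hx) hu e,
    fun x hx ha => ?_, hT, ?_, fun u => hQT ⟨u, rfl⟩, fun x h1 h2 => TA.le ⟨h1, h2⟩⟩, rfl⟩
  · have h1 := odd_center hq hF hAX (z := f (toSU hs u)) (Subgroup.mem_center_iff.2 fun a => Subtype.ext (hu.2 a a.2))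
    have h2 := eq_one_of_odd_two h1 (k := 2) (by
      rw [← map_pow, ← map_pow, show u ^ 2 ^ 2 = 1 from pow_four u, map_one, map_one])
    exact LkX.j_inj hs hk ((congrArg Subtype.val h2).trans (map_one _).symm)
  · by_cases h : k = 1
    · exact .inl h
    · exact .inr (eq_of_prank_one' (prank_one_of_sylow_cyclic hR) hk.2 htA (H4.orderOf_eq_two_of k2 h) ht
        (mem_centralizer_singleton_iff.1 hk.1))
  · obtain ⟨P, hP, hle⟩ := exists_isSylowIn_ge (K := centralizer (A : Set G))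
      (hT.pgroup.to_inf_left (K := centralizer {t} ⊓ centralizer (A : Set G))) (inf_le_right.trans inf_le_right)
    have := hR hP.toSylow
    exact congrArg (fun x : hP.toSylow => ((x : centralizer (A : Set G)) : G))
      (mul_comm' (⟨⟨a, ha.2.2⟩, hle ha⟩ : hP.toSylow) ⟨⟨b, hb.2.2⟩, hle hb⟩)
  · obtain ⟨v, hv⟩ := LkX.ker' hs hk hn rfl (by rw [Nat.card_eq_fintype_card, hF]) (hr ▸ CN hx) ha
    rw [hr] at hv
    exact ⟨v, _, mem_inf.2 ⟨mul_mem (inv_mem (AC (hφ _))) hx, hv⟩, (mul_inv_cancel_left _ _).symm⟩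
  · rw [← TA]
    exact H7.le_normalizer_inf le_normalizer (hT.le.trans CN)

theorem exists_amb (hO : oddCore G = ⊥) (hA : IsStandardSubgroup A) (hnA : ¬ A.Normal)
    (hR : ∀ R : Sylow 2 (centralizer (A : Set G)), IsCyclic (R : Subgroup (centralizer (A : Set G))))
    (ht : orderOf t = 2) (htA : t ∈ centralizer (A : Set G)) (hF : Fintype.card F = 4 ^ n)
    (hAX : Nonempty (A ⧸ center A ≃* PSU 3 F (2 ^ n))) {L : Subgroup G} [L.Normal] (hL : IsSimpleGroup L)
    (hAL : A ≤ L) (hc : centralizer (L : Set G) = ⊥) : ∃ (σ : F →+* F) (_ : Ctx σ) (f : Fr σ ↥(L ⊔ zpowers t)),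
      f.n = n ∧ (∀ e ∈ f.E, e ≠ 1 → (e : G) = t) ∧ f.Amb (L.subgroupOf (L ⊔ zpowers t)) := by
  have CN := Std.centralizer_le hA ht htA
  have AC : A ≤ centralizer {t} := fun a ha => mem_centralizer_singleton_iff.2 (htA a ha)
  have t2 := H4.mul_self_of_orderOf_two ht
  obtain ⟨U, hU, tU, cov⟩ : ∃ U ≤ centralizer {t}, t ∉ U ∧ ∀ x ∈ centralizer {t}, x ∈ U ∨ t * x ∈ U := by
    obtain ⟨σ, _, p, rfl⟩ := exists_pf hA hR ht htA hF hAX
    exact p.main hO fun e => hnA (normalizer_eq_top_iff.1 (eq_top_iff.2 (e.ge.trans CN)))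
  have dec : ∀ x ∈ centralizer {t}, ∃ e ∈ zpowers t, ∃ u ∈ U, x = e * u := fun x hx => by
    rcases cov x hx with h | h
    · exact ⟨1, one_mem _, x, h, (one_mul _).symm⟩
    · exact ⟨t, mem_zpowers t, _, h, by rw [← mul_assoc, t2, one_mul]⟩
  have cm : ∀ e ∈ zpowers t, ∀ x ∈ centralizer ({t} : Set G), e * x = x * e := fun e he x hx =>
    (H8.centralizer_zpowers t ▸ hx : x ∈ centralizer (zpowers t : Set G)) e he
  have AU : A ≤ U := by
    rw [← QS.perfect hA.1, commutator_le]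
    intro a ha b hb
    obtain ⟨e, he, u, hu, rfl⟩ := dec a (AC ha)
    obtain ⟨e', he', u', hu', rfl⟩ := dec b (AC hb)
    have c1 : Commute e (e' * u') := cm e he _ (AC hb)
    have c2 : Commute e' u := cm e' he' _ (hU hu)
    have c3 : Commute e u := cm e he _ (hU hu)
    have c4 : Commute e' u' := cm e' he' _ (hU hu')
    rw [commutatorElement_def, show e * u * (e' * u') * (e * u)⁻¹ * (e' * u')⁻¹ = u * u' * u⁻¹ * u'⁻¹ by
      calc _ = u * (e * (e' * u')) * (e * u)⁻¹ * (e' * u')⁻¹ := by rw [c3.eq]; group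
        _ = u * (e' * u') * u⁻¹ * (e' * u')⁻¹ := by rw [c1.eq, c3.eq]; group
        _ = u * u' * (e' * u⁻¹) * (e' * u')⁻¹ := by rw [c4.eq]; group
        _ = _ := by rw [c2.inv_right.eq, mul_inv_rev, ← c4.inv_inv.eq]; group]
    exact mul_mem (mul_mem (mul_mem hu hu') (inv_mem hu)) (inv_mem hu')
  have l1 : L ≤ L ⊔ zpowers t := le_sup_left
  have l2 : zpowers t ≤ L ⊔ zpowers t := le_sup_right
  have l3 := hAL.trans l1
  let s : ↥(L ⊔ zpowers t) := ⟨t, l2 (mem_zpowers t)⟩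
  have hs : orderOf s = 2 := by rw [← ht, ← Subgroup.orderOf_coe]
  have mC : ∀ x : ↥(L ⊔ zpowers t), x ∈ centralizer {s} ↔ (x : G) ∈ centralizer {t} := fun x => by
    rw [mem_centralizer_singleton_iff, mem_centralizer_singleton_iff, Subtype.ext_iff]; rfl
  have mE : ∀ e ∈ (zpowers t).subgroupOf (L ⊔ zpowers t), e = 1 ∨ e = s := fun e he =>
    (H4.eq_one_or_eq_of_mem_zpowers_two ht he).imp Subtype.ext Subtype.ext
  have q := (QS.subgroupOf_iff l3).2 hA.1
  obtain ⟨i⟩ := hAX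
  have j := QuotientGroup.congr _ _ (subgroupOfEquivOfLe l3) (H1.map_center_eq _)
  obtain ⟨σ, _, f, e1, e2, e3, e4, x, x1, x2⟩ := exists_fr3 s hs ((zpowers t).subgroupOf _) (U.subgroupOf _)
    (A.subgroupOf _) ⟨fun e he => (mC e).2 (mem_centralizer_singleton_iff.2 (cm e he t
        (mem_centralizer_singleton_iff.2 rfl))), fun u hu => (mC u).2 (hU hu),
      fun a ha b hb => Subtype.ext (cm a ha b (hU hb)), (eq_bot_iff_forall _).2 fun e he =>
        (mE e he.1).resolve_right fun h => tU (h ▸ he.2 : s ∈ U.subgroupOf _), le_antisymm (sup_le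
        (fun e he => (mC e).2 (mem_centralizer_singleton_iff.2 (cm e he t (mem_centralizer_singleton_iff.2 rfl))))
        fun u hu => (mC u).2 (hU hu)) fun x hx => by
      obtain ⟨e, he, u, hu, h⟩ := dec x ((mC x).1 hx)
      rw [show x = ⟨e, l2 he⟩ * ⟨u, (mul_mem_cancel_left (l2 he)).1 (h ▸ x.2)⟩ from Subtype.ext h]
      exact mul_mem_sup he hu⟩
    ⟨inferInstance, fun e he => by
      rcases mE e he with rfl | rfl
      · exact one_pow _
      · rw [← hs, pow_orderOf_eq_one]⟩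
    (fun e => H4.ne_one_of_orderOf_two hs (mem_bot.1 (e.le (mem_zpowers t)))) (comap_mono AU)
    ((normal_subgroupOf_iff_le_normalizer (comap_mono AU)).2 fun u hu =>
      mem_normalizer_iff.2 fun a => mem_normalizer_iff.1 (CN (hU hu)) a) q n hF ⟨j.trans i⟩
    (fun z hz => by
      by_contra h
      obtain ⟨y, hy, y2⟩ := exists_involution_of_even (H := zpowers (z : G)) (by
        rw [Nat.card_zpowers, Subgroup.orderOf_coe]; exact even_iff_two_dvd.1 (Nat.not_odd_iff_even.1 h))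
      have h1 : y ∈ U ⊓ centralizer (A : Set G) := zpowers_le.2 (show (z : G) ∈ U ⊓ centralizer (A : Set G) from
        ⟨hz.1, fun a ha => congrArg Subtype.val (hz.2 ⟨a, l3 ha⟩ ha)⟩) hy
      exact tU (eq_of_prank_one' (prank_one_of_sylow_cyclic hR) h1.2 htA y2 ht
        (mem_centralizer_singleton_iff.1 (hU h1.1)) ▸ h1.1))
    fun e he e2 => by rw [(mE e he).resolve_left (H4.ne_one_of_orderOf_two e2)]
  refine ⟨σ, _, f, e3, fun e he h => congrArg Subtype.val ((mE e (e1 ▸ he)).resolve_left h),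
    inferInstance, (subgroupOfEquivOfLe l1).isSimpleGroup, fun g => ?_,
    fun g hg => Subtype.ext (mem_bot.1 (hc.le fun a ha => congrArg Subtype.val (hg ⟨a, l1 ha⟩ ha))),
    fun u => hAL (e4 u), x, hAL x1, e2 ▸ AU x1, x2⟩
  obtain ⟨k, hk, e, he, e5⟩ := (H5.mem_sup_of_le_normalizer_left le_normalizer_of_normal).1 g.2
  exact ⟨⟨k, l1 hk⟩, hk, ⟨e, l2 he⟩, e1 ▸ he, Subtype.ext e5.symm⟩

end Cfsg.Agent.WA.Su
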